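import Cfsg.Agent.H79.AbelThree

/-!
# Involutions in groups with an abelian Sylow subgroup and `|N/C| = 3` (S4721)
-/

set_option autoImplicit false
set_option linter.unusedSectionVars false
set_option linter.style.haveILetI false
set_option linter.unusedVariables false

namespace Cfsg.Agent.H79

open Cfsg Cfsg.Agent.CharBase Cfsg.Agent.Blk Cfsg.Agent.H25
open scoped ComplexConjugate

universe u

section three

variable {G : Type u} [Group G] [Finite G] {P : Subgroup G}

theorem pull_of_mem_centralizer (x : Subgroup.normalizer (P : Set G))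
    (hx : (x : G) ∈ Subgroup.centralizer (P : Set G)) (η : P →* ℂˣ) : pull x η = η := by
  apply MonoidHom.ext; intro w
  rw [pull_apply]
  congr 1
  apply Subtype.ext
  rw [cN_coe, mul_inv_eq_iff_eq_mul]
  exact (Subgroup.mem_centralizer_iff.1 hx w w.2).symm

/-- the quotient `N/C` -/
theorem card_quot (h : FrobAb P 3) :
    Nat.card (Subgroup.normalizer (P : Set G) ⧸
      (Subgroup.centralizer (P : Set G)).subgroupOf (Subgroup.normalizer (P : Set G))) = 3 := by
  rw [← Subgroup.index_eq_card]; exact h.idx

instance normal_C (P : Subgroup G) :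
    ((Subgroup.centralizer (P : Set G)).subgroupOf (Subgroup.normalizer (P : Set G))).Normal :=
  Subgroup.normal_subgroupOf_of_le_normalizer (Blk.normalizer_le_normalizer_centralizer P)

theorem cube_mem (h : FrobAb P 3) (n : Subgroup.normalizer (P : Set G)) :
    ((n * n * n : Subgroup.normalizer (P : Set G)) : G) ∈ Subgroup.centralizer (P : Set G) := by
  have h1 := Subgroup.pow_index_mem
    ((Subgroup.centralizer (P : Set G)).subgroupOf (Subgroup.normalizer (P : Set G))) n
  have h2 : ((Subgroup.centralizer (P : Set G)).subgroupOf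
    (Subgroup.normalizer (P : Set G))).index = 3 := h.idx
  rw [h2, Subgroup.mem_subgroupOf] at h1
  have h3 : n * n * n = n ^ 3 := by rw [pow_succ, pow_two]
  rw [h3]; exact h1

theorem sq_not_mem (h : FrobAb P 3) {n : Subgroup.normalizer (P : Set G)}
    (hn : (n : G) ∉ Subgroup.centralizer (P : Set G)) :
    ((n * n : Subgroup.normalizer (P : Set G)) : G) ∉ Subgroup.centralizer (P : Set G) := by
  intro h1
  apply hn
  have h2 := cube_mem h n
  have h3 : (n : G) = ((n * n : Subgroup.normalizer (P : Set G)) : G)⁻¹ *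
      ((n * n * n : Subgroup.normalizer (P : Set G)) : G) := by push_cast; group
  rw [h3]
  exact Subgroup.mul_mem _ (Subgroup.inv_mem _ h1) h2

theorem exists_not_mem (h : FrobAb P 3) : ∃ n : Subgroup.normalizer (P : Set G),
    (n : G) ∉ Subgroup.centralizer (P : Set G) := by
  by_contra hcon
  push Not at hcon
  have h1 : (Subgroup.centralizer (P : Set G)).subgroupOf (Subgroup.normalizer (P : Set G)) = ⊤ := by
    rw [eq_top_iff]
    intro x _
    exact Subgroup.mem_subgroupOf.2 (hcon x)
  have h2 := h.idx
  rw [Subgroup.relIndex, h1, Subgroup.index_top] at h2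
  omega

theorem coset_three (h : FrobAb P 3) {n : Subgroup.normalizer (P : Set G)}
    (hn : (n : G) ∉ Subgroup.centralizer (P : Set G)) (x : Subgroup.normalizer (P : Set G)) :
    ∃ k : Subgroup.normalizer (P : Set G), (k = 1 ∨ k = n ∨ k = n * n) ∧
      ∃ c : Subgroup.normalizer (P : Set G), (c : G) ∈ Subgroup.centralizer (P : Set G) ∧
        x = k * c := by
  classical
  by_contra hcon
  push Not at hcon
  set C' := (Subgroup.centralizer (P : Set G)).subgroupOf (Subgroup.normalizer (P : Set G)) with hC'
  let Q := Subgroup.normalizer (P : Set G) ⧸ C'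
  have : Fintype Q := Fintype.ofFinite Q
  have hcard : Fintype.card Q = 3 := by rw [← Nat.card_eq_fintype_card]; exact card_quot h
  have hne : ∀ a b : Subgroup.normalizer (P : Set G),
      ((a⁻¹ * b : Subgroup.normalizer (P : Set G)) : G) ∉ Subgroup.centralizer (P : Set G) →
      (QuotientGroup.mk a : Q) ≠ QuotientGroup.mk b := by
    intro a b hab h1
    rw [QuotientGroup.eq] at h1
    exact hab (Subgroup.mem_subgroupOf.1 h1)
  have hx : ∀ k : Subgroup.normalizer (P : Set G), (k = 1 ∨ k = n ∨ k = n * n) →
      ((k⁻¹ * x : Subgroup.normalizer (P : Set G)) : G) ∉ Subgroup.centralizer (P : Set G) := by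
    intro k hk h1
    exact hcon k hk (k⁻¹ * x) h1 (by group)
  have h2 := sq_not_mem h hn
  let s : Finset Q := {QuotientGroup.mk 1, QuotientGroup.mk n, QuotientGroup.mk (n * n),
    QuotientGroup.mk x}
  have hs : s.card = 4 := by
    rw [Finset.card_insert_of_notMem, Finset.card_insert_of_notMem, Finset.card_pair]
    · exact hne _ _ (hx _ (Or.inr (Or.inr rfl)))
    · rw [Finset.mem_insert, Finset.mem_singleton, not_or]
      refine ⟨hne _ _ ?_, hne _ _ (hx _ (Or.inr (Or.inl rfl)))⟩
      have : n⁻¹ * (n * n) = n := by group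
      rw [this]; exact hn
    · rw [Finset.mem_insert, Finset.mem_insert, Finset.mem_singleton, not_or, not_or]
      refine ⟨hne _ _ ?_, hne _ _ ?_, hne _ _ (hx _ (Or.inl rfl))⟩
      · rw [inv_one, one_mul]; exact hn
      · rw [inv_one, one_mul]; exact h2
  have h3 := Finset.card_le_univ s
  rw [hs, hcard] at h3
  omega

/-- explicit orbit sums -/
theorem orbSum_three (h : FrobAb P 3) {n : Subgroup.normalizer (P : Set G)}
    (hn : (n : G) ∉ Subgroup.centralizer (P : Set G)) {φ : P →* ℂˣ} (hφ : φ ≠ 1) (y : P) :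
    orbSum φ y = ((φ y : ℂˣ) : ℂ) + ((φ (cN n y) : ℂˣ) : ℂ) + ((φ (cN (n * n) y) : ℂˣ) : ℂ) := by
  classical
  have hset : {ψ' : P →* ℂˣ | Rel φ ψ'} = {φ, pull n φ, pull (n * n) φ} := by
    ext ψ'
    simp only [Set.mem_setOf_eq, Set.mem_insert_iff, Set.mem_singleton_iff]
    constructor
    · intro hr
      obtain ⟨x, hx⟩ := hr.symm
      obtain ⟨k, hk, c, hc, rfl⟩ := coset_three h hn x
      rw [pull_mul, pull_of_mem_centralizer c hc] at hx
      rcases hk with rfl | rfl | rfl
      · left; rw [← hx, pull_one]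
      · right; left; exact hx.symm
      · right; right; exact hx.symm
    · rintro (rfl | rfl | rfl)
      · exact Rel.refl _
      · exact Rel.symm ⟨n, rfl⟩
      · exact Rel.symm ⟨n * n, rfl⟩
  have h1 : φ ≠ pull n φ := fun h2 => hn ((h.pull_eq_self_iff hφ n).1 h2.symm)
  have h2 : φ ≠ pull (n * n) φ := fun h3 => sq_not_mem h hn ((h.pull_eq_self_iff hφ (n * n)).1 h3.symm)
  have h3 : pull n φ ≠ pull (n * n) φ := by
    intro h4
    rw [pull_mul] at h4
    have h5 : pull n φ ≠ 1 := by rwa [Ne, pull_eq_one_iff]
    exact hn ((h.pull_eq_self_iff h5 n).1 h4.symm)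
  unfold orbSum
  rw [hset, finsum_mem_insert _ (by
      simp only [Set.mem_insert_iff, Set.mem_singleton_iff, not_or]
      exact ⟨h1, h2⟩) (Set.toFinite _), finsum_mem_pair h3]
  rw [pull_apply, pull_apply, add_assoc]

/-- the product over an orbit of `N/C` is trivial -/
theorem mul_cN_eq_one (h : FrobAb P 3) {n : Subgroup.normalizer (P : Set G)}
    (hn : (n : G) ∉ Subgroup.centralizer (P : Set G)) (y : P) :
    y * cN n y * cN (n * n) y = 1 := by
  have hc : ∀ a b : P, a * b = b * a := fun a b => Subtype.ext (h.hab a a.2 b b.2)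
  set u := y * cN n y * cN (n * n) y with hu
  have hcube : cN (n * n * n) y = y := by
    apply Subtype.ext
    rw [cN_coe, mul_inv_eq_iff_eq_mul]
    exact (Subgroup.mem_centralizer_iff.1 (cube_mem h n) y y.2).symm
  have hcomp : ∀ (a b : Subgroup.normalizer (P : Set G)) (w : P), cN a (cN b w) = cN (a * b) w := by
    intro a b w
    apply Subtype.ext
    simp only [cN_coe]
    push_cast
    group
  have hfix : cN n u = u := by
    rw [hu, map_mul, map_mul, hcomp, hcomp, ← mul_assoc n n n, hcube, hc, ← mul_assoc]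
  by_contra hne
  apply hn
  rw [← h.frob u u.2 (fun h1 => hne (Subtype.ext h1))]
  refine ⟨?_, n.2⟩
  change (n : G) ∈ Subgroup.centralizer ({(u : G)} : Set G)
  rw [Subgroup.mem_centralizer_singleton_iff]
  have h2 := congrArg Subtype.val hfix
  rw [cN_coe] at h2
  exact mul_inv_eq_iff_eq_mul.1 h2

/-- elements of `P` are not conjugate to their inverses, except involutions -/
theorem no_inv (h : FrobAb P 3) {y : P} (n : Subgroup.normalizer (P : Set G)) (hy : cN n y = y⁻¹) :
    y = y⁻¹ := by
  have hcomp : ∀ (a b : Subgroup.normalizer (P : Set G)) (w : P), cN a (cN b w) = cN (a * b) w := by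
    intro a b w
    apply Subtype.ext
    simp only [cN_coe]
    push_cast
    group
  have hcube : cN (n * n * n) y = y := by
    apply Subtype.ext
    rw [cN_coe, mul_inv_eq_iff_eq_mul]
    exact (Subgroup.mem_centralizer_iff.1 (cube_mem h n) y y.2).symm
  rw [← hcomp, ← hcomp] at hcube
  simp only [hy, map_inv, inv_inv] at hcube
  exact hcube.symm

end three

end Cfsg.Agent.H79
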