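import Cfsg.Agent.H79.AbelInv
import Cfsg.Agent.H4.KleinFourSylow

/-!
# Involutions in groups with an abelian Sylow subgroup and `|N/C| = 3` (S4721), second part
-/

set_option autoImplicit false
set_option linter.unusedSectionVars false
set_option linter.style.haveILetI false
set_option linter.unusedVariables false

namespace Cfsg.Agent.H79

open Cfsg Cfsg.Agent.CharBase Cfsg.Agent.Blk Cfsg.Agent.H25
open scoped ComplexConjugate

universe u

section sq

variable {G : Type u} [Group G] [Finite G] {M : Ideal AlgInt} {p : ℕ}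

open Classical in
/-- class multiplication coefficients inside a block, general form. -/
theorem sum_sq_div_eq_zero' [Fintype (IrrCharacter G)] (hM : IsPModular p M)
    {B : Set (IrrCharacter G)} (hB : IsPBlock M B)
    {t y : G} (hy : ∃ k : ℕ, orderOf y = p ^ k) (ht : t * t = 1)
    (hno : ∀ a b x : G, IsPPart p (a * t * a⁻¹ * (b * t * b⁻¹)) x → ¬ IsConj y x) :
    ∑ χ : IrrCharacter G, (if χ ∈ B then (χ : G → ℂ) y * ((χ : G → ℂ) t ^ 2 / (χ : G → ℂ) 1) else 0) = 0 := by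
  haveI := Fintype.ofFinite G
  have hG : (Nat.card G : ℂ) ≠ 0 := by exact_mod_cast (Nat.card_pos (α := G)).ne'
  have hti : t⁻¹ = t := inv_eq_of_mul_eq_one_right ht
  have h1 : ∀ χ : IrrCharacter G, ∑ a : G, ∑ b : G, (χ : G → ℂ) (a * t * a⁻¹ * (b * t * b⁻¹))⁻¹ =
      (Nat.card G : ℂ) ^ 2 * ((χ : G → ℂ) t ^ 2 / (χ : G → ℂ) 1) := by
    intro χ
    have h2 : ∀ a b : G, (χ : G → ℂ) (a * t * a⁻¹ * (b * t * b⁻¹))⁻¹ =
        (χ : G → ℂ) (a * t * a⁻¹ * (b * t * b⁻¹)) := by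
      intro a b
      have h3 : (a * t * a⁻¹ * (b * t * b⁻¹))⁻¹ = (a * t * a⁻¹)⁻¹ * (a * t * a⁻¹ * (b * t * b⁻¹)) *
          (a * t * a⁻¹) := by
        have h4 : (b * t * b⁻¹)⁻¹ = b * t * b⁻¹ := by
          rw [mul_inv_rev, mul_inv_rev, hti, inv_inv, mul_assoc]
        have h5 : (a * t * a⁻¹)⁻¹ = a * t * a⁻¹ := by
          rw [mul_inv_rev, mul_inv_rev, hti, inv_inv, mul_assoc]
        rw [mul_inv_rev, h4]
        rw [h5]
        have h6 : a * t * a⁻¹ * (a * t * a⁻¹ * (b * t * b⁻¹)) = b * t * b⁻¹ := by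
          calc a * t * a⁻¹ * (a * t * a⁻¹ * (b * t * b⁻¹)) = a * (t * t) * a⁻¹ * (b * t * b⁻¹) := by group
            _ = b * t * b⁻¹ := by rw [ht]; group
        rw [h6]
      rw [h3]
      have h7 := irr_isClassFunction χ (a * t * a⁻¹ * (b * t * b⁻¹)) (a * t * a⁻¹)⁻¹
      rw [inv_inv] at h7
      exact h7
    simp only [h2]
    rw [Finset.sum_comm]
    have h8 : ∀ b : G, ∑ a : G, (χ : G → ℂ) (a * t * a⁻¹ * (b * t * b⁻¹)) =
        (Nat.card G : ℂ) * (χ : G → ℂ) t * (χ : G → ℂ) t / (χ : G → ℂ) 1 := by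
      intro b
      have h9 := CharBase.sum_conj_mul χ.2 (b * t * b⁻¹) t
      have h10 : ∑ a : G, (χ : G → ℂ) (a * t * a⁻¹ * (b * t * b⁻¹)) =
          ∑ a : G, (χ : G → ℂ) (b * t * b⁻¹ * (a * t * a⁻¹)) :=
        Finset.sum_congr rfl (fun a _ => classFun_mul_comm (irr_isClassFunction χ) _ _)
      rw [h10, h9, irr_isClassFunction χ t b]
    rw [Finset.sum_congr rfl (fun b _ => h8 b), Finset.sum_const, Finset.card_univ, nsmul_eq_mul,
      Nat.card_eq_fintype_card]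
    ring
  apply mul_left_cancel₀ (pow_ne_zero 2 hG)
  rw [mul_zero, Finset.mul_sum]
  have h3 : ∀ χ : IrrCharacter G, (Nat.card G : ℂ) ^ 2 *
      (if χ ∈ B then (χ : G → ℂ) y * ((χ : G → ℂ) t ^ 2 / (χ : G → ℂ) 1) else 0) =
      ∑ a : G, ∑ b : G, (if χ ∈ B then (χ : G → ℂ) y *
        conj ((χ : G → ℂ) (a * t * a⁻¹ * (b * t * b⁻¹))) else 0) := by
    intro χ
    split_ifs
    · simp only [← irr_inv]
      simp only [← Finset.mul_sum]
      rw [h1 χ]; ring
    · simp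
  rw [Finset.sum_congr rfl (fun χ _ => h3 χ), Finset.sum_comm]
  refine Finset.sum_eq_zero (fun a _ => ?_)
  rw [Finset.sum_comm]
  refine Finset.sum_eq_zero (fun b _ => ?_)
  obtain ⟨x, hx⟩ := BlkInd.exists_isPPart (p := p) hM.1 (a * t * a⁻¹ * (b * t * b⁻¹))
  exact orth_ite hM hB (isPPart_self hy hM.1) hx (hno a b x hx)

end sq

section two

variable {G : Type u} [Group G] [Finite G]

theorem mul_self_conj {t : G} (ht : t * t = 1) (a : G) : (a * t * a⁻¹) * (a * t * a⁻¹) = 1 := by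
  calc (a * t * a⁻¹) * (a * t * a⁻¹) = a * (t * t) * a⁻¹ := by group
    _ = 1 := by rw [ht]; group

/-- the three conjugates of `t` and `1` -/
def quad {P : Subgroup G} (n : Subgroup.normalizer (P : Set G)) (t : P) : Set P :=
  {1, t, cN n t, cN (n * n) t}

theorem mul_mem_quad {P : Subgroup G} (h : FrobAb P 3) {n : Subgroup.normalizer (P : Set G)}
    (hn : (n : G) ∉ Subgroup.centralizer (P : Set G)) {t : P} (ht : t * t = 1) {a b : P}
    (ha : a ∈ quad n t) (hb : b ∈ quad n t) : a * b ∈ quad n t := by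
  have hc : ∀ a b : P, a * b = b * a := fun a b => Subtype.ext (h.hab a a.2 b b.2)
  have h1 : cN n t * cN n t = 1 := by rw [← map_mul, ht, map_one]
  have h2 : cN (n * n) t * cN (n * n) t = 1 := by rw [← map_mul, ht, map_one]
  have h3 := mul_cN_eq_one h hn t
  have h4 : t * cN n t = cN (n * n) t := by
    calc t * cN n t = t * cN n t * (cN (n * n) t * cN (n * n) t) := by rw [h2, mul_one]
      _ = (t * cN n t * cN (n * n) t) * cN (n * n) t := by group
      _ = _ := by rw [h3, one_mul]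
  have h5 : t * cN (n * n) t = cN n t := by
    rw [← h4, ← mul_assoc, ht, one_mul]
  have h6 : cN n t * cN (n * n) t = t := by
    rw [← h4, hc t, ← mul_assoc, h1, one_mul]
  have h4' := (hc _ _).trans h4
  have h5' := (hc _ _).trans h5
  have h6' := (hc _ _).trans h6
  unfold quad at *
  simp only [Set.mem_insert_iff, Set.mem_singleton_iff] at ha hb ⊢
  rcases ha with rfl | rfl | rfl | rfl <;> rcases hb with rfl | rfl | rfl | rfl <;>
    simp [*]

/-- elements of `P` conjugate to `t` are in `quad` -/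
theorem mem_quad_of_conj {P : Subgroup G} (h : FrobAb P 3)
    (hfus : ∀ u ∈ P, ∀ g : G, g * u * g⁻¹ ∈ P →
      ∃ n ∈ Subgroup.normalizer (P : Set G), n * u * n⁻¹ = g * u * g⁻¹)
    {n : Subgroup.normalizer (P : Set G)}
    (hn : (n : G) ∉ Subgroup.centralizer (P : Set G)) {t s : P} {g : G}
    (hs : g * t * g⁻¹ = s) : s ∈ quad n t := by
  obtain ⟨x, hx, hxt⟩ := hfus t t.2 g (by rw [hs]; exact s.2)
  obtain ⟨k, hk, c, hc, hkc⟩ := coset_three h hn ⟨x, hx⟩
  have h1 : s = cN k t := by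
    apply Subtype.ext
    rw [cN_coe, ← hs, ← hxt]
    have h2 : x = k * c := congrArg Subtype.val hkc
    have h3 : (c : G) * t * (c : G)⁻¹ = t := by
      rw [mul_inv_eq_iff_eq_mul]
      exact (Subgroup.mem_centralizer_iff.1 hc t t.2).symm
    rw [h2]
    calc (k : G) * c * t * ((k : G) * c)⁻¹ = k * (c * t * (c : G)⁻¹) * (k : G)⁻¹ := by group
      _ = _ := by rw [h3]
  have h4 : cN (1 : Subgroup.normalizer (P : Set G)) t = t := by
    apply Subtype.ext; rw [cN_coe]; simp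
  unfold quad
  simp only [Set.mem_insert_iff, Set.mem_singleton_iff]
  rcases hk with rfl | rfl | rfl
  · right; left; rw [h1, h4]
  · right; right; left; exact h1
  · right; right; right; exact h1

/-- `p = 2`: no product of two conjugates of `t` has a `2`-part conjugate to `y`. -/
theorem no_product {P : Sylow 2 G} (h : FrobAb (P : Subgroup G) 3)
    (hfus : ∀ u ∈ (P : Subgroup G), ∀ g : G, g * u * g⁻¹ ∈ (P : Subgroup G) →
      ∃ n ∈ Subgroup.normalizer ((P : Subgroup G) : Set G), n * u * n⁻¹ = g * u * g⁻¹)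
    {n : Subgroup.normalizer ((P : Subgroup G) : Set G)}
    (hn : (n : G) ∉ Subgroup.centralizer ((P : Subgroup G) : Set G)) {t y : (P : Subgroup G)}
    (ht : t * t = 1) (hy : y ∉ quad n t) (a b x : G)
    (hx : IsPPart 2 (a * (t : G) * a⁻¹ * (b * (t : G) * b⁻¹)) x) : ¬ IsConj (y : G) x := by
  have : Fact (Nat.Prime 2) := ⟨Nat.prime_two⟩
  have htG : (t : G) * t = 1 := congrArg Subtype.val ht
  intro hc
  obtain ⟨c, hc⟩ := isConj_iff.mp hc
  -- conjugate everything by `c⁻¹`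
  have hx' := BlkInd.isPPart_conj hx c⁻¹
  have hxy : c⁻¹ * x * (c⁻¹)⁻¹ = y := by rw [← hc]; group
  obtain ⟨s, hs⟩ : ∃ s : G, s = (c⁻¹ * a) * (t : G) * (c⁻¹ * a)⁻¹ := ⟨_, rfl⟩
  obtain ⟨s', hs'⟩ : ∃ s : G, s = (c⁻¹ * b) * (t : G) * (c⁻¹ * b)⁻¹ := ⟨_, rfl⟩
  have hss : c⁻¹ * (a * (t : G) * a⁻¹ * (b * (t : G) * b⁻¹)) * (c⁻¹)⁻¹ = s * s' := by
    rw [hs, hs']; group
  rw [hxy, hss] at hx'
  have hs1 : s * s = 1 := by rw [hs]; exact mul_self_conj htG _
  have hs2 : s' * s' = 1 := by rw [hs']; exact mul_self_conj htG _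
  have hsi : s⁻¹ = s := inv_eq_of_mul_eq_one_right hs1
  have hsi' : s'⁻¹ = s' := inv_eq_of_mul_eq_one_right hs2
  obtain ⟨k, hk⟩ := Subgroup.mem_zpowers_iff.mp (BlkInd.isPPart_mem_zpowers Nat.prime_two hx')
  obtain ⟨v, hv1, hv2, hv3, hv4⟩ := hx'
  have hinv : s * (s * s') * s⁻¹ = (s * s')⁻¹ := by
    rw [mul_inv_rev, hsi', hsi, ← mul_assoc, hs1, one_mul]
  have hsy : s * y * s⁻¹ = (y : G)⁻¹ := by
    rw [← hk, ← conj_zpow, hinv, inv_zpow]
  -- `y` is an involution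
  have hyy : y = y⁻¹ := by
    obtain ⟨x₁, hx₁, hx₂⟩ := hfus y y.2 s (by rw [hsy]; exact Subgroup.inv_mem _ y.2)
    refine no_inv h ⟨x₁, hx₁⟩ (Subtype.ext ?_)
    rw [cN_coe]
    change x₁ * (y : G) * x₁⁻¹ = ((y⁻¹ : (P : Subgroup G)) : G)
    rw [hx₂, hsy]; rfl
  have hyG : (y : G)⁻¹ = y := (congrArg Subtype.val hyy).symm
  have hsc : s * y = y * s := by
    rw [hyG, mul_inv_eq_iff_eq_mul] at hsy
    exact hsy
  have hyk : v = (s * s') ^ (1 - k) := by
    rw [zpow_sub, zpow_one, hk, ← hv1, hv2.eq, mul_inv_cancel_right]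
  have hsv : s * v * s⁻¹ = v⁻¹ := by
    rw [hyk, ← conj_zpow, hinv, inv_zpow]
  obtain ⟨m, hm⟩ := exists_pow_eq_self_of_coprime (n := 2) (x := v)
    ((Nat.Prime.coprime_iff_not_dvd Nat.prime_two).2 hv4)
  obtain ⟨u, hu⟩ : ∃ u : G, u = v ^ m := ⟨_, rfl⟩
  have huu : u * u = v := by
    rw [hu, ← pow_add, ← two_mul, pow_mul, hm]
  have hsu : s * u * s⁻¹ = u⁻¹ := by
    rw [hu, ← conj_pow, hsv, inv_pow]
  have huy : y * u = u * y := by
    rw [hu]; exact (hv2.pow_right m).eq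
  have hus : u⁻¹ * s = s * u := by
    rw [← hsu, inv_mul_cancel_right]
  have hs'eq : s' = u⁻¹ * (s * y) * u := by
    calc s' = s * (s * s') := by rw [← mul_assoc, hs1, one_mul]
      _ = s * (y * v) := by rw [hv1]
      _ = s * (y * (u * u)) := by rw [huu]
      _ = s * (y * u) * u := by group
      _ = (s * u) * y * u := by rw [huy]; group
      _ = u⁻¹ * (s * y) * u := by rw [← hus]; group
  have hsyt : s * y = (u * (c⁻¹ * b)) * (t : G) * (u * (c⁻¹ * b))⁻¹ := by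
    calc s * y = u * s' * u⁻¹ := by rw [hs'eq]; group
      _ = _ := by rw [hs']; group
  -- move `s` into `P` inside `C_G(y)`
  have hle : (P : Subgroup G) ≤ Subgroup.centralizer ({(y : G)} : Set G) := by
    intro w hw
    rw [Subgroup.mem_centralizer_singleton_iff]
    exact h.hab w hw y y.2
  have hsC : s ∈ Subgroup.centralizer ({(y : G)} : Set G) := by
    rw [Subgroup.mem_centralizer_singleton_iff]; exact hsc
  obtain ⟨g, hg⟩ := H4.exists_conj_mem_sylow (P.subtype hle) (x := ⟨s, hsC⟩) (k := 1) (by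
    rw [pow_one, pow_two]; exact Subtype.ext hs1)
  have hgP : (g : G) * s * (g : G)⁻¹ ∈ (P : Subgroup G) := Subgroup.mem_subgroupOf.1 hg
  have hgy : (g : G) * y = y * g := Subgroup.mem_centralizer_singleton_iff.1 g.2
  obtain ⟨s₂, hs₂⟩ : ∃ s₂ : (P : Subgroup G), (s₂ : G) = (g : G) * s * (g : G)⁻¹ := ⟨⟨_, hgP⟩, rfl⟩
  have h1 : s₂ ∈ quad n t := by
    refine mem_quad_of_conj h hfus hn (g := (g : G) * (c⁻¹ * a)) ?_
    rw [hs₂, hs]; group
  have h2 : s₂ * y ∈ quad n t := by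
    refine mem_quad_of_conj h hfus hn (g := (g : G) * (u * (c⁻¹ * b))) ?_
    rw [Subgroup.coe_mul, hs₂]
    calc (g : G) * (u * (c⁻¹ * b)) * (t : G) * ((g : G) * (u * (c⁻¹ * b)))⁻¹
        = g * ((u * (c⁻¹ * b)) * (t : G) * (u * (c⁻¹ * b))⁻¹) * (g : G)⁻¹ := by group
      _ = g * (s * y) * (g : G)⁻¹ := by rw [hsyt]
      _ = g * s * ((g : G)⁻¹ * (g * y)) * (g : G)⁻¹ := by group
      _ = g * s * (g : G)⁻¹ * y := by rw [hgy]; group
  have h3 : s₂ * s₂ = 1 := by
    apply Subtype.ext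
    rw [Subgroup.coe_mul, hs₂]
    exact mul_self_conj hs1 _
  apply hy
  have h4 : y = s₂ * (s₂ * y) := by rw [← mul_assoc, h3, one_mul]
  rw [h4]
  exact mul_mem_quad h hn ht h1 h2

end two

end Cfsg.Agent.H79
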