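import Cfsg.Agent.H79.AbelInv2

/-!
# Involutions in groups with an abelian Sylow subgroup and `|N/C| = 3` (S4721), third part
-/

set_option autoImplicit false
set_option linter.unusedSectionVars false
set_option linter.style.haveILetI false
set_option linter.unusedVariables false

namespace Cfsg.Agent.H79

open Cfsg Cfsg.Agent.CharBase Cfsg.Agent.Blk Cfsg.Agent.H25
open scoped ComplexConjugate

universe u

section orbs

variable {G : Type u} [Group G] [Finite G] {P : Subgroup G}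

theorem sum_sq_orbSum (h : FrobAb P 3) {n : Subgroup.normalizer (P : Set G)}
    (hn : (n : G) ∉ Subgroup.centralizer (P : Set G)) {t y : P} (ht : t * t = 1)
    (hy : y ∉ quad n t) {r : ℕ} (ψ : Fin r → (P →* ℂˣ)) (hψ1 : ∀ i, ψ i ≠ 1)
    (hcov : ∀ φ : P →* ℂˣ, φ ≠ 1 → ∃ i, Rel φ (ψ i))
    (hinj : ∀ i j, Rel (ψ i) (ψ j) → i = j) :
    ∑ i, orbSum (ψ i) t ^ 2 * orbSum (ψ i) y = -9 := by
  have := finite_dual (P := P)
  have := Fintype.ofFinite (P →* ℂˣ)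
  let F : (P →* ℂˣ) → ℂ := fun φ => (((φ t : ℂˣ) : ℂ) + ((φ (cN n t) : ℂˣ) : ℂ) +
    ((φ (cN (n * n) t) : ℂˣ) : ℂ)) ^ 2
  have hF1 : ∀ φ : P →* ℂˣ, φ ≠ 1 → F φ = orbSum φ t ^ 2 := by
    intro φ hφ
    rw [orbSum_three h hn hφ]
  have hF : ∀ φ φ' : P →* ℂˣ, Rel φ φ' → F φ = F φ' := by
    intro φ φ' hr
    by_cases hφ : φ = 1
    · have hφ' : φ' = 1 := by
        by_contra hne
        exact hr.ne_one hne hφ
      rw [hφ, hφ']
    · have hφ' : φ' ≠ 1 := hr.symm.ne_one hφ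
      rw [hF1 φ hφ, hF1 φ' hφ', orbSum_congr hr]
  have h1 := sum_over_orbits ψ hψ1 hcov hinj F hF y
  have h2 : ∀ i, orbSum (ψ i) t ^ 2 * orbSum (ψ i) y = F (ψ i) * orbSum (ψ i) y := fun i => by
    rw [hF1 _ (hψ1 i)]
  rw [Finset.sum_congr rfl (fun i _ => h2 i), h1]
  have h3 : F 1 = 9 := by
    change (((1 : ℂˣ) : ℂ) + ((1 : ℂˣ) : ℂ) + ((1 : ℂˣ) : ℂ)) ^ 2 = 9
    norm_num
  have h4 : ∀ a b : P, a ∈ quad n t → b ∈ quad n t →
      ∑ φ : P →* ℂˣ, ((φ a : ℂˣ) : ℂ) * ((φ b : ℂˣ) : ℂ) * ((φ y : ℂˣ) : ℂ) = 0 := by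
    intro a b ha hb
    have h5 : a * b * y ≠ 1 := by
      intro h6
      apply hy
      have h7 := mul_mem_quad h hn ht ha hb
      have h8 : y = (a * b)⁻¹ := (inv_eq_of_mul_eq_one_right h6).symm
      have h9 : (a * b) * (a * b) = 1 := by
        have hsq : ∀ w : P, w ∈ quad n t → w * w = 1 := by
          intro w hw
          unfold quad at hw
          simp only [Set.mem_insert_iff, Set.mem_singleton_iff] at hw
          rcases hw with rfl | rfl | rfl | rfl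
          · rw [one_mul]
          · exact ht
          · rw [← map_mul, ht, map_one]
          · rw [← map_mul, ht, map_one]
        exact hsq _ h7
      rw [h8, inv_eq_of_mul_eq_one_right h9]
      exact h7
    rw [← sum_dual h.hab h5]
    refine Finset.sum_congr rfl fun φ _ => ?_
    rw [map_mul, map_mul, Units.val_mul, Units.val_mul]
  have q1 : t ∈ quad n t := by unfold quad; simp
  have q2 : cN n t ∈ quad n t := by unfold quad; simp
  have q3 : cN (n * n) t ∈ quad n t := by unfold quad; simp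
  have h5 : ∑ φ : P →* ℂˣ, F φ * ((φ y : ℂˣ) : ℂ) = 0 := by
    have e : ∀ φ : P →* ℂˣ, F φ * ((φ y : ℂˣ) : ℂ) =
        ((φ t : ℂˣ) : ℂ) * ((φ t : ℂˣ) : ℂ) * ((φ y : ℂˣ) : ℂ) +
        ((φ (cN n t) : ℂˣ) : ℂ) * ((φ (cN n t) : ℂˣ) : ℂ) * ((φ y : ℂˣ) : ℂ) +
        ((φ (cN (n * n) t) : ℂˣ) : ℂ) * ((φ (cN (n * n) t) : ℂˣ) : ℂ) * ((φ y : ℂˣ) : ℂ) +
        2 * (((φ t : ℂˣ) : ℂ) * ((φ (cN n t) : ℂˣ) : ℂ) * ((φ y : ℂˣ) : ℂ)) +
        2 * (((φ t : ℂˣ) : ℂ) * ((φ (cN (n * n) t) : ℂˣ) : ℂ) * ((φ y : ℂˣ) : ℂ)) +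
        2 * (((φ (cN n t) : ℂˣ) : ℂ) * ((φ (cN (n * n) t) : ℂˣ) : ℂ) * ((φ y : ℂˣ) : ℂ)) := by
      intro φ
      change (((φ t : ℂˣ) : ℂ) + ((φ (cN n t) : ℂˣ) : ℂ) +
        ((φ (cN (n * n) t) : ℂˣ) : ℂ)) ^ 2 * ((φ y : ℂˣ) : ℂ) = _
      ring
    rw [Finset.sum_congr rfl (fun φ _ => e φ)]
    simp only [Finset.sum_add_distrib, ← Finset.mul_sum]
    rw [h4 _ _ q1 q1, h4 _ _ q2 q2, h4 _ _ q3 q3, h4 _ _ q1 q2, h4 _ _ q1 q3, h4 _ _ q2 q3]
    ring
  rw [h5, h3]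
  ring

end orbs

section fin

variable {G : Type u} [Group G] [Finite G] {p : ℕ} [Fact p.Prime] {M : Ideal AlgInt}

/-- a character of the group with `χ(t) = χ(1)` is trivial -/
theorem value_ne_of_generates {t : G} (hK : ∀ K : Subgroup G, K.Normal → t ∈ K → K = ⊤)
    {χ : IrrCharacter G} (hχ : χ ≠ oneIrr G) : (χ : G → ℂ) t ≠ (χ : G → ℂ) 1 := by
  have := Fintype.ofFinite G
  intro h1
  apply hχ
  have h2 := hK (H4.blockKerSubgroup {χ}) (H4.blockKerSubgroup_normal _) (by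
    rw [H4.mem_blockKerSubgroup]
    intro χ' hχ'
    rw [Set.mem_singleton_iff] at hχ'
    rw [hχ']; exact h1)
  apply eq_one_of_const
  intro g
  have h3 : g ∈ H4.blockKerSubgroup {χ} := by rw [h2]; trivial
  exact H4.mem_blockKerSubgroup.mp h3 χ rfl

/-- the arithmetic conclusion from the three relations -/
theorem finish_three {X : Set (IrrCharacter G)} {a : IrrCharacter G → ℤ} {ε : ℤ}
    (hε : ε = 1 ∨ ε = -1) {χ₂ χ₃ : IrrCharacter G} (h23 : χ₂ ≠ χ₃)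
    (hX : X = {oneIrr G, χ₂, χ₃}) (h12 : χ₂ ≠ oneIrr G) (h13 : χ₃ ≠ oneIrr G)
    (ha2 : a χ₂ = 1 ∨ a χ₂ = -1) (ha3 : a χ₃ = 1 ∨ a χ₃ = -1) {f : ℕ} (hf : 0 < f)
    (r1 : 1 + a χ₂ * (H75.deg χ₂ : ℤ) + a χ₃ * (H75.deg χ₃ : ℤ) + (-ε) * (f : ℤ) = 0)
    {s t u : ℤ} (r2 : 1 + a χ₂ * s + a χ₃ * t + (-ε) * u = 0)
    (r3 : (H75.deg χ₂ : ℤ) * (H75.deg χ₃ : ℤ) * (f : ℤ) + a χ₂ * s ^ 2 * ((H75.deg χ₃ : ℤ) * f) +
      a χ₃ * t ^ 2 * ((H75.deg χ₂ : ℤ) * f) + (-ε) * u ^ 2 * ((H75.deg χ₂ : ℤ) * (H75.deg χ₃ : ℤ)) = 0)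
    (n2 : s ≠ (H75.deg χ₂ : ℤ)) (n3 : t ≠ (H75.deg χ₃ : ℤ)) :
    Nat.card {χ : IrrCharacter G // χ ∈ X ∧ (χ : G → ℂ) ≠ (fun _ => 1) ∧ a χ = -1} +
      (if ε = 1 then 1 else 0) = 2 ∧
    IsSquare (f * ∏ᶠ χ ∈ {χ : IrrCharacter G | χ ∈ X ∧ (χ : G → ℂ) ≠ fun _ => 1},
      charDegree (χ : G → ℂ)) := by
  classical
  have hone : ∀ χ : IrrCharacter G, (χ : G → ℂ) ≠ (fun _ => 1) ↔ χ ≠ oneIrr G := by
    intro χ
    constructor
    · rintro h1 rfl; exact h1 rfl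
    · intro h1 h2; exact h1 (Subtype.ext h2)
  obtain ⟨h1, h2⟩ := four_relation (x := (H75.deg χ₂ : ℤ)) (y := (H75.deg χ₃ : ℤ)) (f := (f : ℤ))
    (e₄ := -ε) (by exact_mod_cast H75.deg_pos χ₂) (by exact_mod_cast H75.deg_pos χ₃)
    (by exact_mod_cast hf) ha2 ha3 (by rcases hε with h | h <;> rw [h] <;> norm_num) r1 r2 r3 n2 n3
  constructor
  · have h3 : Nat.card {χ : IrrCharacter G // χ ∈ X ∧ (χ : G → ℂ) ≠ (fun _ => 1) ∧ a χ = -1} =
        (if a χ₂ = -1 then 1 else 0) + (if a χ₃ = -1 then 1 else 0) := by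
      have h4 : {χ : IrrCharacter G | χ ∈ X ∧ (χ : G → ℂ) ≠ (fun _ => 1) ∧ a χ = -1} =
          ((({χ₂, χ₃} : Finset (IrrCharacter G)).filter (fun χ => a χ = -1) :
            Finset (IrrCharacter G)) : Set (IrrCharacter G)) := by
        ext χ
        simp only [Set.mem_setOf_eq, Finset.coe_filter, Finset.mem_insert, Finset.mem_singleton]
        rw [hone, hX]
        simp only [Set.mem_insert_iff, Set.mem_singleton_iff]
        constructor
        · rintro ⟨h5, h6, h7⟩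
          exact ⟨h5.resolve_left h6, h7⟩
        · rintro ⟨h5, h7⟩
          refine ⟨Or.inr h5, ?_, h7⟩
          rcases h5 with rfl | rfl
          · exact h12
          · exact h13
      have h5 : Nat.card {χ : IrrCharacter G // χ ∈ X ∧ (χ : G → ℂ) ≠ (fun _ => 1) ∧ a χ = -1} =
          Set.ncard {χ : IrrCharacter G | χ ∈ X ∧ (χ : G → ℂ) ≠ (fun _ => 1) ∧ a χ = -1} := rfl
      rw [h5, h4, Set.ncard_coe_finset, Finset.card_filter, Finset.sum_pair h23]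
    rw [h3]
    have h4 : (if ε = 1 then 1 else 0) = (if -ε = -1 then 1 else 0) := by
      rcases hε with h | h <;> rw [h] <;> norm_num
    rw [h4]
    exact h1
  · have h4 : {χ : IrrCharacter G | χ ∈ X ∧ (χ : G → ℂ) ≠ fun _ => 1} = {χ₂, χ₃} := by
      ext χ
      simp only [Set.mem_setOf_eq, Set.mem_insert_iff, Set.mem_singleton_iff]
      rw [hone, hX]
      simp only [Set.mem_insert_iff, Set.mem_singleton_iff]
      constructor
      · rintro ⟨h5, h6⟩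
        exact h5.resolve_left h6
      · intro h5
        refine ⟨Or.inr h5, ?_⟩
        rcases h5 with rfl | rfl
        · exact h12
        · exact h13
    rw [h4, finprod_mem_pair h23, H75.charDegree_eq_deg, H75.charDegree_eq_deg]
    have h5 : IsSquare (((f * (H75.deg χ₂ * H75.deg χ₃) : ℕ)) : ℤ) := by
      have : (((f * (H75.deg χ₂ * H75.deg χ₃) : ℕ)) : ℤ) =
          (H75.deg χ₂ : ℤ) * (H75.deg χ₃ : ℤ) * (f : ℤ) := by push_cast; ring
      rw [this]; exact h2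
    obtain ⟨w, hw⟩ := h5
    refine ⟨w.natAbs, ?_⟩
    have h6 := congrArg Int.natAbs hw
    rw [Int.natAbs_mul, Int.natAbs_natCast] at h6
    exact h6

/-- the involution part of S4721 -/
theorem invol_three (hM : IsPModular p M) {P : Sylow p G}
    (h : FrobAb (P : Subgroup G) 3) (hm2 : 3 + 1 < Nat.card P)
    {r : ℕ} (ψ : Fin r → ((P : Subgroup G) →* ℂˣ)) {ε : ℤ} (μ : Fin r → IrrCharacter G)
    (a : IrrCharacter G → ℤ) (hψ1 : ∀ i, ψ i ≠ 1)
    (hcov : ∀ φ : (P : Subgroup G) →* ℂˣ, φ ≠ 1 → ∃ i, Rel φ (ψ i))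
    (hψinj : ∀ i j, Rel (ψ i) (ψ j) → i = j) (hε : ε = 1 ∨ ε = -1) (hinj : Function.Injective μ)
    (hmem : ∀ i, μ i ∈ principalBlock M G)
    (hX : ∀ χ ∈ principalBlock M G \ Set.range μ, (a χ = 1 ∨ a χ = -1) ∧ ∀ z y : G, IsPPart p z y →
        y ∈ (P : Subgroup G) → y ≠ 1 → (χ : G → ℂ) z = (a χ : ℂ))
    (hY : ∀ i, ∀ (z : G) (y : (P : Subgroup G)), IsPPart p z (y : G) → (y : G) ≠ 1 →
        ((μ i : IrrCharacter G) : G → ℂ) z = (ε : ℂ) * orbSum (ψ i) y)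
    (hcard : Nat.card ↥(principalBlock M G \ Set.range μ) = 3)
    (hreg : ∀ i j, ∀ g : G, ¬ p ∣ orderOf g →
        ((μ i : IrrCharacter G) : G → ℂ) g = ((μ j : IrrCharacter G) : G → ℂ) g)
    (hlin : ∀ i, ∀ g : G, ¬ p ∣ orderOf g → - (ε : ℂ) * ((μ i : IrrCharacter G) : G → ℂ) g +
        ∑ᶠ χ ∈ principalBlock M G \ Set.range μ, (a χ : ℂ) * (χ : G → ℂ) g = 0)
    (hone : oneIrr G ∈ principalBlock M G \ Set.range μ) (hone1 : a (oneIrr G) = 1)
    {t : G} (ht : orderOf t = 2) (hK : ∀ K : Subgroup G, K.Normal → t ∈ K → K = ⊤) (i : Fin r) :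
    Nat.card {χ : IrrCharacter G // χ ∈ principalBlock M G \ Set.range μ ∧
      (χ : G → ℂ) ≠ (fun _ => 1) ∧ a χ = -1} + (if ε = 1 then 1 else 0) = 2 ∧
    IsSquare (charDegree (μ i : G → ℂ) * ∏ᶠ χ ∈ {χ : IrrCharacter G |
      χ ∈ principalBlock M G \ Set.range μ ∧ (χ : G → ℂ) ≠ fun _ => 1},
      charDegree (χ : G → ℂ)) := by
  classical
  haveI := isPrime_of_isPModular hM
  have := Fintype.ofFinite G
  have := Fintype.ofFinite (IrrCharacter G)
  have hS := AbSyl.of_sylow hM h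
  set X := principalBlock M G \ Set.range μ with hXdef
  have hab : ∀ a b : (P : Subgroup G), a * b = b * a := fun a b =>
    Subtype.ext (h.hab a a.2 b b.2)
  -- the two non-principal members
  have hc2 : (X \ {oneIrr G}).ncard = 2 := by
    rw [Set.ncard_sdiff_singleton_of_mem hone]
    have h3 : X.ncard = 3 := hcard
    omega
  obtain ⟨χ₂, χ₃, h23, hXX⟩ := Set.ncard_eq_two.1 hc2
  have hmem2 : χ₂ ∈ X \ {oneIrr G} := by rw [hXX]; simp
  have hmem3 : χ₃ ∈ X \ {oneIrr G} := by rw [hXX]; simp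
  have h12 : χ₂ ≠ oneIrr G := hmem2.2
  have h13 : χ₃ ≠ oneIrr G := hmem3.2
  have hXeq : X = {oneIrr G, χ₂, χ₃} := by
    rw [← hXX, Set.insert_sdiff_singleton, Set.insert_eq_of_mem hone]
  have hsumX : ∀ f : IrrCharacter G → ℂ, ∑ᶠ χ ∈ X, f χ = f (oneIrr G) + (f χ₂ + f χ₃) := by
    intro f
    rw [hXeq, finsum_mem_insert _ (by
      simp only [Set.mem_insert_iff, Set.mem_singleton_iff, not_or]
      exact ⟨h12.symm, h13.symm⟩) (Set.toFinite _), finsum_mem_pair h23]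
  have hlin' : ∀ i, ∀ g : G, ¬ p ∣ orderOf g → 1 + (a χ₂ : ℂ) * (χ₂ : G → ℂ) g +
      (a χ₃ : ℂ) * (χ₃ : G → ℂ) g + (-(ε : ℂ)) * ((μ i : IrrCharacter G) : G → ℂ) g = 0 := by
    intro i g hg
    have h1 := hlin i g hg
    rw [hsumX, hone1] at h1
    have h2 : ((1 : ℤ) : ℂ) * ((oneIrr G : IrrCharacter G) : G → ℂ) g = 1 := by
      change ((1 : ℤ) : ℂ) * 1 = 1; simp
    rw [h2] at h1
    linear_combination h1
  have hp1 : ¬ p ∣ orderOf (1 : G) := by
    rw [orderOf_one]; exact (Fact.out : p.Prime).one_lt.ne' ∘ Nat.dvd_one.mp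
  have hti : t * t = 1 := by rw [← pow_two, ← ht, pow_orderOf_eq_one]
  have hdeg : ∀ j, H75.deg (μ j) = H75.deg (μ i) := by
    intro j
    have h1 := hreg j i 1 hp1
    rw [H75.deg_spec, H75.deg_spec] at h1
    exact_mod_cast h1
  have r1 : 1 + a χ₂ * (H75.deg χ₂ : ℤ) + a χ₃ * (H75.deg χ₃ : ℤ) + (-ε) * (H75.deg (μ i) : ℤ) = 0 := by
    have h1 := hlin' i 1 hp1
    rw [H75.deg_spec, H75.deg_spec, H75.deg_spec] at h1
    exact_mod_cast h1
  obtain ⟨n, hn⟩ := exists_not_mem h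
  rw [H75.charDegree_eq_deg]
  have hx0 : (H75.deg χ₂ : ℂ) ≠ 0 := by exact_mod_cast (H75.deg_pos χ₂).ne'
  have hy0 : (H75.deg χ₃ : ℂ) ≠ 0 := by exact_mod_cast (H75.deg_pos χ₃).ne'
  have hf0 : (H75.deg (μ i) : ℂ) ≠ 0 := by exact_mod_cast (H75.deg_pos (μ i)).ne'
  have hpow : ∀ y : (P : Subgroup G), ∃ k : ℕ, orderOf (y : G) = p ^ k := fun y =>
    exists_pow_of_isPGroup P.2 y.2
  by_cases hp2 : p = 2
  · -- `p = 2`
    subst hp2
    obtain ⟨g, hg⟩ := H4.exists_conj_mem_sylow P (x := t) (k := 1) (by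
      rw [pow_one, pow_two]; exact hti)
    obtain ⟨t₁, ht₁⟩ : ∃ t₁ : (P : Subgroup G), (t₁ : G) = g * t * g⁻¹ := ⟨⟨_, hg⟩, rfl⟩
    have ht₁t : t₁ * t₁ = 1 := by
      apply Subtype.ext
      rw [Subgroup.coe_mul, ht₁]
      exact mul_self_conj hti g
    have ht₁1 : (t₁ : G) ≠ 1 := by
      intro h1
      rw [ht₁, conj_eq_one_iff] at h1
      rw [h1, orderOf_one] at ht
      omega
    have hK₁ : ∀ K : Subgroup G, K.Normal → (t₁ : G) ∈ K → K = ⊤ := by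
      intro K hKn h1
      refine hK K hKn ?_
      have h2 := hKn.conj_mem _ h1 g⁻¹
      rw [ht₁] at h2
      have h3 : g⁻¹ * (g * t * g⁻¹) * g⁻¹⁻¹ = t := by group
      rwa [h3] at h2
    have hself : ∀ y : (P : Subgroup G), IsPPart 2 (y : G) (y : G) := fun y =>
      isPPart_self (hpow y) Nat.prime_two
    have hv2 : (χ₂ : G → ℂ) t₁ = (a χ₂ : ℂ) := (hX χ₂ hmem2.1).2 t₁ t₁ (hself t₁) t₁.2 ht₁1
    have hv3 : (χ₃ : G → ℂ) t₁ = (a χ₃ : ℂ) := (hX χ₃ hmem3.1).2 t₁ t₁ (hself t₁) t₁.2 ht₁1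
    -- pick `y`
    obtain ⟨y, hy⟩ : ∃ y : (P : Subgroup G), y ∉ quad n t₁ := by
      by_contra hcon
      push Not at hcon
      have h1 : Nat.card (P : Subgroup G) ≤ 4 := by
        rw [← Set.ncard_univ]
        have h2 : (Set.univ : Set (P : Subgroup G)) ⊆ quad n t₁ := fun y _ => hcon y
        refine (Set.ncard_le_ncard h2 (Set.toFinite _)).trans ?_
        unfold quad
        refine (Set.ncard_insert_le _ _).trans ?_
        refine Nat.succ_le_succ ((Set.ncard_insert_le _ _).trans ?_)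
        refine Nat.succ_le_succ ((Set.ncard_insert_le _ _).trans ?_)
        rw [Set.ncard_singleton]
      have h3 : Nat.card P = Nat.card (P : Subgroup G) := rfl
      omega
    have hy1 : y ≠ 1 := by rintro rfl; exact hy (by unfold quad; simp)
    have hyG1 : (y : G) ≠ 1 := fun h1 => hy1 (Subtype.ext h1)
    have hz := sum_sq_div_eq_zero' hM (isPBlock_principalBlock (M := M) (G := G)) (hpow y)
      (t := (t₁ : G)) (congrArg Subtype.val ht₁t) (no_product h hS.fus hn ht₁t hy)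
    rw [split_block (principalBlock M G) μ hinj hmem (fun χ => (χ : G → ℂ) y *
      ((χ : G → ℂ) t₁ ^ 2 / (χ : G → ℂ) 1)), ← hXdef, hsumX] at hz
    have e1 : ((oneIrr G : IrrCharacter G) : G → ℂ) y *
      (((oneIrr G : IrrCharacter G) : G → ℂ) t₁ ^ 2 / ((oneIrr G : IrrCharacter G) : G → ℂ) 1) = 1 := by
      change (1 : ℂ) * (1 ^ 2 / 1) = 1; norm_num
    have e4 : ∑ j, ((μ j : IrrCharacter G) : G → ℂ) y *
        (((μ j : IrrCharacter G) : G → ℂ) t₁ ^ 2 / ((μ j : IrrCharacter G) : G → ℂ) 1) =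
        -9 * ε / (H75.deg (μ i) : ℂ) := by
      have e5 : ∀ j, ((μ j : IrrCharacter G) : G → ℂ) y *
          (((μ j : IrrCharacter G) : G → ℂ) t₁ ^ 2 / ((μ j : IrrCharacter G) : G → ℂ) 1) =
          (ε : ℂ) / (H75.deg (μ i) : ℂ) * (orbSum (ψ j) t₁ ^ 2 * orbSum (ψ j) y) := by
        intro j
        rw [hY j y y (hself y) hyG1, hY j t₁ t₁ (hself t₁) ht₁1, H75.deg_spec, hdeg j]
        rcases hε with h1 | h1 <;> rw [h1] <;> push_cast <;> ring
      rw [Finset.sum_congr rfl (fun j _ => e5 j), ← Finset.mul_sum,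
        sum_sq_orbSum h hn ht₁t hy ψ hψ1 hcov hψinj]
      ring
    rw [e1, e4, hv2, hv3, (hX χ₂ hmem2.1).2 y y (hself y) y.2 hyG1,
      (hX χ₃ hmem3.1).2 y y (hself y) y.2 hyG1, H75.deg_spec, H75.deg_spec] at hz
    refine finish_three hε h23 hXeq h12 h13 (hX χ₂ hmem2.1).1 (hX χ₃ hmem3.1).1
      (H75.deg_pos (μ i)) r1 (s := a χ₂) (t := a χ₃) (u := 3 * ε) ?_ ?_ ?_ ?_
    · rcases (hX χ₂ hmem2.1).1 with h1 | h1 <;> rcases (hX χ₃ hmem3.1).1 with h2 | h2 <;>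
        rcases hε with h3 | h3 <;> rw [h1, h2, h3] <;> norm_num
    · have h9 : (((H75.deg χ₂ : ℤ) * (H75.deg χ₃ : ℤ) * (H75.deg (μ i) : ℤ) +
          a χ₂ * (a χ₂) ^ 2 * ((H75.deg χ₃ : ℤ) * (H75.deg (μ i) : ℤ)) +
          a χ₃ * (a χ₃) ^ 2 * ((H75.deg χ₂ : ℤ) * (H75.deg (μ i) : ℤ)) +
          (-ε) * 9 * ((H75.deg χ₂ : ℤ) * (H75.deg χ₃ : ℤ)) : ℤ) : ℂ) = 0 := by
        push_cast
        field_simp at hz
        linear_combination hz
      have h10 : (3 * ε) ^ 2 = 9 := by rcases hε with h3 | h3 <;> rw [h3] <;> norm_num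
      rw [h10]
      exact_mod_cast h9
    · intro h1
      refine value_ne_of_generates hK₁ h12 ?_
      rw [hv2, H75.deg_spec, h1]; norm_cast
    · intro h1
      refine value_ne_of_generates hK₁ h13 ?_
      rw [hv3, H75.deg_spec, h1]; norm_cast
  · -- `p` odd
    have hpo : ¬ p ∣ orderOf t := by
      rw [ht]
      intro h1
      exact hp2 ((Nat.prime_dvd_prime_iff_eq (Fact.out : p.Prime) Nat.prime_two).1 h1)
    have hodd : Odd (Nat.card (P : Subgroup G)) := by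
      obtain ⟨k, hk⟩ := IsPGroup.iff_card.1 P.2
      rw [hk]
      exact ((Fact.out : p.Prime).odd_of_ne_two hp2).pow
    obtain ⟨s, hs⟩ := H4.exists_int_value (irr_isCharacter χ₂) hti
    obtain ⟨t', ht'⟩ := H4.exists_int_value (irr_isCharacter χ₃) hti
    obtain ⟨u, hu⟩ := H4.exists_int_value (irr_isCharacter (μ i)) hti
    have hcard2 : 1 < Nat.card (P : Subgroup G) := by
      have h3 : Nat.card P = Nat.card (P : Subgroup G) := rfl
      omega
    obtain ⟨y, hy1⟩ : ∃ y : (P : Subgroup G), y ≠ 1 := by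
      have := Finite.one_lt_card_iff_nontrivial.1 hcard2
      exact exists_ne 1
    have hyG1 : (y : G) ≠ 1 := fun h1 => hy1 (Subtype.ext h1)
    have hself : IsPPart p (y : G) (y : G) := isPPart_self (hpow y) (Fact.out : p.Prime)
    have hz := sum_sq_div_eq_zero hM (isPBlock_principalBlock (M := M) (G := G)) (hpow y)
      hti (by
        intro g hg
        obtain ⟨x₁, hx₁, hx₂⟩ := hS.fus y y.2 (g * t * g⁻¹) (by
          rw [hg]; exact Subgroup.inv_mem _ y.2)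
        have h1 : y = y⁻¹ := by
          refine no_inv h ⟨x₁, hx₁⟩ (Subtype.ext ?_)
          rw [cN_coe]
          change x₁ * (y : G) * x₁⁻¹ = ((y⁻¹ : (P : Subgroup G)) : G)
          rw [hx₂, hg]; rfl
        apply hy1
        have h2 : y ^ 2 = 1 := by rw [pow_two]; exact mul_eq_one_iff_eq_inv.2 h1
        have h3 : orderOf y ∣ 2 := orderOf_dvd_of_pow_eq_one h2
        have h4 : orderOf y ∣ Nat.card (P : Subgroup G) := orderOf_dvd_natCard y
        have h5 : Nat.Coprime 2 (Nat.card (P : Subgroup G)) := Nat.coprime_two_left.2 hodd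
        exact orderOf_eq_one_iff.1 (Nat.eq_one_of_dvd_coprimes h5 h3 h4))
    rw [split_block (principalBlock M G) μ hinj hmem (fun χ => (χ : G → ℂ) y *
      ((χ : G → ℂ) t ^ 2 / (χ : G → ℂ) 1)), ← hXdef, hsumX] at hz
    have e1 : ((oneIrr G : IrrCharacter G) : G → ℂ) y *
      (((oneIrr G : IrrCharacter G) : G → ℂ) t ^ 2 / ((oneIrr G : IrrCharacter G) : G → ℂ) 1) = 1 := by
      change (1 : ℂ) * (1 ^ 2 / 1) = 1; norm_num
    have e4 : ∑ j, ((μ j : IrrCharacter G) : G → ℂ) y *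
        (((μ j : IrrCharacter G) : G → ℂ) t ^ 2 / ((μ j : IrrCharacter G) : G → ℂ) 1) =
        - ε * (u : ℂ) ^ 2 / (H75.deg (μ i) : ℂ) := by
      have e5 : ∀ j, ((μ j : IrrCharacter G) : G → ℂ) y *
          (((μ j : IrrCharacter G) : G → ℂ) t ^ 2 / ((μ j : IrrCharacter G) : G → ℂ) 1) =
          (ε : ℂ) * (u : ℂ) ^ 2 / (H75.deg (μ i) : ℂ) * orbSum (ψ j) y := by
        intro j
        rw [hY j y y hself hyG1, hreg j i t hpo, hu, H75.deg_spec, hdeg j]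
        ring
      rw [Finset.sum_congr rfl (fun j _ => e5 j), ← Finset.mul_sum,
        sum_orbSum h.hab ψ hψ1 hcov hψinj hy1]
      ring
    rw [e1, e4, hs, ht', (hX χ₂ hmem2.1).2 y y hself y.2 hyG1,
      (hX χ₃ hmem3.1).2 y y hself y.2 hyG1, H75.deg_spec, H75.deg_spec] at hz
    refine finish_three hε h23 hXeq h12 h13 (hX χ₂ hmem2.1).1 (hX χ₃ hmem3.1).1
      (H75.deg_pos (μ i)) r1 (s := s) (t := t') (u := u) ?_ ?_ ?_ ?_
    · have h1 := hlin' i t hpo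
      rw [hs, ht', hu] at h1
      exact_mod_cast h1
    · have h9 : (((H75.deg χ₂ : ℤ) * (H75.deg χ₃ : ℤ) * (H75.deg (μ i) : ℤ) +
          a χ₂ * s ^ 2 * ((H75.deg χ₃ : ℤ) * (H75.deg (μ i) : ℤ)) +
          a χ₃ * t' ^ 2 * ((H75.deg χ₂ : ℤ) * (H75.deg (μ i) : ℤ)) +
          (-ε) * u ^ 2 * ((H75.deg χ₂ : ℤ) * (H75.deg χ₃ : ℤ)) : ℤ) : ℂ) = 0 := by
        push_cast
        field_simp at hz
        linear_combination hz
      exact_mod_cast h9
    · intro h1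
      refine value_ne_of_generates hK h12 ?_
      rw [hs, H75.deg_spec, h1]; norm_cast
    · intro h1
      refine value_ne_of_generates hK h13 ?_
      rw [ht', H75.deg_spec, h1]; norm_cast

end fin

end Cfsg.Agent.H79
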