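import Cfsg.Agent.H79.AbelMain
import Cfsg.Agent.H4.KleinBlock

/-!
# The case `|N/C| = 3` (S4721)
-/

set_option autoImplicit false
set_option linter.unusedSectionVars false
set_option linter.style.haveILetI false
set_option linter.unusedVariables false

namespace Cfsg.Agent.H79

open Cfsg Cfsg.Agent.CharBase Cfsg.Agent.Blk Cfsg.Agent.H25
open scoped ComplexConjugate

universe u

section arith

theorem isSquare_of_mul_sq {n v w : ℤ} (hv : v ≠ 0) (h : w ^ 2 = n * v ^ 2) : IsSquare n := by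
  have h1 : v ^ 2 ∣ w ^ 2 := ⟨n, by rw [h]; ring⟩
  obtain ⟨k, hk⟩ := (Int.pow_dvd_pow_iff two_ne_zero).1 h1
  refine ⟨k, ?_⟩
  have h2 : v ^ 2 * (n - k * k) = 0 := by
    have : (v * k) ^ 2 = n * v ^ 2 := by rw [← hk]; exact h
    linear_combination -this
  have h3 := (mul_eq_zero.1 h2).resolve_left (pow_ne_zero 2 hv)
  linarith

theorem square_lemma {A B C v w : ℤ} (hA : A + 1 = B + C)
    (h : B * C * (v + w) ^ 2 = A * C * v ^ 2 + A * B * w ^ 2) (hvw : v ≠ 0) : IsSquare (A * B * C) := by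
  have hA' : A = B + C - 1 := by linarith
  refine isSquare_of_mul_sq (w := B * C * v + B * (C - A) * w) hvw ?_
  subst hA'
  linear_combination (B * (C - (B + C - 1))) * h

theorem pos_lemma {A B C v w x : ℤ} (hB : 0 < B) (hC : 0 < C)
    (hA : A = 1 + B + C) (hx : x = 1 + v + w)
    (h : A * (B * C + v ^ 2 * C + w ^ 2 * B) = x ^ 2 * (B * C)) : v = B ∧ w = C ∧ x = A := by
  have key : C * (v - B) ^ 2 + B * (w - C) ^ 2 + (C * v - B * w) ^ 2 = 0 := by
    subst hA hx
    linear_combination h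
  have h1 : 0 ≤ C * (v - B) ^ 2 := mul_nonneg hC.le (sq_nonneg _)
  have h2 : 0 ≤ B * (w - C) ^ 2 := mul_nonneg hB.le (sq_nonneg _)
  have h3 : 0 ≤ (C * v - B * w) ^ 2 := sq_nonneg _
  have h4 : C * (v - B) ^ 2 = 0 := by linarith
  have h5 : B * (w - C) ^ 2 = 0 := by linarith
  have h6 : v - B = 0 := by
    have := (mul_eq_zero.1 h4).resolve_left hC.ne'
    exact pow_eq_zero_iff (two_ne_zero) |>.1 this
  have h7 : w - C = 0 := by
    have := (mul_eq_zero.1 h5).resolve_left hB.ne'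
    exact pow_eq_zero_iff (two_ne_zero) |>.1 this
  refine ⟨by linarith, by linarith, ?_⟩
  rw [hA, hx]
  linarith

/-- the arithmetic behind S4721 -/
theorem four_relation {x y f e₂ e₃ e₄ s t u : ℤ} (hx : 0 < x) (hy : 0 < y) (hf : 0 < f)
    (h2 : e₂ = 1 ∨ e₂ = -1) (h3 : e₃ = 1 ∨ e₃ = -1) (h4 : e₄ = 1 ∨ e₄ = -1)
    (r1 : 1 + e₂ * x + e₃ * y + e₄ * f = 0) (r2 : 1 + e₂ * s + e₃ * t + e₄ * u = 0)
    (r3 : x * y * f + e₂ * s ^ 2 * (y * f) + e₃ * t ^ 2 * (x * f) + e₄ * u ^ 2 * (x * y) = 0)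
    (n2 : s ≠ x) (n3 : t ≠ y) :
    ((if e₂ = -1 then 1 else 0) + (if e₃ = -1 then 1 else 0) + (if e₄ = -1 then 1 else 0) = 2) ∧
      IsSquare (x * y * f) := by
  rcases h2 with rfl | rfl <;> rcases h3 with rfl | rfl <;> rcases h4 with rfl | rfl
  · exfalso; linarith
  · -- e₄ = -1
    exfalso
    obtain ⟨h5, -, -⟩ := pos_lemma (A := f) (B := x) (C := y) (v := s) (w := t) (x := u) hx hy
      (by linarith) (by linarith) (by linear_combination r3)
    exact n2 h5
  · exfalso
    obtain ⟨h5, -, -⟩ := pos_lemma (A := y) (B := x) (C := f) (v := s) (w := u) (x := t) hx hf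
      (by linarith) (by linarith) (by linear_combination r3)
    exact n2 h5
  · refine ⟨by norm_num, ?_⟩
    have h5 := square_lemma (A := x) (B := y) (C := f) (v := t - y) (w := u - f) (by linarith)
      (by
        have e1 : s = t + u - 1 := by linarith
        have e2 : x = y + f - 1 := by linarith
        subst e1 e2
        linear_combination r3) (sub_ne_zero.2 n3)
    exact h5
  · exfalso
    obtain ⟨h5, -, -⟩ := pos_lemma (A := x) (B := y) (C := f) (v := t) (w := u) (x := s) hy hf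
      (by linarith) (by linarith) (by linear_combination r3)
    exact n3 h5
  · refine ⟨by norm_num, ?_⟩
    have h5 := square_lemma (A := y) (B := x) (C := f) (v := s - x) (w := u - f) (by linarith)
      (by
        have e1 : t = s + u - 1 := by linarith
        have e2 : y = x + f - 1 := by linarith
        subst e1 e2
        linear_combination r3) (sub_ne_zero.2 n2)
    rwa [mul_comm y x] at h5
  · refine ⟨by norm_num, ?_⟩
    have h5 := square_lemma (A := f) (B := x) (C := y) (v := s - x) (w := t - y) (by linarith)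
      (by
        have e1 : u = s + t - 1 := by linarith
        have e2 : f = x + y - 1 := by linarith
        subst e1 e2
        linear_combination r3) (sub_ne_zero.2 n2)
    have h6 : x * y * f = f * x * y := by ring
    rwa [h6]
  · exfalso; linarith

end arith

section orb

variable {G : Type u} [Group G] [Finite G] {P : Subgroup G} {m : ℕ}

theorem orbSum_congr {ψ ψ' : P →* ℂˣ} (h : Rel ψ ψ') (y : P) : orbSum ψ y = orbSum ψ' y := by
  have h1 : {φ : P →* ℂˣ | Rel ψ φ} = {φ | Rel ψ' φ} := by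
    ext φ
    exact ⟨fun h2 => h.symm.trans h2, fun h2 => h.trans h2⟩
  unfold orbSum
  rw [h1]

/-- sum over the orbits is the sum over all nontrivial linear characters -/
theorem sum_over_orbits [Fintype (P →* ℂˣ)] {r : ℕ} (ψ : Fin r → (P →* ℂˣ)) (hψ1 : ∀ i, ψ i ≠ 1)
    (hcov : ∀ φ : P →* ℂˣ, φ ≠ 1 → ∃ i, Rel φ (ψ i))
    (hinj : ∀ i j, Rel (ψ i) (ψ j) → i = j) (F : (P →* ℂˣ) → ℂ)
    (hF : ∀ φ φ' : P →* ℂˣ, Rel φ φ' → F φ = F φ') (y : P) :
    ∑ i, F (ψ i) * orbSum (ψ i) y =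
      ∑ φ : P →* ℂˣ, F φ * ((φ y : ℂˣ) : ℂ) - F 1 := by
  classical
  have h1 : ∀ i, F (ψ i) * orbSum (ψ i) y =
      ∑ φ : P →* ℂˣ, if Rel φ (ψ i) then F φ * ((φ y : ℂˣ) : ℂ) else 0 := by
    intro i
    rw [orbSum_eq, Finset.mul_sum]
    refine Finset.sum_congr rfl fun φ _ => ?_
    split_ifs with h
    · rw [hF φ (ψ i) h]
    · rw [mul_zero]
  rw [Finset.sum_congr rfl (fun i _ => h1 i), Finset.sum_comm]
  have h2 : ∀ φ : P →* ℂˣ, ∑ i, (if Rel φ (ψ i) then F φ * ((φ y : ℂˣ) : ℂ) else 0) =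
      F φ * ((φ y : ℂˣ) : ℂ) - (if φ = 1 then F 1 else 0) := by
    intro φ
    by_cases hφ : φ = 1
    · subst hφ
      rw [if_pos rfl, Finset.sum_eq_zero]
      · simp
      · intro i _
        rw [if_neg]
        intro h
        exact h.ne_one (hψ1 i) rfl
    · obtain ⟨i, hi⟩ := hcov φ hφ
      rw [if_neg hφ, sub_zero, Finset.sum_eq_single i]
      · rw [if_pos hi]
      · intro j _ hj
        rw [if_neg]
        intro h
        exact hj (hinj _ _ (h.symm.trans hi))
      · intro h; exact absurd (Finset.mem_univ _) h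
  rw [Finset.sum_congr rfl (fun φ _ => h2 φ), Finset.sum_sub_distrib, Finset.sum_ite_eq',
    if_pos (Finset.mem_univ _)]

theorem sum_orbSum (hab : ∀ a ∈ P, ∀ b ∈ P, a * b = b * a) {r : ℕ} (ψ : Fin r → (P →* ℂˣ))
    (hψ1 : ∀ i, ψ i ≠ 1)
    (hcov : ∀ φ : P →* ℂˣ, φ ≠ 1 → ∃ i, Rel φ (ψ i))
    (hinj : ∀ i j, Rel (ψ i) (ψ j) → i = j) {y : P} (hy : y ≠ 1) :
    ∑ i, orbSum (ψ i) y = -1 := by
  have := finite_dual (P := P)
  have := Fintype.ofFinite (P →* ℂˣ)
  have h1 := sum_over_orbits ψ hψ1 hcov hinj (fun _ => 1) (fun _ _ _ => rfl) y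
  simp only [one_mul] at h1
  rw [h1, sum_dual hab hy]; ring

end orb

section three

variable {G : Type u} [Group G] [Finite G] {p : ℕ} [Fact p.Prime] {M : Ideal AlgInt}

/-- the normalized structure theorem for `m = 3` -/
theorem structure_three (hM : IsPModular p M) {P : Sylow p G}
    (h : FrobAb (P : Subgroup G) 3) (hm2 : 3 + 1 < Nat.card P) :
    ∃ (r : ℕ) (ψ : Fin r → ((P : Subgroup G) →* ℂˣ)) (ε : ℤ) (μ : Fin r → IrrCharacter G)
      (a : IrrCharacter G → ℤ), 3 * r + 1 = Nat.card P ∧ 2 ≤ r ∧ (∀ i, ψ i ≠ 1) ∧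
      (∀ φ : (P : Subgroup G) →* ℂˣ, φ ≠ 1 → ∃ i, Rel φ (ψ i)) ∧
      (∀ i j, Rel (ψ i) (ψ j) → i = j) ∧ (ε = 1 ∨ ε = -1) ∧ Function.Injective μ ∧
      (∀ i, μ i ∈ principalBlock M G) ∧
      (∀ χ ∈ principalBlock M G \ Set.range μ, (a χ = 1 ∨ a χ = -1) ∧ ∀ z y : G, IsPPart p z y →
        y ∈ (P : Subgroup G) → y ≠ 1 → (χ : G → ℂ) z = (a χ : ℂ)) ∧
      (∀ i, ∀ (z : G) (y : (P : Subgroup G)), IsPPart p z (y : G) → (y : G) ≠ 1 →
        ((μ i : IrrCharacter G) : G → ℂ) z = (ε : ℂ) * orbSum (ψ i) y) ∧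
      Nat.card ↥(principalBlock M G \ Set.range μ) = 3 ∧
      (∀ i j, ∀ g : G, ¬ p ∣ orderOf g →
        ((μ i : IrrCharacter G) : G → ℂ) g = ((μ j : IrrCharacter G) : G → ℂ) g) ∧
      (∀ i, ∀ g : G, ¬ p ∣ orderOf g → - (ε : ℂ) * ((μ i : IrrCharacter G) : G → ℂ) g +
        ∑ᶠ χ ∈ principalBlock M G \ Set.range μ, (a χ : ℂ) * (χ : G → ℂ) g = 0) ∧
      oneIrr G ∈ principalBlock M G \ Set.range μ ∧ a (oneIrr G) = 1 := by
  classical
  have := Fintype.ofFinite (IrrCharacter G)
  obtain ⟨r, ψ, ε, μ, d, a, hr, hr2, hψ1, hcov, hψinj, hε, hinj, hmem, hX, hY, hsq, hreg, hlin, -, -,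
    hone, hone1⟩ := structure_principal hM h hm2
  set X := principalBlock M G \ Set.range μ with hXdef
  have hX1 : ∀ χ ∈ X, 1 ≤ a χ ^ 2 := by
    intro χ hχ
    have := (hX χ hχ).1
    have h2 : 0 < a χ ^ 2 := by positivity
    omega
  have hsumfin : ∀ f : IrrCharacter G → ℤ, ∑ᶠ χ ∈ X, f χ =
      ∑ χ ∈ (Set.toFinite X).toFinset, f χ := fun f =>
    finsum_mem_eq_finite_toFinset_sum _ (Set.toFinite _)
  have hcardX : (Nat.card ↥X : ℤ) = ∑ χ ∈ (Set.toFinite X).toFinset, (1 : ℤ) := by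
    rw [Nat.card_coe_set_eq, Set.ncard_eq_toFinset_card _ (Set.toFinite _),
      Finset.card_eq_sum_ones]
    push_cast; rfl
  have hsum1 : 1 ≤ ∑ᶠ χ ∈ X, a χ ^ 2 := by
    rw [hsumfin]
    refine le_trans (hX1 _ hone) (Finset.single_le_sum (f := fun χ => a χ ^ 2) (fun χ _ => sq_nonneg (a χ)) ?_)
    exact (Set.Finite.mem_toFinset _).2 hone
  have hr2' : (1 : ℤ) ≤ (r : ℤ) - 1 := by omega
  -- the sum of squares over `X` is `3` in the good case
  have hgood : ∑ᶠ χ ∈ X, a χ ^ 2 = 3 → (∀ χ ∈ X, a χ = 1 ∨ a χ = -1) ∧ Nat.card ↥X = 3 := by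
    intro h3
    rw [hsumfin] at h3
    have h4 : ∀ χ ∈ X, a χ ^ 2 ≤ 3 := by
      intro χ hχ
      rw [← h3]
      exact Finset.single_le_sum (f := fun χ => a χ ^ 2) (fun χ _ => sq_nonneg (a χ))
        ((Set.Finite.mem_toFinset _).2 hχ)
    have h5 : ∀ χ ∈ X, a χ = 1 ∨ a χ = -1 := by
      intro χ hχ
      have h6 := h4 χ hχ
      have h7 := hX1 χ hχ
      have h8 : a χ ≤ 1 := by nlinarith
      have h9 : -1 ≤ a χ := by nlinarith
      have h10 := (hX χ hχ).1
      omega
    refine ⟨h5, ?_⟩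
    have h6 : (Nat.card ↥X : ℤ) = 3 := by
      rw [hcardX, ← h3]
      refine Finset.sum_congr rfl fun χ hχ => ?_
      rcases h5 χ ((Set.Finite.mem_toFinset _).1 hχ) with h7 | h7 <;> rw [h7] <;> norm_num
    exact_mod_cast h6
  have hpp : IsPrimePow (Nat.card P) := by
    obtain ⟨n, hn⟩ := IsPGroup.iff_card.1 P.2
    change IsPrimePow (Nat.card (P : Subgroup G))
    rw [hn]
    have hn0 : n ≠ 0 := by
      rintro rfl
      change 3 + 1 < Nat.card (P : Subgroup G) at hm2
      rw [hn] at hm2; simp at hm2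
    exact (Fact.out : p.Prime).isPrimePow.pow hn0
  by_cases hd : d = 0
  · subst hd
    have h3 : ∑ᶠ χ ∈ X, a χ ^ 2 = 3 := by
      have h4 : (0 - ε) ^ 2 = 1 := by rcases hε with h5 | h5 <;> rw [h5] <;> norm_num
      rw [h4] at hsq
      push_cast at hsq
      linarith
    obtain ⟨h4, h5⟩ := hgood h3
    refine ⟨r, ψ, ε, μ, a, hr, hr2, hψ1, hcov, hψinj, hε, hinj, hmem,
      fun χ hχ => ⟨h4 χ hχ, (hX χ hχ).2⟩, ?_, h5, hreg, ?_, hone, hone1⟩
    · intro i z y hz hy
      rw [hY i z y hz hy]; simp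
    · intro i g hg
      have h6 := hlin i g hg
      rw [Int.cast_zero, mul_zero, zero_sub] at h6
      exact h6
  · -- `d = ε`
    have hd2 : 1 ≤ d ^ 2 := by
      have : 0 < d ^ 2 := by positivity
      omega
    have hde : d = ε := by
      by_contra hne
      have h4 : 1 ≤ (d - ε) ^ 2 := by
        have : d - ε ≠ 0 := sub_ne_zero.2 hne
        have : 0 < (d - ε) ^ 2 := by positivity
        omega
      have h5 : (d - ε) ^ 2 + d ^ 2 ≤ 3 := by
        push_cast at hsq
        nlinarith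
      rcases hε with h6 | h6
      · subst h6
        have h7 : d ≤ 1 := by nlinarith
        have h8 : 0 ≤ d := by nlinarith
        omega
      · subst h6
        have h7 : d ≤ 0 := by nlinarith
        have h8 : -1 ≤ d := by nlinarith
        omega
    subst hde
    have hdd : d ^ 2 = 1 := by rcases hε with h5 | h5 <;> rw [h5] <;> norm_num
    rw [hdd, sub_self] at hsq
    push_cast at hsq
    have hr4 : r ≤ 4 := by
      have : (r : ℤ) ≤ 4 := by linarith
      exact_mod_cast this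
    have hr3 : r ≠ 3 := by
      rintro rfl
      rw [← hr] at hpp
      have : ¬ IsPrimePow (3 * 3 + 1) := by
        rw [show 3 * 3 + 1 = 10 by norm_num, isPrimePow_nat_iff]
        push Not
        intro q k hq hk h10
        have h2 : q ∣ 10 := by rw [← h10]; exact dvd_pow_self q hk.ne'
        have h3 : q = 2 ∨ q = 5 := by
          have h4 : q ∣ 2 * 5 := by norm_num; exact h2
          rcases (Nat.Prime.dvd_mul hq).1 h4 with h5 | h5
          · exact Or.inl ((Nat.prime_dvd_prime_iff_eq hq Nat.prime_two).1 h5)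
          · exact Or.inr ((Nat.prime_dvd_prime_iff_eq hq Nat.prime_five).1 h5)
        rcases h3 with rfl | rfl
        · have h5 : 5 ∣ 2 ^ k := by rw [h10]; norm_num
          have := Nat.prime_five.dvd_of_dvd_pow h5
          omega
        · have h5 : 2 ∣ 5 ^ k := by rw [h10]; norm_num
          have := Nat.prime_two.dvd_of_dvd_pow h5
          omega
      exact this hpp
    have hr4' : r ≠ 4 := by
      rintro rfl
      -- then `X = {1}`
      have h3 : ∑ᶠ χ ∈ X, a χ ^ 2 = 1 := by push_cast at hsq; linarith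
      rw [hsumfin] at h3
      have hXone : ∀ χ ∈ X, χ = oneIrr G := by
        intro χ hχ
        by_contra hne
        have h4 : ({χ, oneIrr G} : Finset (IrrCharacter G)) ⊆ (Set.toFinite X).toFinset := by
          intro θ hθ
          rw [Finset.mem_insert, Finset.mem_singleton] at hθ
          rcases hθ with rfl | rfl
          · exact (Set.Finite.mem_toFinset _).2 hχ
          · exact (Set.Finite.mem_toFinset _).2 hone
        have h5 := Finset.sum_le_sum_of_subset_of_nonneg (f := fun χ => a χ ^ 2) h4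
          (fun χ _ _ => sq_nonneg (a χ))
        rw [Finset.sum_pair hne] at h5
        have h6 := hX1 χ hχ
        have h7 := hX1 _ hone
        linarith
      have h4 := hlin 0 1 (by
        rw [orderOf_one]; exact (Fact.out : p.Prime).one_lt.ne' ∘ Nat.dvd_one.mp)
      have h5 : ∑ᶠ χ ∈ X, (a χ : ℂ) * (χ : G → ℂ) 1 = 1 := by
        rw [finsum_mem_eq_finite_toFinset_sum _ (Set.toFinite _)]
        rw [Finset.sum_eq_single (oneIrr G)]
        · rw [hone1]; change ((1 : ℤ) : ℂ) * 1 = 1; simp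
        · intro χ hχ hne
          exact absurd (hXone χ ((Set.Finite.mem_toFinset _).1 hχ)) hne
        · intro hne
          exact absurd ((Set.Finite.mem_toFinset _).2 hone) hne
      rw [h5, H75.deg_spec] at h4
      have h6 : (((4 * d - d) * (H75.deg (μ 0) : ℤ) + 1 : ℤ) : ℂ) = 0 := by
        push_cast
        rw [← h4]; push_cast; ring
      have h7 : (4 * d - d) * (H75.deg (μ 0) : ℤ) + 1 = 0 := by exact_mod_cast h6
      have h8 : (3 : ℤ) ∣ 1 := ⟨-(d * (H75.deg (μ 0) : ℤ)), by linarith⟩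
      omega
    have hr2'' : r = 2 := by omega
    subst hr2''
    have h3 : ∑ᶠ χ ∈ X, a χ ^ 2 = 3 := by push_cast at hsq; linarith
    obtain ⟨h4, h5⟩ := hgood h3
    let σ : Equiv.Perm (Fin 2) := Equiv.swap 0 1
    have hrange : Set.range (μ ∘ σ) = Set.range μ := by
      rw [Set.range_comp, σ.surjective.range_eq, Set.image_univ]
    refine ⟨2, ψ, -d, μ ∘ σ, a, hr, hr2, hψ1, hcov, hψinj, ?_, hinj.comp σ.injective,
      fun i => hmem _, ?_, ?_, ?_, fun i j => hreg _ _, ?_, ?_, hone1⟩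
    · rcases hε with h6 | h6 <;> rw [h6] <;> norm_num
    · rw [hrange]
      exact fun χ hχ => ⟨h4 χ hχ, (hX χ hχ).2⟩
    · intro i z y hz hy
      have hy1 : y ≠ 1 := fun h6 => hy (congrArg Subtype.val h6)
      have h6 := sum_orbSum h.hab ψ hψ1 hcov hψinj hy1
      rw [Fin.sum_univ_two] at h6
      have h7 : orbSum (ψ i) y + orbSum (ψ (σ i)) y = -1 := by
        fin_cases i
        · change orbSum (ψ 0) y + orbSum (ψ (Equiv.swap 0 1 0)) y = -1
          rw [Equiv.swap_apply_left]; exact h6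
        · change orbSum (ψ 1) y + orbSum (ψ (Equiv.swap 0 1 1)) y = -1
          rw [Equiv.swap_apply_right, add_comm]; exact h6
      rw [Function.comp_apply, hY (σ i) z y hz hy]
      push_cast
      linear_combination (d : ℂ) * h7
    · rw [hrange]; exact h5
    · intro i g hg
      rw [hrange, Function.comp_apply]
      have h6 := hlin (σ i) g hg
      push_cast at h6 ⊢
      linear_combination h6
    · rw [hrange]; exact hone

end three

end Cfsg.Agent.H79
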