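import Mathlib
import Cfsg.Prelude.Def_Blocks
import Cfsg.Agent.Blk.Osima
import Cfsg.Agent.Blk.Orth2
import Cfsg.Agent.BlkInd.FirstMain
import Cfsg.Agent.BlkInd.DefectApp
import Cfsg.Agent.BlkInd.DefectApp2
import Cfsg.Agent.H4.NormSum
import Cfsg.Agent.H4.BlkQuot
import Cfsg.Agent.S0936

/-!
# Blocks of `H` inducing `B` with a given nonvanishing idempotent coefficient; deficiency classes
-/

set_option autoImplicit false
set_option linter.style.haveILetI false
set_option linter.unusedSectionVars false

open scoped ComplexConjugate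

namespace Cfsg.Agent.H79

open Cfsg Cfsg.Agent.CharBase Cfsg.Agent.Blk Cfsg.Agent.BlkInd

universe u

section idem

variable {H : Type u} [Group H] [Fintype H] {M : Ideal AlgInt} [hM : M.IsPrime]

/-- A central integral element which is idempotent modulo `M` and killed by all central characters
modulo `M` is zero modulo `M`. -/
theorem maxGA_of_idem {z : MonoidAlgebra ℂ H} (hz : IsCentr z) (hi : IntGA M z)
    (hidem : MaxGA M (z - z * z)) (h : ∀ ξ : IrrCharacter H, MemLocalIdeal M (om (ξ : H → ℂ) z)) :
    MaxGA M z := by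
  obtain ⟨n, hn⟩ := exists_pow_max hz hi h
  have hpow : ∀ m : ℕ, MaxGA M (z - z ^ (m + 1)) := by
    intro m
    induction m with
    | zero => rw [zero_add, pow_one, sub_self]; exact MaxGA.zero
    | succ m ih =>
      have e : z - z ^ (m + 1 + 1) = (z - z * z) + z * (z - z ^ (m + 1)) := by
        rw [mul_sub, ← pow_succ']; abel
      rw [e]
      exact hidem.add (ih.mul_left hi)
  have h1 := (hpow n).add (hn.mul_right hi)
  rwa [← pow_succ, sub_add_cancel] at h1

theorem om_sum {ι : Type*} (s : Finset ι) (f : ι → MonoidAlgebra ℂ H) (χ : H → ℂ) :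
    om χ (∑ i ∈ s, f i) = ∑ i ∈ s, om χ (f i) := by
  classical
  induction s using Finset.induction_on with
  | empty => simp [om_zero]
  | insert a s ha ih => rw [Finset.sum_insert ha, Finset.sum_insert ha, om_add, ih]

/-- The block idempotents sum to one. -/
theorem sum_eB_eq_one [Fintype {b : Set (IrrCharacter H) // IsPBlock M b}] :
    ∑ b : {b : Set (IrrCharacter H) // IsPBlock M b}, eB b.1 = 1 := by
  classical
  have hc : IsCentr (∑ b : {b : Set (IrrCharacter H) // IsPBlock M b}, eB b.1) := by
    intro g x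
    rw [coeff_sum', coeff_sum']
    exact Finset.sum_congr rfl (fun b _ => isCentr_eB b.1 g x)
  refine isCentr_ext hc isCentr_one (fun χ => ?_)
  rw [om_sum, om_one χ.2, Finset.sum_eq_single (⟨blockOf M (χ : H → ℂ), isPBlock_blockOf χ⟩ :
    {b : Set (IrrCharacter H) // IsPBlock M b})]
  · exact om_eB_of_mem (mem_blockOf_self χ)
  · intro b _ hb
    apply om_eB_of_not_mem
    intro h
    apply hb
    apply Subtype.ext
    exact isPBlock_eq_blockOf b.2 h
  · intro h; exact absurd (Finset.mem_univ _) h

end idem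

section main

variable {G : Type u} [Group G] [Fintype G] {M : Ideal AlgInt} [hM : M.IsPrime] {p : ℕ}

theorem exists_block_of_br_coeff [Fact p.Prime] (hMod : IsPModular p M) {P H : Subgroup G} (hP : IsPGroup p P)
    (hPH : P ≤ H) (hCH : Subgroup.centralizer (P : Set G) ≤ H)
    (hHN : H ≤ Subgroup.normalizer (P : Set G)) {B : Set (IrrCharacter G)} (hB : IsPBlock M B)
    {y : G} (hy : y ∈ Subgroup.centralizer (P : Set G)) (hyB : ¬ MemLocalIdeal M (blockCoeff B y)) :
    ∃ b : Set (IrrCharacter H), IsInducedBlock M H b B ∧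
      ¬ MemLocalIdeal M (blockCoeff b (⟨y, hCH hy⟩ : H)) := by
  classical
  haveI := Fintype.ofFinite H
  haveI := Fintype.ofFinite {b : Set (IrrCharacter H) // IsPBlock M b}
  set w := brH P H (eB B) with hw
  have hwc : IsCentr w := (isCentr_eB B).brH hHN
  have hwi : IntGA M w := (intGA_eB hB).brH
  have hidem : MaxGA M (w - w * w) := by
    have := brH_mul_cong (z := eB B) (w := eB B) hMod hP hCH (fun u _ g => isCentr_eB B g u)
      (fun u _ g => isCentr_eB B g u) (intGA_eB hB) (intGA_eB hB)
    rwa [eB_idem] at this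
  by_contra hne
  push Not at hne
  -- central characters of `w`
  have hom : ∀ ξ : IrrCharacter H, ¬ MemLocalIdeal M (om (ξ : H → ℂ) w) →
      IsInducedBlock M H (blockOf M (ξ : H → ℂ)) B := by
    intro ξ hξ
    obtain ⟨B', hB'⟩ := inducedBlockDefined hMod hP hPH hCH hHN (isPBlock_blockOf (M := M) ξ)
    obtain ⟨χ', hχ'⟩ := isPBlock_nonempty hB'.2.1
    have h1 := mli_om_brH_sub hMod hP hPH hHN hB' (mem_blockOf_self ξ) hχ' (isCentr_eB B) (intGA_eB hB)
    have h2 : χ' ∈ B := by
      by_contra hne
      rw [om_eB_of_not_mem hne, sub_zero] at h1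
      exact hξ h1
    rw [isPBlock_eq_of_mem hB hB'.2.1 h2 hχ']
    exact hB'
  have hom1 : ∀ ξ : IrrCharacter H, ¬ MemLocalIdeal M (om (ξ : H → ℂ) w) →
      MemLocalIdeal M (1 - om (ξ : H → ℂ) w) := by
    intro ξ hξ
    have h1 := mli_om ξ (hwc.sub (hwc.mul hwc)) hidem
    rw [om_sub, om_mul ξ.2 hwc] at h1
    have h2 : om (ξ : H → ℂ) w - om (ξ : H → ℂ) w * om (ξ : H → ℂ) w =
        om (ξ : H → ℂ) w * (1 - om (ξ : H → ℂ) w) := by ring
    rw [h2] at h1
    exact (mli_or_of_mul (mlr_om ξ hwc hwi) (mlr_sub mlr_one (mlr_om ξ hwc hwi)) h1).resolve_left hξ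
  -- each block
  have hblk : ∀ b : {b : Set (IrrCharacter H) // IsPBlock M b},
      MemLocalIdeal M ((w * eB b.1).coeff (⟨y, hCH hy⟩ : H)) := by
    intro b
    obtain ⟨ξ, hξ⟩ := isPBlock_nonempty b.2
    have hec := isCentr_eB b.1
    have hei : IntGA M (eB b.1) := intGA_eB b.2
    have hwe : (w * eB b.1) * (w * eB b.1) = (w * w) * eB b.1 := by
      calc (w * eB b.1) * (w * eB b.1) = w * (eB b.1 * w) * eB b.1 := by noncomm_ring
        _ = (w * w) * (eB b.1 * eB b.1) := by rw [hec.comm w]; noncomm_ring
        _ = (w * w) * eB b.1 := by rw [eB_idem]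
    by_cases hξw : MemLocalIdeal M (om (ξ : H → ℂ) w)
    · refine maxGA_of_idem (hwc.mul hec) (hwi.mul hei) ?_ ?_ _
      · rw [hwe, ← sub_mul]
        exact hidem.mul_right hei
      · intro ξ'
        rw [om_mul ξ'.2 hwc]
        by_cases hξ' : ξ' ∈ b.1
        · rw [om_eB_of_mem hξ', mul_one]
          have h1 := mli_om_sub (sameBlock_of_mem b.2 hξ' hξ) hwc hwi
          have := mli_add h1 hξw
          rwa [sub_add_cancel] at this
        · rw [om_eB_of_not_mem hξ', mul_zero]; exact mli_zero
    · have hind := hom ξ hξw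
      rw [← isPBlock_eq_blockOf b.2 hξ] at hind
      have h1 := hne b.1 hind
      have h2 : MaxGA M (eB b.1 - w * eB b.1) := by
        refine maxGA_of_idem (hec.sub (hwc.mul hec)) (hei.sub (hwi.mul hei)) ?_ ?_
        · have e : eB b.1 - w * eB b.1 - (eB b.1 - w * eB b.1) * (eB b.1 - w * eB b.1) =
              (w - w * w) * eB b.1 := by
            have h3 : (eB b.1 - w * eB b.1) * (eB b.1 - w * eB b.1) =
                eB b.1 * eB b.1 - (eB b.1 * w) * eB b.1 - w * (eB b.1 * eB b.1) +
                  (w * eB b.1) * (w * eB b.1) := by noncomm_ring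
            rw [h3, hwe, hec.comm w, eB_idem, mul_assoc w, eB_idem]
            noncomm_ring
          rw [e]
          exact hidem.mul_right hei
        · intro ξ'
          rw [om_sub, om_mul ξ'.2 hwc]
          by_cases hξ' : ξ' ∈ b.1
          · rw [om_eB_of_mem hξ', mul_one]
            refine hom1 ξ' (fun h4 => hξw ?_)
            have h5 := mli_om_sub (sameBlock_of_mem b.2 hξ hξ') hwc hwi
            have := mli_add h5 h4
            rwa [sub_add_cancel] at this
          · rw [om_eB_of_not_mem hξ', mul_zero, sub_zero]; exact mli_zero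
      have h3 := h2 (⟨y, hCH hy⟩ : H)
      rw [coeff_sub'] at h3
      have h4 : (w * eB b.1).coeff (⟨y, hCH hy⟩ : H) = (eB b.1).coeff (⟨y, hCH hy⟩ : H) -
          ((eB b.1).coeff (⟨y, hCH hy⟩ : H) - (w * eB b.1).coeff (⟨y, hCH hy⟩ : H)) := by ring
      rw [h4]
      exact mli_sub h1 h3
  have hfin : MemLocalIdeal M (w.coeff (⟨y, hCH hy⟩ : H)) := by
    have h1 : w = ∑ b : {b : Set (IrrCharacter H) // IsPBlock M b}, w * eB b.1 := by
      rw [← Finset.mul_sum, sum_eB_eq_one, mul_one]
    rw [h1, coeff_sum']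
    exact mli_sum _ _ (fun b _ => hblk b)
  rw [hw, brH_coeff, if_pos hy] at hfin
  exact hyB hfin

/-- For `u` central in a defect group `D` of `B`, there is a block of `C_G(u)` inducing `B` whose
defect is at least that of `B`. -/
theorem exists_block_centralizer [hp : Fact p.Prime] (hMod : IsPModular p M) {B : Set (IrrCharacter G)}
    (hB : IsPBlock M B) {D : Subgroup G} (hD : IsDefectGroup p M B D) {u : G} (huD : u ∈ D)
    (huc : ∀ d ∈ D, u * d = d * u) :
    ∃ b : Set (IrrCharacter (Subgroup.centralizer ({u} : Set G))),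
      IsInducedBlock M (Subgroup.centralizer ({u} : Set G)) b B ∧ blockDefect p B ≤ blockDefect p b := by
  classical
  haveI := Fintype.ofFinite (Subgroup.centralizer ({u} : Set G))
  obtain ⟨y, hy, hS⟩ := hD
  have hSy : SylC p y D := hS
  have hDG : IsDefectGroup p M B D := ⟨y, hy, hS⟩
  have hDp : IsPGroup p D := hSy.isPGroup
  have hPp : IsPGroup p (Subgroup.zpowers u) := hDp.to_le (Subgroup.zpowers_le.mpr huD)
  have hcz : Subgroup.centralizer ((Subgroup.zpowers u : Subgroup G) : Set G) =
      Subgroup.centralizer ({u} : Set G) := by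
    ext g
    rw [Subgroup.mem_centralizer_singleton_iff, Subgroup.mem_centralizer_iff]
    constructor
    · intro h
      exact (h u (Subgroup.mem_zpowers u)).symm
    · intro h z hz
      obtain ⟨n, rfl⟩ := Subgroup.mem_zpowers_iff.mp hz
      exact ((Commute.zpow_right (show Commute g u from h) n).eq).symm
  have hPC : Subgroup.zpowers u ≤ Subgroup.centralizer ({u} : Set G) := by
    rw [Subgroup.zpowers_le, Subgroup.mem_centralizer_singleton_iff]
  have hyD : y ∈ Subgroup.centralizer (D : Set G) := hSy.mem_centralizer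
  have hyP : y ∈ Subgroup.centralizer ((Subgroup.zpowers u : Subgroup G) : Set G) := by
    rw [hcz, Subgroup.mem_centralizer_singleton_iff]
    exact ((Subgroup.mem_centralizer_iff.mp hyD) u huD).symm
  obtain ⟨b, hb, hbc⟩ := exists_block_of_br_coeff hMod hPp hPC hcz.le
    (by rw [← hcz]; exact Subgroup.centralizer_le_normalizer _) hB hyP hy.2.1
  refine ⟨b, hb, ?_⟩
  have hDC : D ≤ Subgroup.centralizer ({u} : Set G) := by
    intro d hd
    rw [Subgroup.mem_centralizer_singleton_iff]
    exact (huc d hd).symm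
  obtain ⟨E, hE, hDE⟩ := exists_le_defect_of_coeff hMod hb.1
    (Q := D.subgroupOf (Subgroup.centralizer ({u} : Set G))) hDp.comap_subtype
    ((subgroupOf_centralizer hDC _).mpr hyD) hbc
  have h1 := card_defectGroup hMod hb.1 hE
  have h2 := card_defectGroup hMod hB hDG
  have h3 : Nat.card (D.subgroupOf (Subgroup.centralizer ({u} : Set G))) = Nat.card D :=
    Nat.card_congr (Subgroup.subgroupOfEquivOfLe hDC).toEquiv
  have h4 : Nat.card (D.subgroupOf (Subgroup.centralizer ({u} : Set G))) ≤ Nat.card E :=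
    Nat.card_le_card_of_injective _ (Subgroup.inclusion_injective hDE)
  rw [h3, h1, h2] at h4
  exact (Nat.pow_le_pow_iff_right hp.out.one_lt).mp h4

end main

section defclass

variable {G : Type u} [Group G] [Finite G] {M : Ideal AlgInt} {p : ℕ}

/-- no non-principal block of defect at least `r` -/
def DefClass (p : ℕ) (M : Ideal AlgInt) (G : Type u) [Group G] (r : ℕ) : Prop :=
  ∀ B' : Set (IrrCharacter G), IsPBlock M B' → B' ≠ principalBlock M G → blockDefect p B' < r

theorem defClass_centralizer [hp : Fact p.Prime] (hMod : IsPModular p M) {r : ℕ} (h : DefClass p M G r)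
    {y : G} (hy : ∃ k : ℕ, orderOf y = p ^ k) :
    DefClass p M (Subgroup.centralizer ({y} : Set G)) r := by
  classical
  haveI := isPrime_of_isPModular hMod
  haveI := Fintype.ofFinite G
  haveI := Fintype.ofFinite (Subgroup.centralizer ({y} : Set G))
  intro b hb hbne
  obtain ⟨B, hB⟩ := H4.inducedBlockDefined_centralizer hMod hy hb
  have hBne : B ≠ principalBlock M G := by
    rintro rfl
    exact hbne ((Cfsg.Agent.S0936.result p M hMod _ b ⟨_, hB⟩).mp hB)
  have h1 := h B hB.2.1 hBne
  obtain ⟨D, hD⟩ := exists_defectGroup (p := p) hMod hb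
  obtain ⟨E, hE, hDE⟩ := defect_le_of_induced hMod hB hD
  have h2 := card_defectGroup hMod hb hD
  have h3 := card_defectGroup hMod hB.2.1 hE
  have h4 : Nat.card (D.map (Subgroup.centralizer ({y} : Set G)).subtype) = Nat.card D :=
    Subgroup.card_map_of_injective (Subgroup.subtype_injective _)
  have h5 : Nat.card (D.map (Subgroup.centralizer ({y} : Set G)).subtype) ≤ Nat.card E :=
    Nat.card_le_card_of_injective _ (Subgroup.inclusion_injective hDE)
  rw [h4, h2, h3] at h5
  exact lt_of_le_of_lt ((Nat.pow_le_pow_iff_right hp.out.one_lt).mp h5) h1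

theorem defClass_of_centralizers [hp : Fact p.Prime] (hMod : IsPModular p M) {r : ℕ} (hr : 0 < r)
    (h : ∀ y : G, orderOf y = p → DefClass p M (Subgroup.centralizer ({y} : Set G)) r) :
    DefClass p M G r := by
  classical
  haveI := isPrime_of_isPModular hMod
  haveI := Fintype.ofFinite G
  intro B hB hBne
  by_contra hlt
  push Not at hlt
  obtain ⟨D, hD⟩ := exists_defectGroup (p := p) hMod hB
  have hcard := card_defectGroup hMod hB hD
  have hDp : IsPGroup p D := isPGroup_of_isDefectGroup hD
  have hnt : Nontrivial D := by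
    rw [← Finite.one_lt_card_iff_nontrivial, hcard]
    exact Nat.one_lt_pow (by omega) hp.out.one_lt
  have hZ : Nontrivial (Subgroup.center D) := hDp.center_nontrivial
  have hZp : IsPGroup p (Subgroup.center D) := hDp.to_subgroup _
  have hdvd : p ∣ Nat.card (Subgroup.center D) := by
    obtain ⟨n, hn⟩ := IsPGroup.iff_card.mp hZp
    have h1 : 1 < Nat.card (Subgroup.center D) := Finite.one_lt_card
    rw [hn] at h1 ⊢
    apply dvd_pow_self
    rintro rfl
    simp at h1
  obtain ⟨z, hz⟩ := exists_prime_orderOf_dvd_card' p hdvd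
  set u : G := ((z : D) : G) with hu
  have huo : orderOf u = p := by rw [hu, Subgroup.orderOf_coe, Subgroup.orderOf_coe, hz]
  have huD : u ∈ D := (z : D).2
  have huc : ∀ d ∈ D, u * d = d * u := by
    intro d hd
    have := Subgroup.mem_center_iff.mp z.2 ⟨d, hd⟩
    exact (congrArg Subtype.val this).symm
  obtain ⟨b, hb, hle⟩ := exists_block_centralizer hMod hB hD huD huc
  have h2 := h u huo b hb.1 (by
    rintro rfl
    have h3 := (Cfsg.Agent.S0936.result p M hMod (Subgroup.centralizer ({u} : Set G))
      (principalBlock M (Subgroup.centralizer ({u} : Set G))) ⟨_, hb⟩).mpr rfl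
    exact hBne (H4.isInducedBlock_unique hb h3))
  omega

end defclass

end Cfsg.Agent.H79
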