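import Mathlib
import Cfsg.Agent.H80.BrauerFowler
import Cfsg.Agent.H52.Four
import Cfsg.Agent.Solv.Core

/-!
# Order bound for a group with a four-group whose involutions have bounded centralizers
-/

set_option autoImplicit false
set_option linter.style.haveILetI false
set_option linter.unusedSectionVars false

namespace Cfsg.Agent.H79

open Cfsg

universe u

section quot

variable {G : Type u} [Group G] [Finite G]

/-- Centralizers do not grow in quotients. -/
theorem card_centralizer_mk_le (N : Subgroup G) [N.Normal] (e : G) :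
    Nat.card (Subgroup.centralizer ({(QuotientGroup.mk e : G ⧸ N)} : Set (G ⧸ N))) ≤
      Nat.card (Subgroup.centralizer ({e} : Set G)) := by
  set C := Subgroup.centralizer ({e} : Set G) with hC
  obtain ⟨T, hT⟩ : ∃ T, T = (Subgroup.centralizer ({(QuotientGroup.mk e : G ⧸ N)} : Set (G ⧸ N))).comap
    (QuotientGroup.mk' N) := ⟨_, rfl⟩
  have hCT : C ≤ T := by
    intro x hx
    rw [hC, Subgroup.mem_centralizer_singleton_iff] at hx
    rw [hT, Subgroup.mem_comap, Subgroup.mem_centralizer_singleton_iff]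
    change (QuotientGroup.mk x : G ⧸ N) * QuotientGroup.mk e = QuotientGroup.mk e * QuotientGroup.mk x
    rw [← QuotientGroup.mk_mul, ← QuotientGroup.mk_mul, hx]
  have hmem : ∀ x ∈ T, x * e * x⁻¹ * e⁻¹ ∈ N := by
    intro x hx
    rw [hT, Subgroup.mem_comap, Subgroup.mem_centralizer_singleton_iff] at hx
    have hx' : (QuotientGroup.mk (e * x) : G ⧸ N) = QuotientGroup.mk (x * e) := hx.symm
    rw [QuotientGroup.eq] at hx'
    have h1 : x * e * x⁻¹ * e⁻¹ = (e * x) * ((e * x)⁻¹ * (x * e)) * (e * x)⁻¹ := by group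
    rw [h1]
    exact ‹N.Normal›.conj_mem _ hx' _
  -- the index of C in T is at most |N|
  have h1 : C.relIndex T ≤ Nat.card N := by
    unfold Subgroup.relIndex Subgroup.index
    refine Nat.card_le_card_of_injective
      (fun q : T ⧸ C.subgroupOf T => Quotient.liftOn' q
        (fun x : T => (⟨(x : G) * e * (x : G)⁻¹ * e⁻¹, hmem x x.2⟩ : N)) ?_) ?_
    · intro a b hab
      rw [QuotientGroup.leftRel_apply] at hab
      have h2 : (a : G)⁻¹ * (b : G) ∈ C := Subgroup.mem_subgroupOf.mp hab
      rw [hC, Subgroup.mem_centralizer_singleton_iff] at h2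
      apply Subtype.ext
      show (a : G) * e * (a : G)⁻¹ * e⁻¹ = (b : G) * e * (b : G)⁻¹ * e⁻¹
      congr 1
      calc (a : G) * e * (a : G)⁻¹ = (a : G) * (e * ((a : G)⁻¹ * (b : G))) * (b : G)⁻¹ := by group
        _ = (b : G) * e * (b : G)⁻¹ := by rw [← h2]; group
    · intro q r
      refine Quotient.inductionOn₂' q r (fun a b hab => ?_)
      have h2 : (a : G) * e * (a : G)⁻¹ * e⁻¹ = (b : G) * e * (b : G)⁻¹ * e⁻¹ := congrArg Subtype.val hab
      have h3 : (a : G) * e * (a : G)⁻¹ = (b : G) * e * (b : G)⁻¹ := mul_right_cancel h2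
      apply Quotient.sound'
      rw [QuotientGroup.leftRel_apply]
      rw [Subgroup.mem_subgroupOf, hC, Subgroup.mem_centralizer_singleton_iff]
      show (a : G)⁻¹ * (b : G) * e = e * ((a : G)⁻¹ * (b : G))
      calc (a : G)⁻¹ * (b : G) * e = (a : G)⁻¹ * ((b : G) * e * (b : G)⁻¹) * (b : G) := by group
        _ = e * ((a : G)⁻¹ * (b : G)) := by rw [← h3]; group
  have h2 := Subgroup.relIndex_mul_index hCT
  have h3 : T.index = (Subgroup.centralizer ({(QuotientGroup.mk e : G ⧸ N)} : Set (G ⧸ N))).index := by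
    rw [hT]; exact Subgroup.index_comap_of_surjective _ (QuotientGroup.mk'_surjective N)
  have h4 := Subgroup.card_mul_index C
  have h5 := Subgroup.card_mul_index (Subgroup.centralizer ({(QuotientGroup.mk e : G ⧸ N)} : Set (G ⧸ N)))
  have h6 := Subgroup.card_mul_index N
  rw [Subgroup.index_eq_card N, ← h5, ← h3] at h6
  rw [← h2, ← h6] at h4
  have h7 : 0 < T.index := Nat.pos_of_ne_zero Subgroup.index_ne_zero_of_finite
  have h8 : Nat.card C * C.relIndex T = Nat.card N *
      Nat.card (Subgroup.centralizer ({(QuotientGroup.mk e : G ⧸ N)} : Set (G ⧸ N))) := by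
    apply Nat.eq_of_mul_eq_mul_right h7
    rw [mul_assoc, h4, mul_assoc]
  have h9 : Nat.card N * Nat.card (Subgroup.centralizer ({(QuotientGroup.mk e : G ⧸ N)} : Set (G ⧸ N))) ≤
      Nat.card N * Nat.card C := by
    rw [← h8, mul_comm (Nat.card N)]
    exact Nat.mul_le_mul_left _ h1
  exact Nat.le_of_mul_le_mul_left h9 Nat.card_pos

/-- There is a nontrivial element with large centralizer. -/
theorem exists_large_centralizer {t : G} (ht : orderOf t = 2) {c : ℕ}
    (hc : Nat.card (Subgroup.centralizer ({t} : Set G)) ≤ c) :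
    ∃ x : G, x ≠ 1 ∧ (Subgroup.centralizer ({x} : Set G)).index ≤ 2 * c ^ 2 := by
  classical
  haveI := Fintype.ofFinite G
  by_contra hne
  push Not at hne
  have hcpos : 0 < c := lt_of_lt_of_le Nat.card_pos hc
  -- every x ≠ 1 has |C(x)| * 2c² < |G|
  have h1 : ∀ x : G, x ≠ 1 → Nat.card (Subgroup.centralizer ({x} : Set G)) * (2 * c ^ 2) < Nat.card G := by
    intro x hx
    have h2 := hne x hx
    have h3 := Subgroup.card_mul_index (Subgroup.centralizer ({x} : Set G))
    have hpos : 0 < Nat.card (Subgroup.centralizer ({x} : Set G)) := Nat.card_pos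
    rw [← h3]
    exact Nat.mul_lt_mul_of_pos_left h2 hpos
  have hsum := H80.sum_beta (G := G)
  have hone := H80.beta_one (G := G)
  set n := H80.numInv G with hn
  have hle := H80.card_le_numInv_mul t ht
  rw [← hn] at hle
  have hle' : Nat.card G ≤ n * c := hle.trans (Nat.mul_le_mul_left _ hc)
  have hnpos : 0 < n := by
    rcases Nat.eq_zero_or_pos n with h | h
    · rw [h, zero_mul] at hle
      have : 0 < Nat.card G := Nat.card_pos
      omega
    · exact h
  have h4 : (∑ x : G, H80.beta x) * (2 * c ^ 2) ≤ n * (2 * c ^ 2) + (Nat.card G - 1) * (Nat.card G - 1) := by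
    rw [← Finset.add_sum_erase _ _ (Finset.mem_univ (1 : G)), hone, add_mul]
    refine Nat.add_le_add_left ?_ _
    rw [Finset.sum_mul]
    have h5 : ∀ x ∈ Finset.univ.erase (1 : G), H80.beta x * (2 * c ^ 2) ≤ Nat.card G - 1 := by
      intro x hx
      have h6 := h1 x (Finset.ne_of_mem_erase hx)
      have h7 := Nat.mul_le_mul_right (2 * c ^ 2) (H80.beta_le_card_centralizer x)
      omega
    refine (Finset.sum_le_sum h5).trans ?_
    rw [Finset.sum_const, smul_eq_mul, Finset.card_erase_of_mem (Finset.mem_univ _), Finset.card_univ,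
      Nat.card_eq_fintype_card]
  rw [hsum] at h4
  -- n² · 2c² ≤ n · 2c² + (|G|-1)², |G| ≤ n c
  have h8 : Nat.card G - 1 ≤ n * c - 1 := by omega
  have h9 : (Nat.card G - 1) * (Nat.card G - 1) ≤ (n * c - 1) * (n * c - 1) := Nat.mul_le_mul h8 h8
  have h10 : n ^ 2 * (2 * c ^ 2) ≤ n * (2 * c ^ 2) + (n * c - 1) * (n * c - 1) := h4.trans (Nat.add_le_add_left h9 _)
  have h11 : 1 ≤ n * c := Nat.mul_pos hnpos hcpos
  obtain ⟨m, hm⟩ : ∃ m, n * c = m + 1 := ⟨n * c - 1, by omega⟩
  rw [hm, Nat.add_sub_cancel] at h10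
  have h12 : n ^ 2 * (2 * c ^ 2) = 2 * (m + 1) ^ 2 := by rw [← hm]; ring
  have h13 : n * (2 * c ^ 2) = 2 * (m + 1) * c := by rw [← hm]; ring
  rw [h12, h13] at h10
  have ht1 : t ≠ 1 := by
    rintro rfl
    rw [orderOf_one] at ht
    omega
  have h14 := hne t ht1
  have h15 : (Subgroup.centralizer ({t} : Set G)).index ≤ Nat.card G :=
    Nat.le_of_dvd Nat.card_pos (Subgroup.index_dvd_card _)
  have h16 : 2 * c ^ 2 < m + 1 := by omega
  have h17 : 2 * c ≤ m := by nlinarith
  nlinarith

end quot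

section small

variable {G : Type u} [Group G] [Finite G]

/-- An abelian normal subgroup of a group without odd normal subgroups is a 2-group. -/
theorem isPGroup_two_of_abelian (hO : pPrimeCore 2 G = ⊥) (Z : Subgroup G) [Z.Normal]
    (hab : ∀ a ∈ Z, ∀ b ∈ Z, a * b = b * a) : IsPGroup 2 Z := by
  classical
  haveI : Fact (Nat.Prime 2) := ⟨Nat.prime_two⟩
  let W : Subgroup G :=
    { carrier := {z | z ∈ Z ∧ Odd (orderOf z)}
      one_mem' := ⟨Z.one_mem, by rw [orderOf_one]; exact odd_one⟩
      mul_mem' := by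
        rintro a b ⟨ha, hao⟩ ⟨hb, hbo⟩
        refine ⟨Z.mul_mem ha hb, ?_⟩
        have h1 : orderOf (a * b) ∣ orderOf a * orderOf b :=
          (Commute.orderOf_mul_dvd_lcm (hab a ha b hb)).trans (Nat.lcm_dvd_mul _ _)
        exact Odd.of_dvd_nat (hao.mul hbo) h1
      inv_mem' := by
        rintro a ⟨ha, hao⟩
        exact ⟨Z.inv_mem ha, by rwa [orderOf_inv]⟩ }
  haveI hWn : W.Normal := by
    constructor
    rintro n ⟨hn, hno⟩ g
    refine ⟨‹Z.Normal›.conj_mem n hn g, ?_⟩
    have h1 : orderOf (g * n * g⁻¹) = orderOf n := by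
      have := orderOf_injective (MulAut.conj g).toMonoidHom (MulAut.conj g).injective n
      simpa using this
    rwa [h1]
  have hWc : (Nat.card W).Coprime 2 := by
    rw [Nat.coprime_comm, Nat.Prime.coprime_iff_not_dvd Nat.prime_two]
    intro h
    obtain ⟨w, hw⟩ := exists_prime_orderOf_dvd_card' 2 h
    have h1 : Odd (orderOf (w : G)) := w.2.2
    rw [Subgroup.orderOf_coe, hw] at h1
    exact absurd h1 (by decide)
  have hW : W = ⊥ := by
    rw [eq_bot_iff, ← hO]
    exact Solv.le_pPrimeCore hWn hWc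
  rw [IsPGroup.iff_orderOf]
  intro z
  set n := orderOf (z : G) with hn
  have hn0 : n ≠ 0 := (orderOf_pos _).ne'
  have h1 : 2 ^ n.factorization 2 * (n / 2 ^ n.factorization 2) = n := Nat.ordProj_mul_ordCompl_eq_self n 2
  have h2 : orderOf ((z : G) ^ 2 ^ n.factorization 2) = n / 2 ^ n.factorization 2 := by
    rw [orderOf_pow_of_dvd (pow_pos (by norm_num) _).ne' (Dvd.intro _ h1)]
  have h3 : Odd (n / 2 ^ n.factorization 2) := by
    rw [← Nat.not_even_iff_odd, even_iff_two_dvd]
    exact Nat.not_dvd_ordCompl Nat.prime_two hn0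
  have h4 : (z : G) ^ 2 ^ n.factorization 2 ∈ W := ⟨Z.pow_mem z.2 _, by rw [h2]; exact h3⟩
  rw [hW, Subgroup.mem_bot] at h4
  rw [h4, orderOf_one] at h2
  refine ⟨n.factorization 2, ?_⟩
  rw [← Subgroup.orderOf_coe, ← hn]
  conv_lhs => rw [← h1, ← h2, mul_one]

/-- A bounded normal subgroup from an element with a small class. -/
theorem exists_small_normal (hO : pPrimeCore 2 G = ⊥) {x : G} (hx : x ≠ 1) {m a : ℕ}
    (hm : (Subgroup.centralizer ({x} : Set G)).index ≤ m) (ha : (Nat.card G).factorization 2 ≤ a) :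
    ∃ K : Subgroup G, K.Normal ∧ K ≠ ⊥ ∧ Nat.card K ≤ 2 ^ a * m.factorial := by
  classical
  haveI : Fact (Nat.Prime 2) := ⟨Nat.prime_two⟩
  set C := Subgroup.centralizer ({x} : Set G) with hC
  set C₁ := C.normalCore with hC₁
  have hidx : C₁.index ≤ m.factorial := by
    have h1 : C₁.index ∣ C.index.factorial := by
      rw [hC₁, Subgroup.normalCore_eq_ker, Subgroup.index_ker]
      have h2 := Nat.card_perm (α := G ⧸ C)
      rw [← Subgroup.index_eq_card] at h2
      rw [← h2]
      exact Subgroup.card_subgroup_dvd_card _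
    exact (Nat.le_of_dvd (Nat.factorial_pos _) h1).trans (Nat.factorial_le hm)
  set K := Subgroup.normalClosure ({x} : Set G) with hK
  have hKn : K.Normal := Subgroup.normalClosure_normal
  have hxK : x ∈ K := Subgroup.subset_normalClosure rfl
  haveI hC₁n : C₁.Normal := Subgroup.normalCore_normal C
  -- C₁ centralizes K
  have hcen : K ≤ Subgroup.centralizer (C₁ : Set G) := by
    rw [hK]
    haveI : (Subgroup.centralizer (C₁ : Set G)).Normal := Subgroup.normal_centralizer
    apply Subgroup.normalClosure_le_normal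
    rw [Set.singleton_subset_iff, SetLike.mem_coe, Subgroup.mem_centralizer_iff]
    intro y hy
    have h1 : y ∈ C := Subgroup.normalCore_le C hy
    rw [hC, Subgroup.mem_centralizer_singleton_iff] at h1
    exact h1
  have hZn : (K ⊓ C₁).Normal := inferInstance
  have hZab : ∀ y ∈ K ⊓ C₁, ∀ z ∈ K ⊓ C₁, y * z = z * y := by
    intro y hy z hz
    exact (Subgroup.mem_centralizer_iff.mp (hcen hz.1)) y hy.2
  have hZp := isPGroup_two_of_abelian hO (K ⊓ C₁) hZab
  obtain ⟨j, hj⟩ := IsPGroup.iff_card.mp hZp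
  have hja : j ≤ a := by
    have h1 : 2 ^ j ∣ Nat.card G := by rw [← hj]; exact Subgroup.card_subgroup_dvd_card _
    exact ((Nat.prime_two.pow_dvd_iff_le_factorization Nat.card_pos.ne').mp h1).trans ha
  have hcardK : Nat.card K = Nat.card (K ⊓ C₁ : Subgroup G) * C₁.relIndex K := by
    have h1 := Subgroup.relIndex_mul_relIndex ⊥ (K ⊓ C₁) K bot_le inf_le_left
    rw [Subgroup.relIndex_bot_left, Subgroup.relIndex_bot_left, inf_comm, Subgroup.inf_relIndex_right] at h1
    rw [← h1, inf_comm]
  refine ⟨K, hKn, ?_, ?_⟩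
  · intro h
    rw [h] at hxK
    exact hx (Subgroup.mem_bot.mp hxK)
  · rw [hcardK, hj]
    refine Nat.mul_le_mul (Nat.pow_le_pow_right (by norm_num) hja) ?_
    refine le_trans ?_ hidx
    exact Nat.le_of_dvd (Nat.pos_of_ne_zero Subgroup.index_ne_zero_of_finite)
      (Subgroup.relIndex_dvd_index_of_normal C₁ K)

end small

/-- a four-group `{1, e, f, ef}` all of whose involutions have centralizers of order `≤ c` -/
def Vbd (G : Type u) [Group G] (c : ℕ) : Prop :=
  ∃ e f : G, e * e = 1 ∧ f * f = 1 ∧ e ≠ 1 ∧ f ≠ 1 ∧ e * f ≠ 1 ∧ e * f = f * e ∧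
    Nat.card (Subgroup.centralizer ({e} : Set G)) ≤ c ∧ Nat.card (Subgroup.centralizer ({f} : Set G)) ≤ c ∧
    Nat.card (Subgroup.centralizer ({e * f} : Set G)) ≤ c

section vbd

variable {G : Type u} [Group G] [Finite G]

theorem card_odd_le (O : Subgroup G) [hO : O.Normal] (hodd : Odd (Nat.card O)) {c : ℕ} (h : Vbd G c) :
    Nat.card O ≤ c ^ 3 := by
  classical
  obtain ⟨a, b, ha, hb, -, -, -, hab, hc1, hc2, hc3⟩ := h
  let α : O →* O :=
    { toFun := fun x => ⟨a * x * a⁻¹, hO.conj_mem _ x.2 a⟩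
      map_one' := by ext; simp
      map_mul' := by intro x y; ext; simp }
  let β : O →* O :=
    { toFun := fun x => ⟨b * x * b⁻¹, hO.conj_mem _ x.2 b⟩
      map_one' := by ext; simp
      map_mul' := by intro x y; ext; simp }
  have hfac := fun x : O => H52.four_group_factor hodd α β
    (by intro y; ext; simp only [α, MonoidHom.coe_mk, OneHom.coe_mk]
        calc a * (a * (y : G) * a⁻¹) * a⁻¹ = (a * a) * y * (a * a)⁻¹ := by group
          _ = y := by rw [ha]; group)
    (by intro y; ext; simp only [β, MonoidHom.coe_mk, OneHom.coe_mk]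
        calc b * (b * (y : G) * b⁻¹) * b⁻¹ = (b * b) * y * (b * b)⁻¹ := by group
          _ = y := by rw [hb]; group)
    (by intro y; ext; simp only [α, β, MonoidHom.coe_mk, OneHom.coe_mk]
        calc a * (b * (y : G) * b⁻¹) * a⁻¹ = (a * b) * y * (a * b)⁻¹ := by group
          _ = b * (a * (y : G) * a⁻¹) * b⁻¹ := by rw [hab]; group) x
  choose cc dd kk h1 h2 h3 h4 using hfac
  have hc : ∀ x, (cc x : G) ∈ Subgroup.centralizer ({a} : Set G) := by
    intro x
    have := congrArg Subtype.val (h1 x)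
    simp only [α, MonoidHom.coe_mk, OneHom.coe_mk] at this
    rw [mul_inv_eq_iff_eq_mul] at this
    rw [Subgroup.mem_centralizer_singleton_iff]
    exact this.symm
  have hd : ∀ x, (dd x : G) ∈ Subgroup.centralizer ({b} : Set G) := by
    intro x
    have := congrArg Subtype.val (h2 x)
    simp only [β, MonoidHom.coe_mk, OneHom.coe_mk] at this
    rw [mul_inv_eq_iff_eq_mul] at this
    rw [Subgroup.mem_centralizer_singleton_iff]
    exact this.symm
  have hk : ∀ x, (kk x : G) ∈ Subgroup.centralizer ({a * b} : Set G) := by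
    intro x
    have := congrArg Subtype.val (h3 x)
    simp only [α, β, MonoidHom.coe_mk, OneHom.coe_mk] at this
    have h4 : a * (b * (kk x : G) * b⁻¹) * a⁻¹ = (a * b) * kk x * (a * b)⁻¹ := by group
    rw [h4, mul_inv_eq_iff_eq_mul] at this
    rw [Subgroup.mem_centralizer_singleton_iff]
    exact this.symm
  have hinj : Function.Injective (fun x : O =>
      ((⟨cc x, hc x⟩, ⟨dd x, hd x⟩, ⟨kk x, hk x⟩) :
        Subgroup.centralizer ({a} : Set G) × Subgroup.centralizer ({b} : Set G) ×
          Subgroup.centralizer ({a * b} : Set G))) := by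
    intro x y hxy
    have e1 : (cc x : G) = cc y := congrArg (fun z => (z.1 : G)) hxy
    have e2 : (dd x : G) = dd y := congrArg (fun z => (z.2.1 : G)) hxy
    have e3 : (kk x : G) = kk y := congrArg (fun z => (z.2.2 : G)) hxy
    rw [h4 x, h4 y, Subtype.ext e1, Subtype.ext e2, Subtype.ext e3]
  have h5 := Nat.card_le_card_of_injective _ hinj
  rw [Nat.card_prod, Nat.card_prod] at h5
  calc Nat.card O ≤ _ := h5
    _ ≤ c * (c * c) := Nat.mul_le_mul hc1 (Nat.mul_le_mul hc2 hc3)
    _ = c ^ 3 := by ring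

theorem Vbd.quot {c : ℕ} {e f : G} (he : e * e = 1) (hf : f * f = 1) (hef : e * f = f * e)
    (h1 : Nat.card (Subgroup.centralizer ({e} : Set G)) ≤ c) (h2 : Nat.card (Subgroup.centralizer ({f} : Set G)) ≤ c)
    (h3 : Nat.card (Subgroup.centralizer ({e * f} : Set G)) ≤ c) (N : Subgroup G) [N.Normal]
    (heN : e ∉ N) (hfN : f ∉ N) (hefN : e * f ∉ N) : Vbd (G ⧸ N) c := by
  refine ⟨QuotientGroup.mk e, QuotientGroup.mk f, ?_, ?_, ?_, ?_, ?_, ?_, ?_, ?_, ?_⟩
  · rw [← QuotientGroup.mk_mul, he, QuotientGroup.mk_one]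
  · rw [← QuotientGroup.mk_mul, hf, QuotientGroup.mk_one]
  · rwa [Ne, QuotientGroup.eq_one_iff]
  · rwa [Ne, QuotientGroup.eq_one_iff]
  · rwa [← QuotientGroup.mk_mul, Ne, QuotientGroup.eq_one_iff]
  · rw [← QuotientGroup.mk_mul, ← QuotientGroup.mk_mul, hef]
  · exact (card_centralizer_mk_le N e).trans h1
  · exact (card_centralizer_mk_le N f).trans h2
  · rw [← QuotientGroup.mk_mul]
    exact (card_centralizer_mk_le N (e * f)).trans h3

theorem notMem_of_odd {N : Subgroup G} (hN : Odd (Nat.card N)) {e : G} (he : e * e = 1) (he1 : e ≠ 1) :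
    e ∉ N := by
  intro h
  have h1 : orderOf e = 2 := orderOf_eq_prime (by rw [pow_two, he]) he1
  have h2 : orderOf e ∣ Nat.card N := by
    rw [← Subgroup.orderOf_mk e h]
    exact orderOf_dvd_natCard _
  rw [h1] at h2
  exact (Nat.not_even_iff_odd.mpr hN) (even_iff_two_dvd.mpr h2)

theorem card_le_of_mem {N : Subgroup G} [hN : N.Normal] {e : G} (he : e ∈ N) :
    Nat.card G ≤ Nat.card N * Nat.card (Subgroup.centralizer ({e} : Set G)) := by
  have h1 := Subgroup.card_mul_index (Subgroup.centralizer ({e} : Set G))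
  rw [← h1, mul_comm]
  refine Nat.mul_le_mul_right _ ?_
  rw [Subgroup.index_eq_card]
  refine Nat.card_le_card_of_injective
    (fun q : G ⧸ Subgroup.centralizer ({e} : Set G) => Quotient.liftOn' q
      (fun x : G => (⟨x * e * x⁻¹, hN.conj_mem e he x⟩ : N)) ?_) ?_
  · intro a b hab
    rw [QuotientGroup.leftRel_apply, Subgroup.mem_centralizer_singleton_iff] at hab
    apply Subtype.ext
    show a * e * a⁻¹ = b * e * b⁻¹
    calc a * e * a⁻¹ = a * (e * (a⁻¹ * b)) * b⁻¹ := by group
      _ = b * e * b⁻¹ := by rw [← hab]; group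
  · intro q r
    refine Quotient.inductionOn₂' q r (fun a b hab => ?_)
    have h3 : a * e * a⁻¹ = b * e * b⁻¹ := congrArg Subtype.val hab
    apply Quotient.sound'
    rw [QuotientGroup.leftRel_apply, Subgroup.mem_centralizer_singleton_iff]
    calc a⁻¹ * b * e = a⁻¹ * (b * e * b⁻¹) * b := by group
      _ = e * (a⁻¹ * b) := by rw [← h3]; group

end vbd

theorem factorization_quotient_le {G : Type u} [Group G] [Finite G] (N : Subgroup G) [N.Normal] (p : ℕ) :
    (Nat.card (G ⧸ N)).factorization p ≤ (Nat.card G).factorization p := by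
  have h1 : Nat.card (G ⧸ N) ∣ Nat.card G := by
    rw [← Subgroup.index_eq_card]; exact Subgroup.index_dvd_card N
  exact (Nat.factorization_le_iff_dvd Nat.card_pos.ne' Nat.card_pos.ne').mpr h1 p

/-- The bound when `O(G) = 1`, given the bound for smaller 2-part. -/
theorem exists_bound_core {a c : ℕ} {N₀ : ℕ}
    (ih : ∀ (G : Type u) [Group G] [Finite G], Vbd G c → (Nat.card G).factorization 2 < a → Nat.card G ≤ N₀)
    (G : Type u) [Group G] [Finite G] (h : Vbd G c) (ha : (Nat.card G).factorization 2 ≤ a)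
    (hO : pPrimeCore 2 G = ⊥) :
    Nat.card G ≤ (2 ^ a * (2 * c ^ 2).factorial) * (c + N₀) := by
  classical
  obtain ⟨e, f, he, hf, he1, hf1, hef1, hef, h1, h2, h3⟩ := h
  have hoe : orderOf e = 2 := orderOf_eq_prime (by rw [pow_two, he]) he1
  obtain ⟨x, hx, hxi⟩ := exists_large_centralizer hoe h1
  obtain ⟨K, hKn, hK1, hKc⟩ := exists_small_normal hO hx hxi ha
  set m := 2 ^ a * (2 * c ^ 2).factorial with hm
  have hmem : ∀ y : G, y ∈ K → Nat.card (Subgroup.centralizer ({y} : Set G)) ≤ c →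
      Nat.card G ≤ m * (c + N₀) := by
    intro y hy hyc
    refine (card_le_of_mem hy).trans (Nat.mul_le_mul hKc (hyc.trans (Nat.le_add_right _ _)))
  by_cases heK : e ∈ K
  · exact hmem e heK h1
  by_cases hfK : f ∈ K
  · exact hmem f hfK h2
  by_cases hefK : e * f ∈ K
  · exact hmem _ hefK h3
  have hV := Vbd.quot he hf hef h1 h2 h3 K heK hfK hefK
  have hodd : ¬ Odd (Nat.card K) := by
    intro hodd
    apply hK1
    rw [eq_bot_iff, ← hO]
    apply Solv.le_pPrimeCore hKn
    rw [Nat.coprime_comm, Nat.Prime.coprime_iff_not_dvd Nat.prime_two, ← even_iff_two_dvd]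
    exact Nat.not_even_iff_odd.mpr hodd
  have hfac : (Nat.card (G ⧸ K)).factorization 2 < a := by
    have h4 := Subgroup.card_mul_index K
    rw [Subgroup.index_eq_card] at h4
    have h5 : (Nat.card K).factorization 2 + (Nat.card (G ⧸ K)).factorization 2 = (Nat.card G).factorization 2 := by
      rw [← h4, Nat.factorization_mul Nat.card_pos.ne' Nat.card_pos.ne', Finsupp.add_apply]
    have h6 : 0 < (Nat.card K).factorization 2 := by
      apply Nat.Prime.factorization_pos_of_dvd Nat.prime_two Nat.card_pos.ne'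
      rw [← even_iff_two_dvd]
      exact Nat.not_odd_iff_even.mp hodd
    omega
  have h7 := ih (G ⧸ K) hV hfac
  have h8 := Subgroup.card_mul_index K
  rw [Subgroup.index_eq_card] at h8
  rw [← h8]
  exact Nat.mul_le_mul hKc (h7.trans (Nat.le_add_left _ _))

/-- **Bound**: four-group with bounded centralizers. -/
theorem exists_bound_four (a c : ℕ) : ∃ N : ℕ, ∀ (G : Type u) [Group G] [Finite G], Vbd G c →
    (Nat.card G).factorization 2 < a → Nat.card G ≤ N := by
  classical
  induction a with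
  | zero => exact ⟨0, fun G _ _ _ h => absurd h (Nat.not_lt_zero _)⟩
  | succ a ih =>
    obtain ⟨N₀, hN₀⟩ := ih
    refine ⟨c ^ 3 * ((2 ^ a * (2 * c ^ 2).factorial) * (c + N₀)), fun G _ _ hV hlt => ?_⟩
    have hodd : Odd (Nat.card (pPrimeCore 2 G)) := by
      have h1 := Solv.pPrimeCore_card_coprime (G := G) 2
      rw [Nat.coprime_comm, Nat.Prime.coprime_iff_not_dvd Nat.prime_two, ← even_iff_two_dvd] at h1
      exact Nat.not_even_iff_odd.mp h1
    have hc3 := card_odd_le (pPrimeCore 2 G) hodd hV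
    obtain ⟨e, f, he, hf, he1, hf1, hef1, hef, h1, h2, h3⟩ := hV
    have hq := Vbd.quot he hf hef h1 h2 h3 (pPrimeCore 2 G) (notMem_of_odd hodd he he1)
      (notMem_of_odd hodd hf hf1) (notMem_of_odd hodd (by
        calc e * f * (e * f) = e * (f * e) * f := by group
          _ = (e * e) * (f * f) := by rw [← hef]; group
          _ = 1 := by rw [he, hf, one_mul]) hef1)
    have h4 := exists_bound_core hN₀ (G ⧸ pPrimeCore 2 G) hq
      ((factorization_quotient_le _ 2).trans (Nat.lt_succ_iff.mp hlt)) (Solv.pPrimeCore_quotient_pPrimeCore 2)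
    have h5 := Subgroup.card_mul_index (pPrimeCore 2 G)
    rw [Subgroup.index_eq_card] at h5
    rw [← h5]
    exact Nat.mul_le_mul hc3 h4

end Cfsg.Agent.H79
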