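import Mathlib
import Cfsg.Prelude.Def_Blocks
import Cfsg.Agent.H79.BrCoeff
import Cfsg.Agent.H79.VBound
import Cfsg.Agent.H4.BlkQuot
import Cfsg.Agent.H75.Inflate
import Cfsg.Agent.S4718

/-!
# Groups of small deficiency class and large 2-rank have bounded order
-/

set_option autoImplicit false
set_option linter.style.haveILetI false
set_option linter.unusedSectionVars false

namespace Cfsg.Agent.H79

open Cfsg Cfsg.Agent.CharBase Cfsg.Agent.Blk Cfsg.Agent.BlkInd

universe u

section quot

variable {G : Type u} [Group G] [Finite G] {M : Ideal AlgInt} {p : ℕ}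

theorem defClass_quotient [hp : Fact p.Prime] (hMod : IsPModular p M) {Z : Subgroup G} [Z.Normal]
    (hZp : Nat.card Z = p) (hZc : ∀ z ∈ Z, ∀ g : G, Commute g z) {r : ℕ}
    (h : DefClass p M G (r + 1)) : DefClass p M (G ⧸ Z) r := by
  classical
  haveI := isPrime_of_isPModular hMod
  haveI := Fintype.ofFinite G
  haveI := Fintype.ofFinite (G ⧸ Z)
  have hPZ : IsPGroup p Z := IsPGroup.of_card (n := 1) (by rw [hZp, pow_one])
  intro Bb hBb hBbne
  -- a member of minimal height
  obtain ⟨χb, hχb, hmin⟩ := BlkC.exists_nuMin (p := p) (isPBlock_nonempty hBb)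
  let χ : IrrCharacter G := ⟨fun g => (χb : G ⧸ Z → ℂ) (QuotientGroup.mk g), H75.isIrrCharacter_inflate Z χb.2⟩
  have hB : IsPBlock M (blockOf M (χ : G → ℂ)) := isPBlock_blockOf χ
  have hχ : χ ∈ blockOf M (χ : G → ℂ) := mem_blockOf_self χ
  have hBne : blockOf M (χ : G → ℂ) ≠ principalBlock M G := by
    intro heq
    apply hBbne
    have h1 : SameBlock M ((oneIrr G : IrrCharacter G) : G → ℂ) (χ : G → ℂ) := by
      have : χ ∈ principalBlock M G := heq ▸ hχ
      exact this
    have h2 : SameBlock M ((oneIrr (G ⧸ Z) : IrrCharacter (G ⧸ Z)) : G ⧸ Z → ℂ) (χb : G ⧸ Z → ℂ) := by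
      apply H4.sameBlock_of_regular hMod
      intro x hx
      obtain ⟨g, hg, rfl⟩ := H4.exists_regular_lift (P := Z) x hx
      have h3 := h1 g
      have h4 := H4.centralChar_inflate_of_regular hPZ hg (fun z hz => hZc z hz g) (χb : G ⧸ Z → ℂ)
      have h5 := H4.centralChar_inflate_of_regular hPZ hg (fun z hz => hZc z hz g)
        ((oneIrr (G ⧸ Z) : IrrCharacter (G ⧸ Z)) : G ⧸ Z → ℂ)
      rw [← h4, ← h5]
      exact h3
    have h6 : χb ∈ principalBlock M (G ⧸ Z) := h2
    exact isPBlock_eq_of_mem hBb isPBlock_principalBlock hχb h6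
  have h1 := h _ hB hBne
  have h2 := BlkC.defect_add_nuMin (p := p) (isPBlock_nonempty hB)
  have h3 := BlkC.defect_add_nuMin (p := p) (isPBlock_nonempty hBb)
  have h4 := BlkC.nuMin_le (p := p) hχ
  have h5 : BlkC.nu p χ = BlkC.nu p χb := by
    unfold BlkC.nu charDegree
    congr 3
  have h6 : (Nat.card G).factorization p = 1 + (Nat.card (G ⧸ Z)).factorization p := by
    have h7 := Subgroup.card_mul_index Z
    rw [Subgroup.index_eq_card, hZp] at h7
    rw [← h7, Nat.factorization_mul hp.out.ne_zero Nat.card_pos.ne', Finsupp.add_apply,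
      hp.out.factorization_self]
  omega

end quot

/-- `E` as in the statement of S4719 -/
def HasRank (G : Type u) [Group G] (r : ℕ) : Prop :=
  ∃ E : Subgroup G, (∀ x ∈ E, ∀ y ∈ E, x * y = y * x) ∧ (∀ x ∈ E, x * x = 1) ∧ Nat.card E = 2 ^ (r + 1)

theorem exists_bound_defClass (r : ℕ) : ∀ a : ℕ, ∃ N : ℕ, ∀ (G : Type u) [Group G] [Finite G]
    (M : Ideal AlgInt), IsPModular 2 M → (Nat.card G).factorization 2 ≤ a → DefClass 2 M G r →
    HasRank G r → Nat.card G ≤ N := by
  classical
  haveI : Fact (Nat.Prime 2) := ⟨Nat.prime_two⟩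
  induction r with
  | zero =>
    intro a
    choose N hN using Cfsg.Agent.S4718.result.{u} 2
    refine ⟨∑ i ∈ Finset.range (a + 1), N i, fun G _ _ M hM ha hd _ => ?_⟩
    have h1 := hN _ G M hM rfl (fun B hB => by
      by_contra hne
      exact absurd (hd B hB hne) (Nat.not_lt_zero _))
    refine h1.trans ?_
    exact Finset.single_le_sum (f := N) (fun _ _ => Nat.zero_le _)
      (Finset.mem_range.mpr (Nat.lt_succ_of_le ha))
  | succ r ih =>
    intro a
    obtain ⟨N₀, hN₀⟩ := ih a
    obtain ⟨N, hN⟩ := exists_bound_four.{u} (a + 1) (2 * N₀)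
    refine ⟨N, fun G _ _ M hM ha hd hE => ?_⟩
    obtain ⟨E, hEc, hE2, hEcard⟩ := hE
    -- centralizers of involutions of E
    have hcen : ∀ e ∈ E, e ≠ 1 → Nat.card (Subgroup.centralizer ({e} : Set G)) ≤ 2 * N₀ := by
      intro e he he1
      have hoe : orderOf e = 2 := orderOf_eq_prime (by rw [pow_two, hE2 e he]) he1
      have hdC := defClass_centralizer hM hd (y := e) ⟨1, by rw [hoe, pow_one]⟩
      set C := Subgroup.centralizer ({e} : Set G) with hC
      have heC : e ∈ C := by rw [hC, Subgroup.mem_centralizer_singleton_iff]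
      let e' : C := ⟨e, heC⟩
      let Z : Subgroup C := Subgroup.zpowers e'
      have hZc : ∀ z ∈ Z, ∀ g : C, Commute g z := by
        intro z hz g
        obtain ⟨n, rfl⟩ := Subgroup.mem_zpowers_iff.mp hz
        apply Commute.zpow_right
        apply Subtype.ext
        exact Subgroup.mem_centralizer_singleton_iff.mp g.2
      haveI hZn : Z.Normal := by
        constructor
        intro z hz g
        rw [(hZc z hz g).eq, mul_inv_cancel_right]
        exact hz
      have hZcard : Nat.card Z = 2 := by
        rw [Nat.card_zpowers, ← Subgroup.orderOf_coe]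
        exact hoe
      have hdq := defClass_quotient hM hZcard hZc hdC
      have hEC : E ≤ C := by
        intro x hx
        rw [hC, Subgroup.mem_centralizer_singleton_iff]
        exact hEc x hx e he
      have hZE : Z ≤ E.subgroupOf C := by
        rw [Subgroup.zpowers_le, Subgroup.mem_subgroupOf]
        exact he
      have hcardE' : Nat.card (E.subgroupOf C) = 2 ^ (r + 1 + 1) := by
        rw [← hEcard]
        exact Nat.card_congr (Subgroup.subgroupOfEquivOfLe hEC).toEquiv
      have hrank : HasRank (C ⧸ Z) r := by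
        refine ⟨(E.subgroupOf C).map (QuotientGroup.mk' Z), ?_, ?_, ?_⟩
        · rintro _ ⟨x, hx, rfl⟩ _ ⟨y, hy, rfl⟩
          rw [← map_mul, ← map_mul]
          congr 1
          apply Subtype.ext
          exact hEc _ (Subgroup.mem_subgroupOf.mp hx) _ (Subgroup.mem_subgroupOf.mp hy)
        · rintro _ ⟨x, hx, rfl⟩
          rw [← map_mul]
          have : x * x = 1 := Subtype.ext (hE2 _ (Subgroup.mem_subgroupOf.mp hx))
          rw [this, map_one]
        · have h1 := Subgroup.relIndex_mul_relIndex ⊥ Z (E.subgroupOf C) bot_le hZE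
          rw [Subgroup.relIndex_bot_left, Subgroup.relIndex_bot_left, hZcard, hcardE'] at h1
          have h2 : Nat.card ((E.subgroupOf C).map (QuotientGroup.mk' Z)) = Z.relIndex (E.subgroupOf C) := by
            have h3 := Subgroup.relIndex_ker (QuotientGroup.mk' Z) (K := E.subgroupOf C)
            rw [QuotientGroup.ker_mk'] at h3
            exact h3.symm
          rw [h2]
          have h4 : 2 ^ (r + 1 + 1) = 2 * 2 ^ (r + 1) := by ring
          omega
      have hfac : (Nat.card (C ⧸ Z)).factorization 2 ≤ a := by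
        refine (factorization_quotient_le Z 2).trans (le_trans ?_ ha)
        exact (Nat.factorization_le_iff_dvd Nat.card_pos.ne' Nat.card_pos.ne').mpr
          (Subgroup.card_subgroup_dvd_card C) 2
      have h5 := hN₀ (C ⧸ Z) M hM hfac hdq hrank
      have h6 := Subgroup.card_mul_index Z
      rw [Subgroup.index_eq_card, hZcard] at h6
      rw [← h6]
      exact Nat.mul_le_mul_left 2 h5
    -- two involutions
    have hcardE : 4 ≤ Nat.card E := by
      rw [hEcard, pow_succ, pow_succ]
      have : 1 ≤ 2 ^ r := Nat.one_le_two_pow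
      omega
    obtain ⟨e, f, heE, hfE, he1, hf1, hef⟩ : ∃ e f : G, e ∈ E ∧ f ∈ E ∧ e ≠ 1 ∧ f ≠ 1 ∧ e * f ≠ 1 := by
      haveI := Fintype.ofFinite E
      rw [Nat.card_eq_fintype_card] at hcardE
      obtain ⟨e, he⟩ : ∃ e : E, e ≠ 1 := by
        have h1 : 1 < Fintype.card E := by omega
        exact Fintype.exists_ne_of_one_lt_card h1 1
      obtain ⟨f, hf⟩ : ∃ f : E, f ∉ ({1, e} : Finset E) := by
        by_contra hcon
        push Not at hcon
        have h1 : (Finset.univ : Finset E) ⊆ {1, e} := fun x _ => hcon x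
        have h2 := Finset.card_le_card h1
        have h3 := Finset.card_le_two (a := (1 : E)) (b := e)
        rw [Finset.card_univ] at h2
        omega
      simp only [Finset.mem_insert, Finset.mem_singleton, not_or] at hf
      refine ⟨e, f, e.2, f.2, fun h => he (Subtype.ext h), fun h => hf.1 (Subtype.ext h), fun h => ?_⟩
      apply hf.2
      apply Subtype.ext
      have h1 := hE2 _ e.2
      exact mul_left_cancel (h.trans h1.symm)
    have hV : Vbd G (2 * N₀) := by
      refine ⟨e, f, hE2 e heE, hE2 f hfE, he1, hf1, hef, hEc e heE f hfE, hcen e heE he1,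
        hcen f hfE hf1, hcen _ (E.mul_mem heE hfE) hef⟩
    exact hN G hV (Nat.lt_succ_of_le ha)

end Cfsg.Agent.H79
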