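import Cfsg.Agent.H79.DvN

/-!
Quaternions inside division rings (owner: helper79).
-/

set_option autoImplicit false
set_option linter.unusedSectionVars false

namespace Cfsg.Agent.H79.Dv

open Polynomial

section Alg

variable {D : Type*} [DivisionRing D] [CharZero D]

theorem two_ne : (2 : D) ≠ 0 := two_ne_zero

theorem pm_one {x : D} (h : x * x = 1) : x = 1 ∨ x = -1 := by
  have h1 : (x - 1) * (x + 1) = 0 := by
    rw [sub_mul, mul_add, h, one_mul, mul_one]
    abel
  rcases mul_eq_zero.mp h1 with h2 | h2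
  · exact Or.inl (sub_eq_zero.mp h2)
  · exact Or.inr (eq_neg_of_add_eq_zero_left h2)

theorem sq_eq_sq' {x y : D} (hxy : x * y = y * x) (h : x * x = y * y) : x = y ∨ x = -y := by
  have h1 : (x - y) * (x + y) = 0 := by
    rw [sub_mul, mul_add, mul_add, h, hxy]
    abel
  rcases mul_eq_zero.mp h1 with h2 | h2
  · exact Or.inl (sub_eq_zero.mp h2)
  · exact Or.inr (eq_neg_of_add_eq_zero_left h2)

theorem eq_zero_of_eq_neg {x : D} (h : x = -x) : x = 0 := by
  have h1 : (2 : D) * x = 0 := by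
    rw [two_mul]
    nth_rewrite 1 [h]
    exact neg_add_cancel x
  exact (mul_eq_zero.mp h1).resolve_left two_ne

theorem pm {a b X Y : D} (h : X * b = b * X) : (a * X) * (b * Y) = (a * b) * (X * Y) := by
  rw [mul_assoc, ← mul_assoc X, h, mul_assoc b, ← mul_assoc]

/-- quaternion relations -/
structure Q8 (i j : D) : Prop where
  ii : i * i = -1
  jj : j * j = -1
  ji : j * i = -(i * j)

variable {i j : D}

namespace Q8

theorem iij (h : Q8 i j) : i * (i * j) = -j := by rw [← mul_assoc, h.ii, neg_one_mul]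
theorem jij (h : Q8 i j) : j * (i * j) = i := by
  rw [← mul_assoc, h.ji, neg_mul, mul_assoc, h.jj, mul_neg_one, neg_neg]
theorem iji (h : Q8 i j) : (i * j) * i = j := by
  rw [mul_assoc, h.ji, mul_neg, h.iij, neg_neg]
theorem ijj (h : Q8 i j) : (i * j) * j = -i := by rw [mul_assoc, h.jj, mul_neg_one]
theorem kk (h : Q8 i j) : (i * j) * (i * j) = -1 := by
  rw [mul_assoc, h.jij, h.ii]
theorem i_ne (h : Q8 i j) : i ≠ 0 := by
  rintro rfl
  have := h.ii
  rw [zero_mul] at this
  have h2 : (1 : D) = 0 := by rw [← neg_neg (1 : D), ← this, neg_zero]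
  exact one_ne_zero h2
theorem j_ne (h : Q8 i j) : j ≠ 0 := by
  rintro rfl
  have := h.jj
  rw [zero_mul] at this
  have h2 : (1 : D) = 0 := by rw [← neg_neg (1 : D), ← this, neg_zero]
  exact one_ne_zero h2

/-- something commuting with `j` and anticommuting with `j` -/
theorem not_comm (h : Q8 i j) {a : D} (haj : j * a = a * j) (ha0 : a ≠ 0)
    (hc : j * (a * i) = (a * i) * j) : False := by
  rw [← mul_assoc, haj, mul_assoc, h.ji, mul_neg, mul_assoc a i j] at hc
  have h1 : a * (i * j) = 0 := eq_zero_of_eq_neg hc.symm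
  rcases mul_eq_zero.mp h1 with h2 | h2
  · exact ha0 h2
  · rcases mul_eq_zero.mp h2 with h3 | h3
    · exact h.i_ne h3
    · exact h.j_ne h3

/-- `-1` is not a sum of three squares in the centralizer of a quaternion group -/
theorem three_sq (h : Q8 i j) {a b c d : D} (hai : i * a = a * i) (haj : j * a = a * j)
    (hbi : i * b = b * i) (hbj : j * b = b * j) (hci : i * c = c * i) (hcj : j * c = c * j)
    (hdi : i * d = d * i) (hdj : j * d = d * j)
    (hab : a * b = b * a) (hac : a * c = c * a) (hbc : b * c = c * b)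
    (had : a * d = d * a) (hbd : b * d = d * b) (hcd : c * d = d * c) (hd : d ≠ 0)
    (hs : a * a + b * b + c * c = -(d * d)) : False := by
  have hka : (i * j) * a = a * (i * j) := by rw [mul_assoc, haj, ← mul_assoc, hai, mul_assoc]
  have hkb : (i * j) * b = b * (i * j) := by rw [mul_assoc, hbj, ← mul_assoc, hbi, mul_assoc]
  have hkc : (i * j) * c = c * (i * j) := by rw [mul_assoc, hcj, ← mul_assoc, hci, mul_assoc]
  have hkd : (i * j) * d = d * (i * j) := by rw [mul_assoc, hdj, ← mul_assoc, hdi, mul_assoc]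
  set q := a * i + b * j + c * (i * j) with hq
  have hqq : q * q = d * d := by
    rw [hq]
    simp only [add_mul, mul_add]
    rw [pm hai, pm hbi, pm hci, pm haj, pm hbj, pm hcj, pm hka, pm hkb, pm hkc, h.ii, h.iij, h.ji,
      h.jj, h.jij, h.iji, h.ijj, h.kk, ← hab, ← hac, ← hbc]
    have e : -(a * a + b * b + c * c) = d * d := by rw [hs, neg_neg]
    refine Eq.trans ?_ e
    simp only [mul_neg, mul_one]
    abel
  have hqd : q * d = d * q := by
    rw [hq, add_mul, add_mul, mul_add, mul_add, mul_assoc a, hdi, ← mul_assoc a, had, mul_assoc d,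
      mul_assoc b, hdj, ← mul_assoc b, hbd, mul_assoc d, mul_assoc c, hkd, ← mul_assoc c, hcd,
      mul_assoc d]
  have hε : ∃ ε : D, q = ε ∧ ε ≠ 0 ∧ i * ε = ε * i ∧ j * ε = ε * j := by
    rcases sq_eq_sq' hqd hqq with h1 | h1
    · exact ⟨d, h1, hd, hdi, hdj⟩
    · exact ⟨-d, h1, neg_ne_zero.mpr hd, by rw [mul_neg, neg_mul, hdi], by rw [mul_neg, neg_mul, hdj]⟩
  obtain ⟨ε, h1, h2, h3, h3'⟩ := hε
  have h4 : i * q = q * i := by rw [h1, h3]
  have e1 : i * q = -a + b * (i * j) - c * j := by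
    rw [hq, mul_add, mul_add, ← mul_assoc i a, hai, mul_assoc a, h.ii, ← mul_assoc i b, hbi,
      mul_assoc b, ← mul_assoc i c, hci, mul_assoc c i (i * j), h.iij]
    simp only [mul_neg, mul_one]
    abel
  have e2 : q * i = -a - b * (i * j) + c * j := by
    rw [hq, add_mul, add_mul, mul_assoc a, h.ii, mul_assoc b, h.ji, mul_assoc c, h.iji]
    simp only [mul_neg, mul_one]
    abel
  have h5 : b * (i * j) - c * j = 0 := by
    apply eq_zero_of_eq_neg
    have := h4
    rw [e1, e2] at this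
    calc b * (i * j) - c * j = (-a + b * (i * j) - c * j) + a := by abel
      _ = (-a - b * (i * j) + c * j) + a := by rw [this]
      _ = -(b * (i * j) - c * j) := by abel
  have h6 : b * i = c := by
    have h7 : (b * i - c) * j = 0 := by rw [sub_mul, mul_assoc]; exact h5
    exact sub_eq_zero.mp ((mul_eq_zero.mp h7).resolve_right h.j_ne)
  have hb0 : b = 0 := by
    by_contra hb0
    exact h.not_comm hbj hb0 (by rw [h6]; exact hcj)
  have hc0 : c = 0 := by rw [← h6, hb0, zero_mul]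
  have h7 : a * i = ε := by
    rw [← h1, hq, hb0, hc0]; simp
  have ha0 : a ≠ 0 := by rintro rfl; rw [zero_mul] at h7; exact h2 h7.symm
  exact h.not_comm haj ha0 (by rw [h7]; exact h3')

/-- no central element of order prime to `10` together with `√5` -/
theorem no_zeta (h : Q8 i j) {θ ζ : D} (h5 : θ * θ = 5) (hθi : i * θ = θ * i)
    (hθj : j * θ = θ * j) (hζi : i * ζ = ζ * i) (hζj : j * ζ = ζ * j) (hθζ : θ * ζ = ζ * θ)
    {r : ℕ} (hr : r.Coprime 20) (hr1 : 1 < r) (hζr : ζ ^ r = 1) (hζ1 : ζ ≠ 1) : False := by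
  obtain ⟨l, hl, hl4, hl5, m, hm⟩ := exists_prime r hr hr1
  obtain ⟨u, v, huv⟩ := exists_rep hl hl4 hl5
  obtain ⟨S0, T0, hST⟩ := exists_gauss hl hl4
  have hζ0 : ζ ≠ 0 := by
    rintro rfl
    rw [zero_pow (by omega)] at hζr
    exact zero_ne_one hζr
  have hζl : ζ ^ l * ζ = 1 := by
    rw [← pow_succ, hm, pow_mul, hζr, one_pow]
  -- square root of `ζ⁻¹`
  obtain ⟨s, hs⟩ : ∃ s, r = 2 * s + 1 := by
    have h1 : ¬ 2 ∣ r := by
      intro h2
      have h3 : 2 ∣ Nat.gcd r 20 := Nat.dvd_gcd h2 (by norm_num)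
      rw [hr] at h3
      norm_num at h3
    exact ⟨r / 2, by omega⟩
  set ρ := ζ ^ s with hρ
  have hρ2 : ρ * ρ * ζ = 1 := by
    rw [hρ, ← pow_add, ← pow_succ, ← hζr, hs]
    congr 1
    omega
  have hρ0 : ρ ≠ 0 := pow_ne_zero _ hζ0
  have hl0 : (l : D) ≠ 0 := by exact_mod_cast hl.ne_zero
  -- evaluate the polynomials
  set S := aeval ζ S0 with hS
  set T := aeval ζ T0 with hT
  have hcomm : ∀ (x : D), x * ζ = ζ * x → ∀ f : ℚ[X], x * aeval ζ f = aeval ζ f * x := by
    intro x hx f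
    have h1 : aeval ζ f ∈ Algebra.adjoin ℚ ({ζ} : Set D) := aeval_mem_adjoin_singleton ℚ ζ
    have h2 : Algebra.adjoin ℚ ({ζ} : Set D) ≤ Subalgebra.centralizer ℚ {x} := by
      rw [Algebra.adjoin_le_iff]
      rintro y hy
      rw [Set.mem_singleton_iff] at hy
      subst hy
      rw [SetLike.mem_coe, Subalgebra.mem_centralizer_iff]
      intro g hg
      rw [Set.mem_singleton_iff] at hg
      subst hg
      exact hx
    exact (Subalgebra.mem_centralizer_iff ℚ).mp (h2 h1) x rfl
  have key : (l : D) * (S * S) + T * T = -(4 * l) * (ρ * ρ) := by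
    have h1 := congrArg (aeval ζ) hST
    simp only [map_mul, map_sub, map_add, map_pow, aeval_X, map_one, map_natCast,
      map_ofNat] at h1
    have h2 : ζ ^ l - 1 = -(ρ * ρ) * (ζ - 1) := by
      have h3 : ζ ^ l = ρ * ρ := mul_right_cancel₀ hζ0 (hζl.trans hρ2.symm)
      rw [mul_sub, mul_one, neg_mul, hρ2, h3]
      abel
    have hζ1' : ζ - 1 ≠ 0 := sub_ne_zero.mpr hζ1
    have h4 : Commute ζ ρ := (Commute.refl ζ).pow_right s
    have h5 : Commute (ζ - 1) (ρ * ρ) :=
      ((h4.sub_left (Commute.one_left ρ))).mul_right (h4.sub_left (Commute.one_left ρ))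
    have h6 : Commute (ζ - 1) (4 * (l : D)) :=
      (Commute.ofNat_right _ 4).mul_right (Nat.cast_commute l _).symm
    apply mul_left_cancel₀ hζ1'
    calc (ζ - 1) * ((l : D) * (S * S) + T * T) = (ζ - 1) * (l * S ^ 2 + T ^ 2) := by
          rw [pow_two, pow_two]
      _ = 4 * l * (ζ ^ l - 1) := h1
      _ = 4 * l * (-(ρ * ρ) * (ζ - 1)) := by rw [h2]
      _ = -(4 * l * ((ζ - 1) * (ρ * ρ))) := by rw [h5.eq, neg_mul, mul_neg]
      _ = (ζ - 1) * (-(4 * l) * (ρ * ρ)) := by
          rw [← mul_assoc (4 * (l : D)), ← h6.eq, neg_mul, mul_neg, mul_assoc]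
  -- commutation
  have cζ : ∀ f : ℚ[X], Commute ζ (aeval ζ f) := fun f => hcomm ζ rfl f
  have ci : ∀ f : ℚ[X], Commute i (aeval ζ f) := fun f => hcomm i hζi f
  have cj : ∀ f : ℚ[X], Commute j (aeval ζ f) := fun f => hcomm j hζj f
  have cθ : ∀ f : ℚ[X], Commute θ (aeval ζ f) := fun f => hcomm θ hθζ f
  have cff : ∀ f g : ℚ[X], Commute (aeval ζ f) (aeval ζ g) := fun f g =>
    hcomm (aeval ζ f) (cζ f).symm.eq g
  have hρX : ρ = aeval ζ (X ^ s : ℚ[X]) := by rw [map_pow, aeval_X]
  have cn : ∀ (n : ℤ) (x : D), Commute x (n : D) := fun n x => (Int.cast_commute n x).symm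
  have cn' : ∀ (n : ℕ) (x : D), Commute x (n : D) := fun n x => (Nat.cast_commute n x).symm
  have c4 : ∀ x : D, Commute x (4 * (l : D)) := fun x =>
    (Commute.ofNat_right _ 4).mul_right (cn' l x)
  have c2 : ∀ x : D, Commute x (2 * (l : D)) := fun x =>
    (Commute.ofNat_right _ 2).mul_right (cn' l x)
  set x := (u : D) + v * θ with hx
  set y := (u : D) - v * θ with hy
  have cx : ∀ z : D, Commute z θ → Commute z x := fun z hz =>
    (cn u z).add_right ((cn v z).mul_right hz)
  have cy : ∀ z : D, Commute z θ → Commute z y := fun z hz =>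
    (cn u z).sub_right ((cn v z).mul_right hz)
  have hxy : x * x + y * y = 4 * l := by
    have h1 : (v : D) * θ * (v * θ) = v * v * 5 := by
      rw [mul_assoc, ← mul_assoc θ, ← (cn v θ).symm.eq, mul_assoc (v : D) θ θ, h5, ← mul_assoc]
    have h2 : (2 : D) * (u * u + 5 * (v * v)) = 4 * l := by
      have : (2 : ℤ) * (u * u + 5 * (v * v)) = 4 * l := by nlinarith [huv]
      exact_mod_cast congrArg (Int.cast : ℤ → D) this
    rw [← h2, hx, hy]
    simp only [add_mul, mul_add, sub_mul, mul_sub]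
    rw [h1]
    have h3 : (v : D) * v * 5 = 5 * (v * v) := ((Commute.ofNat_right _ 5)).eq
    rw [h3, two_mul, two_mul]
    abel
  have A1 : Commute (2 * (l : D) * S) x := ((c2 x).symm).mul_left (cx S (cθ S0).symm)
  have A1' : Commute (2 * (l : D) * S) y := ((c2 y).symm).mul_left (cy S (cθ S0).symm)
  have A2 : Commute (2 * (l : D) * S) T := ((c2 T).symm).mul_left (cff S0 T0)
  have xθ : Commute x θ := (Int.cast_commute u θ).add_left
    ((Int.cast_commute v θ).mul_left (Commute.refl θ))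
  refine h.three_sq (a := 2 * (l : D) * S) (b := x * T) (c := y * T) (d := 4 * (l : D) * ρ)
    ?_ ?_ ?_ ?_ ?_ ?_ ?_ ?_ ?_ ?_ ?_ ?_ ?_ ?_ ?_ ?_
  · exact ((c2 i).mul_right (ci S0)).eq
  · exact ((c2 j).mul_right (cj S0)).eq
  · exact ((cx i hθi).mul_right (ci T0)).eq
  · exact ((cx j hθj).mul_right (cj T0)).eq
  · exact ((cy i hθi).mul_right (ci T0)).eq
  · exact ((cy j hθj).mul_right (cj T0)).eq
  · rw [hρX]; exact ((c4 i).mul_right (ci _)).eq
  · rw [hρX]; exact ((c4 j).mul_right (cj _)).eq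
  · exact (A1.mul_right A2).eq
  · exact (A1'.mul_right A2).eq
  · exact (((cy x xθ).mul_right ((cx T (cθ T0).symm).symm)).mul_left
      ((cy T (cθ T0).symm).mul_right (Commute.refl T))).eq
  · rw [hρX]
    exact (((c4 _).mul_right ((c2 _).symm.mul_left (cff _ _)))).eq
  · rw [hρX]
    exact (((c4 _).mul_right (((cx _ (cθ _).symm).symm).mul_left (cff _ _)))).eq
  · rw [hρX]
    exact (((c4 _).mul_right (((cy _ (cθ _).symm).symm).mul_left (cff _ _)))).eq
  · have h4 : (4 : D) ≠ 0 := by exact_mod_cast (by norm_num : (4 : ℕ) ≠ 0)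
    exact mul_ne_zero (mul_ne_zero h4 hl0) hρ0
  · have e1 : 2 * (l : D) * S * (2 * (l : D) * S) = 4 * l * (l * (S * S)) := by
      have h7 : (2 * (l : D)) * (2 * l) = 4 * l * l := by
        have : (2 * l) * (2 * l) = 4 * l * l := by ring
        exact_mod_cast congrArg (Nat.cast : ℕ → D) this
      rw [(c2 S).mul_mul_mul_comm (2 * (l : D)) S, h7, mul_assoc (4 * (l : D))]
    have e2 : x * T * (x * T) = x * x * (T * T) := ((cx T (cθ T0).symm)).mul_mul_mul_comm x T
    have e3 : y * T * (y * T) = y * y * (T * T) := ((cy T (cθ T0).symm)).mul_mul_mul_comm y T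
    have e4 : 4 * (l : D) * ρ * (4 * l * ρ) = 4 * l * (4 * l * (ρ * ρ)) := by
      rw [(c4 ρ).mul_mul_mul_comm (4 * (l : D)) ρ, mul_assoc (4 * (l : D)) (4 * l)]
    rw [e1, e2, e3, e4, add_assoc, ← add_mul, hxy, ← mul_add, key, neg_mul, mul_neg]

end Q8

end Alg

end Cfsg.Agent.H79.Dv
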