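import Cfsg.Agent.H79.DvA

/-!
The group `SL(2,5)` inside a division ring (owner: helper79).
-/

set_option autoImplicit false
set_option linter.unusedSectionVars false

namespace Cfsg.Agent.H79.Dv

open Matrix

abbrev L5 : Type := SpecialLinearGroup (Fin 2) (ZMod 5)

def mU (a : ZMod 5) : L5 := ⟨!![1, a; 0, 1], by simp [det_fin_two]⟩
def mL (a : ZMod 5) : L5 := ⟨!![1, 0; a, 1], by simp [det_fin_two]⟩
def mi : L5 := ⟨!![0, 2; 2, 0], by rw [det_fin_two]; decide⟩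
def mj : L5 := ⟨!![2, 0; 0, 3], by rw [det_fin_two]; decide⟩
def mk : L5 := ⟨!![0, 1; 4, 0], by rw [det_fin_two]; decide⟩
def my : L5 := ⟨!![4, 4; 0, 4], by rw [det_fin_two]; decide⟩

theorem ext4 {A B : L5} (h1 : A.1 0 0 = B.1 0 0) (h2 : A.1 0 1 = B.1 0 1)
    (h3 : A.1 1 0 = B.1 1 0) (h4 : A.1 1 1 = B.1 1 1) : A = B := by
  apply Subtype.ext
  ext i j
  fin_cases i <;> fin_cases j <;> assumption

theorem mul4 (A B : L5) : (A * B).1 0 0 = A.1 0 0 * B.1 0 0 + A.1 0 1 * B.1 1 0 ∧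
    (A * B).1 0 1 = A.1 0 0 * B.1 0 1 + A.1 0 1 * B.1 1 1 ∧
    (A * B).1 1 0 = A.1 1 0 * B.1 0 0 + A.1 1 1 * B.1 1 0 ∧
    (A * B).1 1 1 = A.1 1 0 * B.1 0 1 + A.1 1 1 * B.1 1 1 := by
  refine ⟨?_, ?_, ?_, ?_⟩ <;> simp [Matrix.mul_apply, Fin.sum_univ_two]

theorem det4 (A : L5) : A.1 0 0 * A.1 1 1 - A.1 0 1 * A.1 1 0 = 1 := by
  have := A.2
  rwa [det_fin_two] at this

theorem mi_mul_mi : mi * mi = -1 := by decide
theorem mj_mul_mj : mj * mj = -1 := by decide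
theorem mi_mul_mj : mi * mj = mk := by decide
theorem mj_mul_mi : mj * mi = -1 * (mi * mj) := by decide
theorem my_pow : my ^ 5 = -1 := by decide
theorem my_ne : my ≠ -1 := by decide
theorem jy : (mj * my) * (mj * my) = -1 := by decide
theorem yj : (my * mj) * (my * mj) = -1 := by decide
theorem ky : (mk * my) ^ 3 = -1 := by decide
theorem yk : (my * mk) ^ 3 = -1 := by decide
theorem ky_ne : (mk * my) ≠ -1 := by decide
theorem yk_ne : (my * mk) ≠ -1 := by decide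
theorem yj' : (my * mj⁻¹) * (my * mj⁻¹) = -1 := by decide
theorem yk' : (my * mk⁻¹) ^ 3 = 1 := by decide
theorem yk_ne' : (my * mk⁻¹) ≠ 1 := by decide
theorem yi' : ∃ c : L5, c * (my * mi⁻¹) * c⁻¹ = my * my := by
  refine ⟨⟨!![1, 0; 3, 1], by rw [det_fin_two]; decide⟩, ?_⟩
  decide

theorem dec : ∀ a b c d : ZMod 5, a * d - b * c = 1 → c ≠ 0 →
    (1 * 1 + (a - 1) * c ^ 3 * c) * 1 + (1 * 0 + (a - 1) * c ^ 3 * 1) * 0 = a ∧ 
    (1 * 1 + (a - 1) * c ^ 3 * c) * ((d - 1) * c ^ 3) + (1 * 0 + (a - 1) * c ^ 3 * 1) * 1 = b ∧ 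
    (0 * 1 + 1 * c) * 1 + (0 * 0 + 1 * 1) * 0 = c ∧
    (0 * 1 + 1 * c) * ((d - 1) * c ^ 3) + (0 * 0 + 1 * 1) * 1 = d := by decide

theorem mem_top (P : Subgroup L5) (hj : mj ∈ P) (hk : mk ∈ P) (hy : my ∈ P) (g : L5) : g ∈ P := by
  have hU1 : mU 1 ∈ P := by
    have : mU 1 = my * (mj * mj) := by decide
    rw [this]; exact P.mul_mem hy (P.mul_mem hj hj)
  have hU : ∀ a, mU a ∈ P := by
    intro a
    have : mU a = mU 1 ^ a.val := by revert a; decide
    rw [this]; exact P.pow_mem hU1 _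
  have hL : ∀ a, mL a ∈ P := by
    intro a
    have : mL a = mk * mU (-a) * mk⁻¹ := by revert a; decide
    rw [this]; exact P.mul_mem (P.mul_mem hk (hU _)) (P.inv_mem hk)
  have key : ∀ g : L5, g.1 1 0 ≠ 0 → g ∈ P := by
    intro g hg
    have hd := det4 g
    have h1 := dec _ _ _ _ hd hg
    have : g = mU ((g.1 0 0 - 1) * g.1 1 0 ^ 3) * mL (g.1 1 0) * mU ((g.1 1 1 - 1) * g.1 1 0 ^ 3) := by
      obtain ⟨e1, e2, e3, e4⟩ := mul4 (mU ((g.1 0 0 - 1) * g.1 1 0 ^ 3) * mL (g.1 1 0))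
        (mU ((g.1 1 1 - 1) * g.1 1 0 ^ 3))
      obtain ⟨f1, f2, f3, f4⟩ := mul4 (mU ((g.1 0 0 - 1) * g.1 1 0 ^ 3)) (mL (g.1 1 0))
      rw [f1, f2] at e1 e2
      rw [f3, f4] at e3 e4
      apply ext4
      · rw [e1]; simp only [mU, mL, of_apply, cons_val', cons_val_zero, cons_val_one,
          cons_val_fin_one]; exact h1.1.symm
      · rw [e2]; simp only [mU, mL, of_apply, cons_val', cons_val_zero, cons_val_one,
          cons_val_fin_one]; exact h1.2.1.symm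
      · rw [e3]; simp only [mU, mL, of_apply, cons_val', cons_val_zero, cons_val_one,
          cons_val_fin_one]; exact h1.2.2.1.symm
      · rw [e4]; simp only [mU, mL, of_apply, cons_val', cons_val_zero, cons_val_one,
          cons_val_fin_one]; exact h1.2.2.2.symm
    rw [this]
    exact P.mul_mem (P.mul_mem (hU _) (hL _)) (hU _)
  by_cases h : g.1 1 0 = 0
  · have hd := det4 g
    have h1 : (mL 1 * g).1 1 0 ≠ 0 := by
      rw [(mul4 _ _).2.2.1]
      simp only [mL]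
      intro h2
      rw [h] at hd h2
      simp at h2
      rw [h2] at hd
      simp at hd
      exact absurd hd (by decide)
    have h2 := key _ h1
    have h3 : g = (mL 1)⁻¹ * (mL 1 * g) := by rw [inv_mul_cancel_left]
    rw [h3]
    exact P.mul_mem (P.inv_mem (hL 1)) h2
  · exact key g h

theorem rep : ∀ a b c : ZMod 5, a * a + b * c = 4 → ∃ x y : ZMod 5,
    c * x * x - 2 * a * x * y - b * y * y = 2 := by decide

theorem tr0 : ∀ a b c d : ZMod 5, (a * d - b * c = 1 ∧ a * a + b * c = 4 ∧ a * b + b * d = 0 ∧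
    c * a + d * c = 0 ∧ c * b + d * d = 4) → d = -a := by decide

/-- elements of order `4` are conjugate to `mi` -/
theorem conj_mi {g : L5} (hg : g * g = -1) : ∃ c : L5, c * g * c⁻¹ = mi := by
  obtain ⟨e1, e2, e3, e4⟩ := mul4 g g
  rw [hg] at e1 e2 e3 e4
  have n1 : (-1 : L5).1 0 0 = 4 := by decide
  have n2 : (-1 : L5).1 0 1 = 0 := by decide
  have n3 : (-1 : L5).1 1 0 = 0 := by decide
  have n4 : (-1 : L5).1 1 1 = 4 := by decide
  rw [n1] at e1
  rw [n2] at e2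
  rw [n3] at e3
  rw [n4] at e4
  have hd := tr0 _ _ _ _ ⟨det4 g, e1.symm, e2.symm, e3.symm, e4.symm⟩
  obtain ⟨x, y, hxy⟩ := rep _ _ _ e1.symm
  set a := g.1 0 0 with ha
  set b := g.1 0 1 with hb
  set c := g.1 1 0 with hc
  let C : L5 := ⟨!![x, 3 * (a * x + b * y); y, 3 * (c * x - a * y)], by
    rw [det_fin_two]
    simp only [of_apply, cons_val', cons_val_zero, cons_val_one, cons_val_fin_one]
    have : x * (3 * (c * x - a * y)) - 3 * (a * x + b * y) * y = 3 * (c * x * x - 2 * a * x * y - b * y * y) := by ring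
    rw [this, hxy]
    decide⟩
  refine ⟨C⁻¹, ?_⟩
  rw [inv_inv]
  have h1 : g * C = C * mi := by
    obtain ⟨f1, f2, f3, f4⟩ := mul4 g C
    obtain ⟨k1, k2, k3, k4⟩ := mul4 C mi
    have six : (6 : ZMod 5) = 1 := by decide
    have h5 : (5 : ZMod 5) = 0 := by decide
    apply ext4
    · rw [f1, k1]
      simp only [C, mi, of_apply, cons_val', cons_val_zero, cons_val_one, cons_val_fin_one]
      linear_combination (-(a * x + b * y)) * h5
    · rw [f2, k2]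
      simp only [C, mi, of_apply, cons_val', cons_val_zero, cons_val_one, cons_val_fin_one]
      linear_combination (3 * x) * e1.symm + 2 * x * h5
    · rw [f3, k3]
      simp only [C, mi, of_apply, cons_val', cons_val_zero, cons_val_one, cons_val_fin_one]
      rw [hd]
      linear_combination (-(c * x - a * y)) * h5
    · rw [f4, k4]
      simp only [C, mi, of_apply, cons_val', cons_val_zero, cons_val_one, cons_val_fin_one]
      rw [hd]
      linear_combination (3 * y) * e1.symm + 2 * y * h5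
  rw [mul_assoc, h1, inv_mul_cancel_left]

theorem anti0 : ∀ a b c d : ZMod 5, a * d - b * c = 1 → b * 2 = 4 * (2 * c) → a * 2 = 4 * (2 * d) →
    (a = 2 ∧ b = 0 ∧ c = 0 ∧ d = 3) ∨ (a = 3 ∧ b = 0 ∧ c = 0 ∧ d = 2) ∨
    (a = 0 ∧ b = 1 ∧ c = 4 ∧ d = 0) ∨ (a = 0 ∧ b = 4 ∧ c = 1 ∧ d = 0) := by decide

def mj' : L5 := ⟨!![3, 0; 0, 2], by rw [det_fin_two]; decide⟩
def mk' : L5 := ⟨!![0, 4; 1, 0], by rw [det_fin_two]; decide⟩

theorem anti_mi {g : L5} (hg : g * mi = -1 * (mi * g)) : g = mj ∨ g = mi * mj * mi⁻¹ ∨ g = mk ∨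
    g = mi * mk * mi⁻¹ := by
  obtain ⟨e1, e2, e3, e4⟩ := mul4 g mi
  obtain ⟨f1, f2, f3, f4⟩ := mul4 (-1) (mi * g)
  obtain ⟨k1, k2, k3, k4⟩ := mul4 mi g
  have n1 : (-1 : L5).1 0 0 = 4 := by decide
  have n2 : (-1 : L5).1 0 1 = 0 := by decide
  have n3 : (-1 : L5).1 1 0 = 0 := by decide
  have n4 : (-1 : L5).1 1 1 = 4 := by decide
  have m1 : mi.1 0 0 = 0 := by decide
  have m2 : mi.1 0 1 = 2 := by decide
  have m3 : mi.1 1 0 = 2 := by decide
  have m4 : mi.1 1 1 = 0 := by decide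
  rw [hg, f1, k1, k3, n1, n2, m1, m2, m3, m4] at e1
  rw [hg, f2, k2, k4, n1, n2, m1, m2, m3, m4] at e2
  have h := anti0 (g.1 0 0) (g.1 0 1) (g.1 1 0) (g.1 1 1) (det4 g) (by linear_combination -e1)
    (by linear_combination -e2)
  have p2 : mi * mj * mi⁻¹ = mj' := by decide
  have p4 : mi * mk * mi⁻¹ = mk' := by decide
  rcases h with h | h | h | h
  · exact Or.inl (ext4 h.1 h.2.1 h.2.2.1 h.2.2.2)
  · exact Or.inr (Or.inl (by rw [p2]; exact ext4 h.1 h.2.1 h.2.2.1 h.2.2.2))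
  · exact Or.inr (Or.inr (Or.inl (ext4 h.1 h.2.1 h.2.2.1 h.2.2.2)))
  · exact Or.inr (Or.inr (Or.inr (by rw [p4]; exact ext4 h.1 h.2.1 h.2.2.1 h.2.2.2)))

theorem cent0 : ∀ a b c d : ZMod 5, a * d - b * c = 1 → b * 2 = 2 * c → a * 2 = 2 * d →
    b * 3 = 2 * b → 
    (a = 1 ∧ b = 0 ∧ c = 0 ∧ d = 1) ∨ (a = 4 ∧ b = 0 ∧ c = 0 ∧ d = 4) := by decide

theorem cent1 : ∀ a b c d : ZMod 5, a * d - b * c = 1 → b * 2 = 2 * c → a * 2 = 2 * d →
    a * 2 = 4 * (2 * a) → 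
    (a = 0 ∧ b = 2 ∧ c = 2 ∧ d = 0) ∨ (a = 0 ∧ b = 3 ∧ c = 3 ∧ d = 0) := by decide

theorem cent {g : L5} (h1 : g * mi = mi * g) (h2 : g * mj = mj * g) : g = 1 ∨ g = -1 := by
  obtain ⟨e1, e2, e3, e4⟩ := mul4 g mi
  obtain ⟨k1, k2, k3, k4⟩ := mul4 mi g
  obtain ⟨e1', e2', e3', e4'⟩ := mul4 g mj
  obtain ⟨k1', k2', k3', k4'⟩ := mul4 mj g
  have m1 : mi.1 0 0 = 0 := by decide
  have m2 : mi.1 0 1 = 2 := by decide
  have m3 : mi.1 1 0 = 2 := by decide
  have m4 : mi.1 1 1 = 0 := by decide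
  have j1 : mj.1 0 0 = 2 := by decide
  have j2 : mj.1 0 1 = 0 := by decide
  have j3 : mj.1 1 0 = 0 := by decide
  have j4 : mj.1 1 1 = 3 := by decide
  rw [h1, k1, m1, m2, m3] at e1
  rw [h1, k2, m1, m2, m4] at e2
  rw [h2, k2', j1, j2, j4] at e2'
  have h := cent0 (g.1 0 0) (g.1 0 1) (g.1 1 0) (g.1 1 1) (det4 g) (by linear_combination -e1)
    (by linear_combination -e2) (by linear_combination -e2')
  rcases h with h | h
  · exact Or.inl (ext4 (h.1.trans (by decide)) (h.2.1.trans (by decide)) (h.2.2.1.trans (by decide))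
      (h.2.2.2.trans (by decide)))
  · exact Or.inr (ext4 (h.1.trans (by decide)) (h.2.1.trans (by decide)) (h.2.2.1.trans (by decide))
      (h.2.2.2.trans (by decide)))

theorem cent' {g : L5} (h1 : g * mi = mi * g) (h2 : g * mj = -1 * (mj * g)) :
    g = mi ∨ g = -1 * mi := by
  obtain ⟨e1, e2, e3, e4⟩ := mul4 g mi
  obtain ⟨k1, k2, k3, k4⟩ := mul4 mi g
  obtain ⟨e1', e2', e3', e4'⟩ := mul4 g mj
  obtain ⟨f1, f2, f3, f4⟩ := mul4 (-1) (mj * g)
  obtain ⟨k1', k2', k3', k4'⟩ := mul4 mj g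
  have n1 : (-1 : L5).1 0 0 = 4 := by decide
  have n2 : (-1 : L5).1 0 1 = 0 := by decide
  have m1 : mi.1 0 0 = 0 := by decide
  have m2 : mi.1 0 1 = 2 := by decide
  have m3 : mi.1 1 0 = 2 := by decide
  have m4 : mi.1 1 1 = 0 := by decide
  have j1 : mj.1 0 0 = 2 := by decide
  have j2 : mj.1 0 1 = 0 := by decide
  have j3 : mj.1 1 0 = 0 := by decide
  have j4 : mj.1 1 1 = 3 := by decide
  rw [h1, k1, m1, m2, m3] at e1
  rw [h1, k2, m1, m2, m4] at e2
  rw [h2, f1, k1', k3', n1, n2, j1, j2, j3, j4] at e1'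
  have h := cent1 (g.1 0 0) (g.1 0 1) (g.1 1 0) (g.1 1 1) (det4 g) (by linear_combination -e1)
    (by linear_combination -e2) (by linear_combination -e1')
  rcases h with h | h
  · exact Or.inl (ext4 (h.1.trans (by decide)) (h.2.1.trans (by decide)) (h.2.2.1.trans (by decide))
      (h.2.2.2.trans (by decide)))
  · exact Or.inr (ext4 (h.1.trans (by decide)) (h.2.1.trans (by decide)) (h.2.2.1.trans (by decide))
      (h.2.2.2.trans (by decide)))

end Cfsg.Agent.H79.Dv
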