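import Cfsg.Agent.H79.DvB

/-!
The group `SL(2,5)` inside a division ring, II (owner: helper79).
-/

set_option autoImplicit false
set_option linter.unusedSectionVars false

namespace Cfsg.Agent.H79.Dv

open Matrix

section

variable {D : Type*} [DivisionRing D] [CharZero D] (φ : L5 →* Dˣ)

def F (g : L5) : D := (φ g : D)

theorem F_mul (g h : L5) : F φ (g * h) = F φ g * F φ h := by simp [F]
theorem F_one : F φ 1 = 1 := by simp [F]
theorem F_pow (g : L5) (n : ℕ) : F φ (g ^ n) = F φ g ^ n := by simp [F]
theorem F_mul_inv (g : L5) : F φ g * F φ g⁻¹ = 1 := by rw [← F_mul, mul_inv_cancel, F_one]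
theorem F_inv_mul (g : L5) : F φ g⁻¹ * F φ g = 1 := by rw [← F_mul, inv_mul_cancel, F_one]

variable {φ}

theorem F_inj (hφ : Function.Injective φ) {g h : L5} (e : F φ g = F φ h) : g = h :=
  hφ (Units.ext e)

theorem F_neg (hφ : Function.Injective φ) : F φ (-1) = -1 := by
  have h1 : F φ (-1) * F φ (-1) = 1 := by
    rw [← F_mul]
    have : (-1 : L5) * -1 = 1 := by decide
    rw [this, F_one]
  rcases pm_one h1 with h2 | h2
  · exfalso
    have : (-1 : L5) = 1 := F_inj hφ (by rw [h2, F_one])
    exact absurd this (by decide)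
  · exact h2

variable (φ) in
def tr (g : L5) : D := F φ g + F φ g⁻¹

theorem tr4 (hφ : Function.Injective φ) {g : L5} (h : g * g = -1) : tr φ g = 0 := by
  have h1 : g⁻¹ = -1 * g := by
    rw [inv_eq_iff_mul_eq_one]
    have : (-1 : L5) * -1 = 1 := by decide
    have hc : ∀ g : L5, g * (-1 * g) = -1 * (g * g) := by
      intro g; ext i j; simp
    rw [hc, h, this]
  rw [tr, h1, F_mul, F_neg hφ]
  simp

theorem tr6 (hφ : Function.Injective φ) {g : L5} (h : g ^ 3 = -1) (hne : g ≠ -1) : tr φ g = 1 := by
  have h1 : F φ g ^ 3 = -1 := by rw [← F_pow, h, F_neg hφ]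
  have h2 : F φ g + 1 ≠ 0 := by
    intro h0
    exact hne (F_inj hφ (by rw [F_neg hφ]; exact eq_neg_of_add_eq_zero_left h0))
  have h3 : (F φ g + 1) * (F φ g * F φ g - F φ g + 1) = 0 := by
    have : (F φ g + 1) * (F φ g * F φ g - F φ g + 1) = F φ g ^ 3 + 1 := by noncomm_ring
    rw [this, h1]; simp
  have h4 := (mul_eq_zero.mp h3).resolve_left h2
  have h5 : (F φ g * F φ g - F φ g + 1) * F φ g⁻¹ = 0 := by rw [h4, zero_mul]
  rw [add_mul, sub_mul, mul_assoc, F_mul_inv, mul_one, one_mul] at h5
  rw [tr]
  have h6 : F φ g + F φ g⁻¹ = (F φ g - 1 + F φ g⁻¹) + 1 := by abel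
  rw [h6, h5, zero_add]

theorem tr3 (hφ : Function.Injective φ) {g : L5} (h : g ^ 3 = 1) (hne : g ≠ 1) : tr φ g = -1 := by
  have h1 : F φ g ^ 3 = 1 := by rw [← F_pow, h, F_one]
  have h2 : F φ g - 1 ≠ 0 := by
    intro h0
    exact hne (F_inj hφ (by rw [F_one]; exact sub_eq_zero.mp h0))
  have h3 : (F φ g - 1) * (F φ g * F φ g + F φ g + 1) = 0 := by
    have : (F φ g - 1) * (F φ g * F φ g + F φ g + 1) = F φ g ^ 3 - 1 := by noncomm_ring
    rw [this, h1]; simp
  have h4 := (mul_eq_zero.mp h3).resolve_left h2
  have h5 : (F φ g * F φ g + F φ g + 1) * F φ g⁻¹ = 0 := by rw [h4, zero_mul]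
  rw [add_mul, add_mul, mul_assoc, F_mul_inv, mul_one, one_mul] at h5
  rw [tr]
  have h6 : F φ g + F φ g⁻¹ = (F φ g + 1 + F φ g⁻¹) + -1 := by abel
  rw [h6, h5, zero_add]

/-- the element `t` -/
theorem t_sq (hφ : Function.Injective φ) : tr φ my * tr φ my = tr φ my + 1 := by
  have h1 : F φ my ^ 5 = -1 := by rw [← F_pow, my_pow, F_neg hφ]
  have h2 : F φ my + 1 ≠ 0 := by
    intro h0
    exact my_ne (F_inj hφ (by rw [F_neg hφ]; exact eq_neg_of_add_eq_zero_left h0))
  set y := F φ my with hy
  set y' := F φ my⁻¹ with hy'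
  have hyy : y * y' = 1 := F_mul_inv φ my
  have hyy' : y' * y = 1 := F_inv_mul φ my
  have h3 : (y + 1) * (y * y * (y * y) - y * (y * y) + y * y - y + 1) = 0 := by
    have : (y + 1) * (y * y * (y * y) - y * (y * y) + y * y - y + 1) = y ^ 5 + 1 := by noncomm_ring
    rw [this, h1]; simp
  have h4 := (mul_eq_zero.mp h3).resolve_left h2
  have h5 : y * y - y + 1 - y' + y' * y' = 0 := by
    have e : (y * y * (y * y) - y * (y * y) + y * y - y + 1) * (y' * y') = 0 := by
      rw [h4, zero_mul]
    have e1 : y * y * (y' * y') = 1 := by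
      rw [mul_assoc, ← mul_assoc y y' y', hyy, one_mul, hyy]
    have e2 : y * (y' * y') = y' := by rw [← mul_assoc, hyy, one_mul]
    rw [add_mul, sub_mul, add_mul, sub_mul, one_mul, mul_assoc (y * y) (y * y), e1, mul_assoc y (y * y),
      e1, e2, mul_one, mul_one] at e
    exact e
  have h6 : tr φ my * tr φ my = y * y + 1 + 1 + y' * y' := by
    rw [tr, ← hy, ← hy', add_mul, mul_add, mul_add, hyy, hyy']
    abel
  rw [h6, tr, ← hy, ← hy']
  have h7 : y * y + 1 + 1 + y' * y' = (y * y - y + 1 - y' + y' * y') + (y + y' + 1) := by abel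
  rw [h7, h5, zero_add]

theorem comm_aux {x x' y y' a b : D} (ha : x + x' = a) (hb : x * y + y' * x' = b)
    (hb' : y * x + x' * y' = b) (hay : y' * a = a * y') : x * (y + y') = (y + y') * x := by
  have e : x' = a - x := by rw [← ha]; abel
  rw [e] at hb hb'
  have h1 : x * y + y' * (a - x) = y * x + (a - x) * y' := hb.trans hb'.symm
  rw [mul_sub, sub_mul, hay] at h1
  have h2 : x * (y + y') - (y + y') * x = (x * y + (a * y' - y' * x)) - (y * x + (a * y' - x * y')) := by
    rw [mul_add, add_mul]; abel
  have h3 : x * (y + y') - (y + y') * x = 0 := by rw [h2, h1, sub_self]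
  exact sub_eq_zero.mp h3

theorem mk_mul_mk : mk * mk = -1 := by decide

theorem t_comm_j (hφ : Function.Injective φ) : F φ mj * tr φ my = tr φ my * F φ mj := by
  refine comm_aux (x' := F φ mj⁻¹) (a := 0) (b := 0) (tr4 hφ mj_mul_mj) ?_ ?_ (by simp)
  · rw [← F_mul, ← F_mul, ← _root_.mul_inv_rev]; exact tr4 hφ jy
  · rw [← F_mul, ← F_mul, ← _root_.mul_inv_rev]; exact tr4 hφ yj

theorem t_comm_k (hφ : Function.Injective φ) : F φ mk * tr φ my = tr φ my * F φ mk := by
  refine comm_aux (x' := F φ mk⁻¹) (a := 0) (b := 1) (tr4 hφ mk_mul_mk) ?_ ?_ (by simp)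
  · rw [← F_mul, ← F_mul, ← _root_.mul_inv_rev]; exact tr6 hφ ky ky_ne
  · rw [← F_mul, ← F_mul, ← _root_.mul_inv_rev]; exact tr6 hφ yk yk_ne

theorem t_comm_y : F φ my * tr φ my = tr φ my * F φ my := by
  rw [tr, mul_add, add_mul, F_mul_inv, F_inv_mul]

theorem t_comm (hφ : Function.Injective φ) (g : L5) : F φ g * tr φ my = tr φ my * F φ g := by
  let P : Subgroup L5 :=
    { carrier := {g | Commute (F φ g) (tr φ my)}
      one_mem' := by
        change Commute (F φ 1) _
        rw [F_one]; exact Commute.one_left _
      mul_mem' := by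
        intro a b ha hb
        change Commute (F φ (a * b)) _
        rw [F_mul]; exact Commute.mul_left ha hb
      inv_mem' := by
        intro a ha
        change Commute (F φ a⁻¹) _
        have : F φ a⁻¹ = ((φ a)⁻¹ : Dˣ) := by simp [F]
        rw [this]
        exact Commute.units_inv_left ha }
  exact mem_top P (t_comm_j hφ) (t_comm_k hφ) t_comm_y g

theorem q8 (hφ : Function.Injective φ) : Q8 (F φ mi) (F φ mj) where
  ii := by rw [← F_mul, mi_mul_mi, F_neg hφ]
  jj := by rw [← F_mul, mj_mul_mj, F_neg hφ]
  ji := by rw [← F_mul, mj_mul_mi, F_mul, F_neg hφ, F_mul, neg_one_mul]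

theorem no_zeta' (hφ : Function.Injective φ) {ζ : D} (hζ : ∀ g, F φ g * ζ = ζ * F φ g)
    {r : ℕ} (hr : r.Coprime 20) (hr1 : 1 < r) (hζr : ζ ^ r = 1) (hζ1 : ζ ≠ 1) : False := by
  have hc : ∀ g, Commute (F φ g) (2 * tr φ my - 1) := fun g =>
    ((Commute.ofNat_right _ 2).mul_right (t_comm hφ g)).sub_right (Commute.one_right _)
  have hcz : Commute (tr φ my) ζ := Commute.add_left (hζ _) (hζ _)
  refine (q8 hφ).no_zeta (θ := 2 * tr φ my - 1) (ζ := ζ) ?_ (hc mi).eq (hc mj).eq (hζ mi) (hζ mj) ?_
    hr hr1 hζr hζ1
  · have h1 := t_sq hφ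
    have : (2 * tr φ my - 1) * (2 * tr φ my - 1) = 4 * (tr φ my * tr φ my) - 4 * tr φ my + 1 := by
      noncomm_ring
    rw [this, h1, mul_add, mul_one, add_sub_cancel_left]
    norm_num
  · exact (((Commute.ofNat_left 2 _).mul_left hcz).sub_left (Commute.one_left _)).eq

theorem mi_inv : mi⁻¹ = -1 * mi := by decide
theorem mj_inv : mj⁻¹ = -1 * mj := by decide
theorem mk_inv : mk⁻¹ = -1 * mk := by decide

/-- quaternion coordinates of `my` -/
theorem coords (hφ : Function.Injective φ) :
    2 * F φ my = tr φ my + (tr φ my - 1) * F φ mi - F φ mi * F φ mj := by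
  have hq := q8 hφ
  have htc := t_comm hφ
  have hts := t_sq hφ
  set t := tr φ my with ht
  set y := F φ my with hy
  set i := F φ mi with hi
  set j := F φ mj with hj
  have hk : F φ mk = i * j := by rw [← mi_mul_mj, F_mul]
  have hy' : F φ my⁻¹ = t - y := by rw [ht, tr, hy]; abel
  have inv_mul_rev : ∀ a b : L5, (a * b⁻¹)⁻¹ = b * a⁻¹ := by intro a b; group
  -- trace relations
  have r2 : i * y + y * i = i * t - (t - 1) := by
    obtain ⟨c, hc⟩ := yi'
    have h1 : tr φ (my * mi⁻¹) = t - 1 := by
      have h2 : my * mi⁻¹ = c⁻¹ * (my * my) * c := by rw [← hc]; group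
      have h3 : tr φ (my * mi⁻¹) = F φ c⁻¹ * (y * y + (t - y) * (t - y)) * F φ c := by
        have h4 : (my * mi⁻¹)⁻¹ = c⁻¹ * (my⁻¹ * my⁻¹) * c := by rw [h2]; group
        rw [tr, h4, h2]
        simp only [F_mul]
        rw [hy', ← add_mul, ← mul_add]
      have h5 : y * y + (t - y) * (t - y) = t - 1 := by
        have e1 : y * (t - y) = 1 := by rw [← hy']; exact F_mul_inv φ my
        have e3 : y * t = t * y := htc my
        have e4 : y * y = y * t - 1 := by rw [← e1]; noncomm_ring
        have e5 : (t - y) * (t - y) = t * t - t * y - y * t + y * y := by noncomm_ring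
        rw [e5, hts, e4, e3]
        abel
      rw [h3, h5]
      have e6 : F φ c⁻¹ * (t - 1) = (t - 1) * F φ c⁻¹ := by
        rw [mul_sub, sub_mul, htc, mul_one, one_mul]
      rw [e6, mul_assoc, F_inv_mul, mul_one]
    rw [tr, inv_mul_rev, F_mul, F_mul, mi_inv, F_mul, F_neg hφ, hy', ← hi, ← hy] at h1
    rw [← h1]
    noncomm_ring
  have r3 : j * y + y * j = j * t := by
    have h1 := tr4 hφ yj'
    rw [tr, inv_mul_rev, F_mul, F_mul, mj_inv, F_mul, F_neg hφ, hy'] at h1
    have h2 : j * y + y * j = j * t - (F φ my * (-1 * F φ mj) + F φ mj * (t - y)) := by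
      rw [← hy, ← hj]; noncomm_ring
    rw [h2, h1, sub_zero]
  have r4 : (i * j) * y + y * (i * j) = (i * j) * t + 1 := by
    have h1 := tr3 hφ yk' yk_ne'
    rw [tr, inv_mul_rev, F_mul, F_mul, mk_inv, F_mul, F_neg hφ, hy', hk, ← hy] at h1
    have h2 : (i * j) * y + y * (i * j) = (i * j) * t - (y * (-1 * (i * j)) + (i * j) * (t - y)) := by
      noncomm_ring
    rw [h2, h1]
    abel
  have hti : i * t = t * i := htc mi
  have htj : j * t = t * j := htc mj
  have htk : (i * j) * t = t * (i * j) := by rw [mul_assoc, htj, ← mul_assoc, hti, mul_assoc]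
  set q := 2 * y - (t + (t - 1) * i - i * j) with hqd
  have a1 : i * q + q * i = 0 := by
    have e : i * q + q * i = 2 * (i * y + y * i) - (i * t + t * i) - (i * (t * i) + t * (i * i))
        + 2 * (i * i) + (i * (i * j) + i * j * i) := by rw [hqd]; noncomm_ring
    rw [e, r2, ← mul_assoc i t i, hti, mul_assoc t i i, hq.ii, hq.iij, hq.iji]
    noncomm_ring
  have a2 : j * q + q * j = 0 := by
    have e : j * q + q * j = 2 * (j * y + y * j) - (j * t + t * j) - (j * t * i + t * (i * j))
        + (j * i + i * j) + (j * (i * j) + i * j * j) := by rw [hqd]; noncomm_ring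
    rw [e, r3, hq.jij, hq.ijj, htj, mul_assoc t j i, hq.ji]
    noncomm_ring
  have a3 : (i * j) * q + q * (i * j) = 0 := by
    have e : (i * j) * q + q * (i * j) = 2 * ((i * j) * y + y * (i * j)) - ((i * j) * t + t * (i * j))
        - ((i * j) * t * i + t * (i * (i * j))) + (i * j * i + i * (i * j)) + 2 * (i * j * (i * j)) := by
      rw [hqd]; noncomm_ring
    rw [e, r4, htk, mul_assoc t (i * j) i, hq.iji, hq.iij, hq.kk]
    noncomm_ring
  have a4 : (i * j) * q = q * (i * j) := by
    have e1 : i * q = -(q * i) := eq_neg_of_add_eq_zero_left a1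
    have e2 : j * q = -(q * j) := eq_neg_of_add_eq_zero_left a2
    rw [mul_assoc, e2, mul_neg, ← mul_assoc, e1, neg_mul, neg_neg, mul_assoc]
  have a5 : q * (i * j) = 0 := by
    rw [a4] at a3
    exact eq_zero_of_eq_neg (eq_neg_of_add_eq_zero_left a3)
  have a6 : q = 0 := by
    rcases mul_eq_zero.mp a5 with h | h
    · exact h
    · rcases mul_eq_zero.mp h with h | h
      · exact absurd h hq.i_ne
      · exact absurd h hq.j_ne
  exact sub_eq_zero.mp a6

/-- no element of finite order has trace `3/2` -/
theorem no_trace {s : D} (hs : 2 * (s * s) = 3 * s - 2) {n : ℕ} (hn : 0 < n) (h1 : s ^ n = 1) :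
    False := by
  have key : ∀ n : ℕ, ∃ b c : ℤ, b % 2 = 1 ∧ (2 : D) ^ n * s ^ (n + 1) = b * s + c := by
    intro n
    induction n with
    | zero => exact ⟨1, 0, by norm_num, by simp⟩
    | succ n ih =>
      obtain ⟨b, c, hb, he⟩ := ih
      refine ⟨3 * b + 2 * c, -2 * b, by omega, ?_⟩
      have e1 : (2 : D) ^ (n + 1) * s ^ (n + 1 + 1) = 2 * (2 ^ n * s ^ (n + 1)) * s := by
        rw [pow_succ' (2 : D) n, pow_succ s (n + 1)]
        simp only [mul_assoc]
      rw [e1, he]
      have e2 : 2 * ((b : D) * s + c) * s = b * (2 * (s * s)) + 2 * c * s := by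
        have h2 : (2 : D) * b = b * 2 := (Commute.ofNat_left 2 _).eq
        rw [mul_add, add_mul, ← mul_assoc, h2, mul_assoc, mul_assoc, mul_assoc]
      rw [e2, hs]
      push_cast
      have h3 : (b : D) * 3 = 3 * b := (Commute.ofNat_right _ 3).eq
      have h2 : (b : D) * 2 = 2 * b := (Commute.ofNat_right _ 2).eq
      rw [mul_sub, ← mul_assoc, h3, h2]
      noncomm_ring
  obtain ⟨m, rfl⟩ : ∃ m, n = m + 1 := ⟨n - 1, by omega⟩
  obtain ⟨b, c, hb, he⟩ := key m
  rw [h1, mul_one] at he
  -- `b s = 2 ^ m - c`
  have h2 : (b : D) * s = ((2 ^ m - c : ℤ) : D) := by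
    push_cast
    rw [he]; abel
  set d : ℤ := 2 ^ m - c with hd
  have hbs : (b : D) * s = s * b := (Int.cast_commute b s).eq
  have h3 : (2 * d * d : ℤ) = 3 * d * b - 2 * b * b := by
    have e1 : (2 : D) * ((d : D) * d) = 3 * (d * b) - 2 * (b * b) := by
      have e2 : (d : D) * d = b * b * (s * s) := by
        rw [← h2]
        rw [mul_assoc, ← mul_assoc s, ← hbs, mul_assoc, mul_assoc]
      have e3 : (d : D) * b = b * b * s := by rw [← h2, mul_assoc, ← hbs, mul_assoc]
      rw [e2, e3]
      have e4 : (2 : D) * (b * b * (s * s)) = b * b * (2 * (s * s)) := by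
        rw [← mul_assoc, (Commute.ofNat_left 2 ((b : D) * b)).eq, mul_assoc]
      have e5 : (3 : D) * (b * b * s) = b * b * (3 * s) := by
        rw [← mul_assoc, (Commute.ofNat_left 3 ((b : D) * b)).eq, mul_assoc]
      have e6 : (2 : D) * (b * b) = b * b * 2 := (Commute.ofNat_left 2 ((b : D) * b)).eq
      rw [e4, hs, e5, e6, mul_sub]
    have e7 : ((2 * d * d : ℤ) : D) = ((3 * d * b - 2 * b * b : ℤ) : D) := by
      push_cast
      rw [mul_assoc, e1, mul_assoc, mul_assoc]
    exact_mod_cast e7
  have h4 : (4 * d - 3 * b) ^ 2 = -7 * b ^ 2 := by nlinarith [h3]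
  have h5 : b ≠ 0 := by omega
  have h6 : 0 < b ^ 2 := by positivity
  nlinarith [sq_nonneg (4 * d - 3 * b)]

/-- no extension of `SL(2,5)` of index two -/
theorem no_ext (hφ : Function.Injective φ) (h : Dˣ)
    (hn : ∀ g, ∃ g', h * φ g = φ g' * h) (h2 : ∃ g, h * h = φ g) (hns : ∀ g, h ≠ φ g) : False := by
  -- normalise `h`
  obtain ⟨gi, hgi⟩ := hn mi
  have hgi2 : gi * gi = -1 := by
    apply hφ
    have e1 : φ gi = h * φ mi * h⁻¹ := by rw [hgi, mul_inv_cancel_right]
    have e2 : φ gi * φ gi = h * (φ mi * φ mi) * h⁻¹ := by rw [e1]; group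
    rw [map_mul, e2, ← map_mul, mi_mul_mi]
    have e3 : φ (-1) = -1 := by
      apply Units.ext
      have := F_neg hφ
      simpa [F] using this
    rw [e3]
    simp
  obtain ⟨c, hc⟩ := conj_mi hgi2
  have main : ∀ u : Dˣ, (∃ c : L5, u = φ c * h) → u * φ mi = φ mi * u →
      (u * φ mj = φ mj * u ∨ u * φ mj = φ mk * u) → False := by
    rintro u ⟨c, hu⟩ hui huj
    have hu2 : ∃ g, u * u = φ g := by
      obtain ⟨g, hg⟩ := h2
      obtain ⟨c', hc'⟩ := hn c
      refine ⟨c * c' * g, ?_⟩
      rw [hu, map_mul, map_mul, ← hg]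
      calc φ c * h * (φ c * h) = φ c * (h * φ c) * h := by group
        _ = φ c * (φ c' * h) * h := by rw [hc']
        _ = φ c * φ c' * (h * h) := by group
    have hus : ∀ g, u ≠ φ g := by
      intro g hg
      apply hns (c⁻¹ * g)
      rw [map_mul, map_inv, ← hg, hu]
      group
    obtain ⟨g, hg⟩ := hu2
    have hgi : g * mi = mi * g := by
      apply hφ
      rw [map_mul, map_mul, ← hg, mul_assoc, hui, ← mul_assoc, hui, mul_assoc]
    have hq := q8 hφ
    have hUi : (u : D) * F φ mi = F φ mi * u := by
      have := congrArg Units.val hui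
      simpa [F] using this
    have hUU : (u : D) * u = F φ g := by
      have := congrArg Units.val hg
      simpa [F] using this
    rcases huj with huj | huj
    · -- `u` centralises `Q8`
      have hgj : g * mj = mj * g := by
        apply hφ
        rw [map_mul, map_mul, ← hg, mul_assoc, huj, ← mul_assoc, huj, mul_assoc]
      rcases cent hgi hgj with h1 | h1
      · rw [h1, F_one] at hUU
        rcases pm_one hUU with h3 | h3
        · exact hus 1 (Units.ext (by rw [h3, map_one, Units.val_one]))
        · exact hus (-1) (Units.ext (by rw [h3, ← F_neg hφ]; rfl))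
      · rw [h1, F_neg hφ, ← hq.ii] at hUU
        rcases sq_eq_sq' hUi hUU with h3 | h3
        · exact hus mi (Units.ext h3)
        · exact hus (-1 * mi) (Units.ext (by rw [h3]; change _ = F φ (-1 * mi); rw [F_mul, F_neg hφ, neg_one_mul]))
    · -- `u` acts as `1 + i`
      have hUj : (u : D) * F φ mj = F φ mi * F φ mj * u := by
        have := congrArg Units.val huj
        rw [← mi_mul_mj] at this
        simpa [F] using this
      have hgj : g * mj = -1 * (mj * g) := by
        apply F_inj hφ
        rw [F_mul, F_mul, F_neg hφ, F_mul, ← hUU, mul_assoc, hUj, ← mul_assoc, ← mul_assoc, hUi,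
          mul_assoc (F φ mi), hUj, ← mul_assoc, ← mul_assoc, hq.ii, mul_assoc, mul_assoc]
      set i := F φ mi with hi
      set j := F φ mj with hj
      set U : D := (u : D) with hU
      have hU0 : U ≠ 0 := u.ne_zero
      set G := (1 - i) * U with hG
      have hGi : G * i = i * G := by
        rw [hG, mul_assoc, hUi, ← mul_assoc, ← mul_assoc]
        congr 1
        noncomm_ring
      have hGj : G * j = j * G := by
        rw [hG, mul_assoc, hUj, ← mul_assoc (1 - i) (i * j) U, ← mul_assoc j]
        congr 1
        have : j * (1 - i) = j - j * i := by noncomm_ring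
        rw [this, hq.ji, sub_mul, one_mul, hq.iij]
        abel
      have hGG : G * G = -(2 * (i * (U * U))) := by
        have e1 : G * G = (1 - i) * (1 - i) * (U * U) := by
          rw [hG]
          have : U * (1 - i) = (1 - i) * U := by
            rw [mul_sub, sub_mul, hUi, mul_one, one_mul]
          rw [mul_assoc, ← mul_assoc U, this, mul_assoc, mul_assoc]
        rw [e1]
        have e2 : (1 - i) * (1 - i) = 1 - 2 * i + i * i := by noncomm_ring
        rw [e2, hq.ii]
        noncomm_ring
      rcases cent' hgi hgj with h1 | h1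
      · -- `u² = i`, `G² = 2`
        rw [h1, ← hi] at hUU
        have hG2 : G * G = 2 := by
          rw [hGG, hUU, hq.ii]; simp
        set t := tr φ my with ht
        have htc := t_comm hφ
        have hts := t_sq hφ
        -- the conjugate of `t`
        obtain ⟨y', hy'⟩ : ∃ y', u * φ my = φ y' * u := by
          obtain ⟨y1, hy1⟩ := hn my
          refine ⟨c * y1 * c⁻¹, ?_⟩
          rw [hu, map_mul, map_mul, map_inv]
          calc φ c * h * φ my = φ c * (h * φ my) := by group
            _ = φ c * (φ y1 * h) := by rw [hy1]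
            _ = φ c * φ y1 * (φ c)⁻¹ * (φ c * h) := by group
        have hUy : U * F φ my = F φ y' * U := by
          have := congrArg Units.val hy'
          simpa [F] using this
        have hUy' : U * F φ my⁻¹ = F φ y'⁻¹ * U := by
          have e1 : F φ y' * (U * F φ my⁻¹) = U := by
            rw [← mul_assoc, ← hUy, mul_assoc, F_mul_inv, mul_one]
          calc U * F φ my⁻¹ = F φ y'⁻¹ * (F φ y' * (U * F φ my⁻¹)) := by
                rw [← mul_assoc, F_inv_mul, one_mul]
            _ = _ := by rw [e1]
        set t' := tr φ y' with ht'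
        have hUt : U * t = t' * U := by
          rw [ht, ht', tr, tr, mul_add, add_mul, hUy, hUy']
        have htt : t' * t = t * t' := by
          rw [ht', tr, add_mul, mul_add, htc, htc]
        have ht's : t' * t' = t' + 1 := by
          have e1 : (t' * t' - (t' + 1)) * U = 0 := by
            have : (t' * t' - (t' + 1)) * U = U * (t * t - (t + 1)) := by
              rw [sub_mul, mul_sub, mul_assoc, ← hUt, ← mul_assoc, ← hUt, mul_assoc, add_mul, mul_add,
                hUt, one_mul, mul_one]
            rw [this, hts, sub_self, mul_zero]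
          exact sub_eq_zero.mp ((mul_eq_zero.mp e1).resolve_right hU0)
        have hdich : (t' - t) * (t' + t - 1) = 0 := by
          have : (t' - t) * (t' + t - 1) = t' * t' - t * t - (t' - t) + (t' * t - t * t') := by
            noncomm_ring
          rw [this, ht's, hts, htt]
          abel
        rcases mul_eq_zero.mp hdich with h3 | h3
        · -- `U` commutes with `t`
          have h4 : t' = t := sub_eq_zero.mp h3
          rw [h4] at hUt
          have hco := coords hφ
          rw [← ht, ← hi, ← hj] at hco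
          -- coordinates of the conjugate
          have hw : 2 * F φ y' = t + (t - 1) * i + j := by
            have e1 : (2 * F φ y' - (t + (t - 1) * i + j)) * U = 0 := by
              have e2 : U * (2 * F φ my) = 2 * F φ y' * U := by
                rw [← mul_assoc, (Commute.ofNat_right U 2).eq, mul_assoc, hUy, mul_assoc]
              have e3 : U * (t + (t - 1) * i - i * j) = (t + (t - 1) * i + j) * U := by
                have f1 : U * (i * j) = -(j * U) := by
                  rw [← mul_assoc, hUi, mul_assoc, hUj, ← mul_assoc, hq.iij, neg_mul]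
                have f2 : U * ((t - 1) * i) = (t - 1) * i * U := by
                  have : U * (t - 1) = (t - 1) * U := by
                    rw [mul_sub, sub_mul, hUt, mul_one, one_mul]
                  rw [← mul_assoc, this, mul_assoc, hUi, ← mul_assoc]
                rw [mul_sub, mul_add, hUt, f1, f2, add_mul, add_mul]
                abel
              rw [sub_mul, ← e2, ← e3, hco, sub_self]
            exact sub_eq_zero.mp ((mul_eq_zero.mp e1).resolve_right hU0)
          -- the product
          have hti : i * t = t * i := htc mi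
          have htj : j * t = t * j := htc mj
          have htk : (i * j) * t = t * (i * j) := by
            rw [mul_assoc, htj, ← mul_assoc, hti, mul_assoc]
          have hyi : 2 * F φ my⁻¹ = t - (t - 1) * i + i * j := by
            have e1 : F φ my⁻¹ = t - F φ my := by rw [ht, tr]; abel
            rw [e1, mul_sub, hco]
            noncomm_ring
          have hwi : 2 * F φ y'⁻¹ = t - (t - 1) * i - j := by
            have e1 : F φ y'⁻¹ = t - F φ y' := by rw [← h4, ht', tr]; abel
            rw [e1, mul_sub, hw]
            noncomm_ring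
          have htr : 4 * tr φ (my * y'⁻¹) = 6 := by
            have inv1 : (my * y'⁻¹)⁻¹ = y' * my⁻¹ := by group
            have e0 : 4 * tr φ (my * y'⁻¹) = (2 * F φ my) * (2 * F φ y'⁻¹) +
                (2 * F φ y') * (2 * F φ my⁻¹) := by
              rw [tr, inv1, F_mul, F_mul]
              noncomm_ring
            rw [e0, hco, hwi, hw, hyi]
            have e1 : (t + (t - 1) * i - i * j) * (t - (t - 1) * i - j) +
                (t + (t - 1) * i + j) * (t - (t - 1) * i + i * j) =
                2 * (t * t) - 2 * ((t - 1) * (i * (t - 1)) * i)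
                + (((t - 1) * (i * t) + (t - 1) * (i * t)) - (t * (t - 1) + t * (t - 1)) * i)
                + (j * t - t * j) + (t * (i * j) - (i * j) * t)
                + ((i * j) * (t - 1) * i - (t - 1) * (i * j))
                + ((t - 1) * (i * (i * j)) - j * (t - 1) * i)
                + ((i * j) * j + j * (i * j)) := by
              noncomm_ring
            rw [e1]
            have g1 : i * (t - 1) = (t - 1) * i := by rw [mul_sub, sub_mul, hti, mul_one, one_mul]
            have g2 : j * (t - 1) = (t - 1) * j := by rw [mul_sub, sub_mul, htj, mul_one, one_mul]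
            have g3 : (i * j) * (t - 1) = (t - 1) * (i * j) := by
              rw [mul_sub, sub_mul, htk, mul_one, one_mul]
            rw [g1, g2, g3, hti, htj, htk, mul_assoc (t - 1) (i * j) i, hq.iji, hq.iij,
              mul_assoc (t - 1) j i, hq.ji, hq.jij, hq.ijj, mul_assoc (t - 1) _ i,
              mul_assoc (t - 1) i i, hq.ii]
            have e2 : (t - 1) * ((t - 1) * -1) = -(t * t) + 2 * t - 1 := by noncomm_ring
            rw [e2]
            have e3 : 2 * (t * t) - 2 * (-(t * t) + 2 * t - 1) + ((t - 1) * (t * i) + (t - 1) * (t * i) -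
                (t * (t - 1) + t * (t - 1)) * i) + (t * j - t * j) + (t * (i * j) - t * (i * j)) +
                ((t - 1) * j - (t - 1) * (i * j)) + ((t - 1) * -j - (t - 1) * -(i * j)) + (-i + i) =
                4 * (t * t) - 4 * t + 2 := by
              noncomm_ring
              norm_num
            rw [e3, hts, mul_add, mul_one, add_sub_cancel_left]
            norm_num
          -- contradiction
          set s := my * y'⁻¹ with hs
          obtain ⟨n, hn0, hn1⟩ := (isOfFinOrder_iff_pow_eq_one).mp (isOfFinOrder_of_finite s)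
          refine no_trace (s := F φ s) (n := n) ?_ hn0 (by rw [← F_pow, hn1, F_one])
          have e1 : 2 * tr φ s = 3 := by
            have : (2 : D) * (2 * tr φ s) = 2 * 3 := by
              rw [← mul_assoc]
              norm_num
              exact htr
            exact mul_left_cancel₀ two_ne this
          have e2 : F φ s * F φ s⁻¹ = 1 := F_mul_inv φ s
          have e3 : 2 * (F φ s * F φ s) = F φ s * (2 * tr φ s) - 2 * (F φ s * F φ s⁻¹) := by
            rw [tr]; noncomm_ring
          rw [e3, e1, e2, (Commute.ofNat_right (F φ s) 3).eq, mul_one]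
        · -- `U` negates `√5`
          have h4 : t' = 1 - t := by
            have : t' = (t' + t - 1) + (1 - t) := by abel
            rw [this, h3, zero_add]
          rw [h4] at hUt
          set θ := 2 * t - 1 with hθ
          have hθθ : θ * θ = 5 := by
            have : θ * θ = 4 * (t * t) - 4 * t + 1 := by rw [hθ]; noncomm_ring
            rw [this, hts, mul_add, mul_one, add_sub_cancel_left]
            norm_num
          have hθi : i * θ = θ * i := by
            have := htc mi
            rw [hθ, mul_sub, sub_mul, mul_assoc, ← this, ← mul_assoc, (Commute.ofNat_right i 2).eq,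
              mul_one, one_mul, mul_assoc]
          have hθj : j * θ = θ * j := by
            have := htc mj
            rw [hθ, mul_sub, sub_mul, mul_assoc, ← this, ← mul_assoc, (Commute.ofNat_right j 2).eq,
              mul_one, one_mul, mul_assoc]
          have hUθ : U * θ = -(θ * U) := by
            rw [hθ, mul_sub, ← mul_assoc, (Commute.ofNat_right U 2).eq, mul_assoc, hUt]
            noncomm_ring
          have hGθ : G * θ = -(θ * G) := by
            have e : (1 - i) * θ = θ * (1 - i) := by
              calc (1 - i) * θ = θ - i * θ := by noncomm_ring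
                _ = θ - θ * i := by rw [hθi]
                _ = θ * (1 - i) := by noncomm_ring
            rw [hG, mul_assoc, hUθ, mul_neg, ← mul_assoc, e, mul_assoc]
          set W := θ * (1 + G) with hW
          set X := i + 2 * j with hX
          have hWW : W * W = -5 := by
            have e1 : W * W = θ * θ + θ * θ * G + θ * (G * θ) + θ * (G * θ) * G := by
              rw [hW]; noncomm_ring
            rw [e1, hGθ]
            have e2 : θ * -(θ * G) = -(θ * θ * G) := by noncomm_ring
            have e3 : -(θ * θ * G) * G = -(θ * θ * (G * G)) := by noncomm_ring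
            rw [e2, e3, hθθ, hG2]
            have : (5 : D) + 5 * G + -(5 * G) + -(5 * 2) = 5 + -(5 * 2) := by abel
            rw [this]
            norm_num
          have hXX : X * X = -5 := by
            have e1 : X * X = i * i + 4 * (j * j) + 2 * (i * j + j * i) := by rw [hX]; noncomm_ring
            rw [e1, hq.ii, hq.jj, hq.ji]
            norm_num
          have hWi : i * W = W * i := by
            rw [hW, ← mul_assoc, hθi, mul_assoc, mul_assoc]
            congr 1
            rw [mul_add, add_mul, hGi, mul_one, one_mul]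
          have hWj : j * W = W * j := by
            rw [hW, ← mul_assoc, hθj, mul_assoc, mul_assoc]
            congr 1
            rw [mul_add, add_mul, hGj, mul_one, one_mul]
          have hWX : W * X = X * W := by
            have e : W * (2 * j) = 2 * j * W := by
              rw [← mul_assoc, (Commute.ofNat_right W 2).eq, mul_assoc (2 : D) j W, hWj]
              exact mul_assoc _ _ _
            rw [hX, mul_add, add_mul, hWi, e]
          have hXi : i * X = X * i := by
            rcases sq_eq_sq' hWX (hWW.trans hXX.symm) with h5 | h5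
            · rw [← h5]; exact hWi
            · have : X = -W := by rw [h5, neg_neg]
              rw [this, mul_neg, neg_mul, hWi]
          have e1 : i * X - X * i = 4 * (i * j) := by
            have : i * X - X * i = 2 * (i * j - j * i) := by rw [hX]; noncomm_ring
            rw [this, hq.ji]
            noncomm_ring
          rw [hXi, sub_self] at e1
          have four : (4 : D) ≠ 0 := by exact_mod_cast (by norm_num : (4 : ℕ) ≠ 0)
          exact (mul_ne_zero four (mul_ne_zero hq.i_ne hq.j_ne)) e1.symm
      · -- `u² = -i`, `G² = -2`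
        have hUU' : U * U = -i := by rw [hUU, h1, F_mul, F_neg hφ, neg_one_mul]
        have hG2 : G * G = -2 := by
          rw [hGG, hUU', mul_neg, hq.ii]; simp
        set X := i + j with hX
        have hXX : X * X = -2 := by
          have e1 : X * X = i * i + j * j + (i * j + j * i) := by rw [hX]; noncomm_ring
          rw [e1, hq.ii, hq.jj, hq.ji]
          norm_num
        have hGX : G * X = X * G := by rw [hX, mul_add, add_mul, hGi, hGj]
        have hXi : i * X = X * i := by
          rcases sq_eq_sq' hGX (hG2.trans hXX.symm) with h5 | h5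
          · rw [← h5, hGi]
          · have : X = -G := by rw [h5, neg_neg]
            rw [this, mul_neg, neg_mul, hGi]
        have e1 : i * X - X * i = 2 * (i * j) := by
          have : i * X - X * i = (i * j - j * i) := by rw [hX]; noncomm_ring
          rw [this, hq.ji]
          noncomm_ring
        rw [hXi, sub_self] at e1
        exact (mul_ne_zero two_ne (mul_ne_zero hq.i_ne hq.j_ne)) e1.symm
  -- normalise
  obtain ⟨gj, hgj⟩ := hn mj
  have hgji : gj * gi = -1 * (gi * gj) := by
    apply hφ
    have e1 : φ gi = h * φ mi * h⁻¹ := by rw [hgi, mul_inv_cancel_right]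
    have e2 : φ gj = h * φ mj * h⁻¹ := by rw [hgj, mul_inv_cancel_right]
    have e3 : Commute (φ (-1)) h := by
      have : φ (-1) = -1 := by
        apply Units.ext
        have := F_neg hφ
        simpa [F] using this
      rw [this]
      exact Commute.neg_one_left h
    rw [map_mul, map_mul, map_mul, e1, e2]
    calc h * φ mj * h⁻¹ * (h * φ mi * h⁻¹) = h * (φ mj * φ mi) * h⁻¹ := by group
      _ = h * (φ (-1) * (φ mi * φ mj)) * h⁻¹ := by
          rw [← map_mul, mj_mul_mi, map_mul, map_mul]
      _ = φ (-1) * (h * φ mi * h⁻¹ * (h * φ mj * h⁻¹)) := by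
          rw [← mul_assoc h, ← e3.eq]; group
  have hanti : (c * gj * c⁻¹) * mi = -1 * (mi * (c * gj * c⁻¹)) := by
    have hneg : ∀ x : L5, c * (-1 * x) = -1 * (c * x) := by
      intro x
      ext i j; simp
    rw [← hc]
    calc c * gj * c⁻¹ * (c * gi * c⁻¹) = c * (gj * gi) * c⁻¹ := by group
      _ = c * (-1 * (gi * gj)) * c⁻¹ := by rw [hgji]
      _ = -1 * (c * (gi * gj)) * c⁻¹ := by rw [hneg]
      _ = _ := by simp only [mul_assoc, inv_mul_cancel_left]
  have hui : (φ c * h) * φ mi = φ mi * (φ c * h) := by
    rw [mul_assoc, hgi, ← hc, map_mul, map_mul, map_inv]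
    group
  have huj : (φ c * h) * φ mj = φ (c * gj * c⁻¹) * (φ c * h) := by
    rw [mul_assoc, hgj, map_mul, map_mul, map_inv]
    group
  rcases anti_mi hanti with h3 | h3 | h3 | h3
  · rw [h3] at huj
    exact main _ ⟨c, rfl⟩ hui (Or.inl huj)
  · rw [h3] at huj
    refine main (φ mi⁻¹ * (φ c * h)) ⟨mi⁻¹ * c, by rw [map_mul, mul_assoc]⟩ ?_ (Or.inl ?_)
    · rw [mul_assoc, hui, map_inv]; group
    · rw [mul_assoc, huj, map_mul, map_mul, map_inv]; group
  · rw [h3] at huj
    exact main _ ⟨c, rfl⟩ hui (Or.inr huj)
  · rw [h3] at huj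
    refine main (φ mi⁻¹ * (φ c * h)) ⟨mi⁻¹ * c, by rw [map_mul, mul_assoc]⟩ ?_ (Or.inr ?_)
    · rw [mul_assoc, hui, map_inv]; group
    · rw [mul_assoc, huj, map_mul, map_mul, map_inv]; group

end

end Cfsg.Agent.H79.Dv
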