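import Mathlib

/-!
Number theory for finite subgroups of division rings (owner: helper79).
-/

set_option autoImplicit false
set_option linter.unusedSectionVars false

namespace Cfsg.Agent.H79.Dv

open Polynomial

/-- Dirichlet -/
theorem exists_prime (r : ℕ) (hr : r.Coprime 20) (h1 : 1 < r) :
    ∃ l : ℕ, l.Prime ∧ l % 4 = 3 ∧ l % 5 = 3 ∧ r ∣ l + 1 := by
  obtain ⟨k, hk1, hk2⟩ := Nat.chineseRemainder hr.symm 3 (r - 1)
  have hc1 : k.Coprime 20 := by
    have h : Nat.gcd k 20 = Nat.gcd 3 20 := hk1.gcd_eq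
    rw [Nat.Coprime, h]
    norm_num
  have hc2 : k.Coprime r := by
    have h : Nat.gcd k r = Nat.gcd (r - 1) r := hk2.gcd_eq
    rw [Nat.Coprime, h]
    have h3 : (r - 1).Coprime (r - 1 + 1) := by simp
    rwa [Nat.sub_add_cancel h1.le] at h3
  obtain ⟨l, -, hl, hm⟩ := Nat.forall_exists_prime_gt_and_modEq 0
    (q := 20 * r) (a := k) (by omega) (hc1.mul_right hc2)
  have hm1 : l ≡ 3 [MOD 20] := (hm.of_mul_right r).trans hk1
  have hm2 : l ≡ r - 1 [MOD r] := (hm.of_mul_left 20).trans hk2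
  refine ⟨l, hl, ?_, ?_, ?_⟩
  · have := hm1.of_dvd (show 4 ∣ 20 by norm_num)
    exact this
  · have := hm1.of_dvd (show 5 ∣ 20 by norm_num)
    exact this
  · have h4 : l + 1 ≡ r - 1 + 1 [MOD r] := hm2.add_right 1
    rw [Nat.sub_add_cancel h1.le] at h4
    exact (Nat.modEq_zero_iff_dvd.mp (h4.trans (by simp [Nat.ModEq])))

theorem ns3 : ∀ y : ZMod 5, (3 : ZMod 5) ≠ y * y := by decide

theorem isSquare_neg_five {l : ℕ} [hl : Fact l.Prime] (h4 : l % 4 = 3) (h5 : l % 5 = 3) :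
    ∃ x : ZMod l, x ^ 2 = -5 := by
  have : Fact (Nat.Prime 5) := ⟨by norm_num⟩
  have hl2 : l ≠ 2 := by rintro rfl; norm_num at h4
  have h1 : ¬ IsSquare (5 : ZMod l) := by
    have h := ZMod.exists_sq_eq_prime_iff_of_mod_four_eq_one (p := 5) (q := l) (by norm_num) hl2
    intro h2
    have h3 : IsSquare ((l : ZMod 5)) := h.mpr (by exact_mod_cast h2)
    have h4 : (l : ZMod 5) = 3 := by
      have : (l : ZMod 5) = ((l % 5 : ℕ) : ZMod 5) := by simp
      rw [this, h5]; rfl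
    rw [h4] at h3
    obtain ⟨y, hy⟩ := h3
    exact ns3 y hy
  have h2 : ¬ IsSquare (-1 : ZMod l) := by
    rw [ZMod.exists_sq_eq_neg_one_iff]
    omega
  have h50 : (5 : ZMod l) ≠ 0 := fun h => h1 (by rw [h]; exact ⟨0, by simp⟩)
  have hn0 : (-1 : ZMod l) ≠ 0 := by simp
  have hL : quadraticChar (ZMod l) (-5) = 1 := by
    rw [show (-5 : ZMod l) = (-1) * 5 by ring, map_mul,
      (quadraticChar_neg_one_iff_not_isSquare).mpr h2,
      (quadraticChar_neg_one_iff_not_isSquare).mpr h1]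
    norm_num
  have hn5 : (-5 : ZMod l) ≠ 0 := neg_ne_zero.mpr h50
  obtain ⟨x, hx⟩ := (quadraticChar_one_iff_isSquare hn5).mp hL
  exact ⟨x, by rw [hx]; ring⟩

/-- Thue -/
theorem exists_small {l : ℕ} [hl : Fact l.Prime] (x : ZMod l) :
    ∃ a b : ℤ, (a ≠ 0 ∨ b ≠ 0) ∧ a ^ 2 < l ∧ b ^ 2 < l ∧ (a : ZMod l) = x * b := by
  classical
  set n := Nat.sqrt l with hn
  have h1 : l < (n + 1) * (n + 1) := Nat.lt_succ_sqrt l
  have h2 : n * n < l := by
    refine lt_of_le_of_ne (Nat.sqrt_le l) fun h => ?_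
    have h3 := hl.out
    rw [← h] at h3
    have h4 : n ≠ 1 := by rintro h; rw [h] at h3; exact absurd h3 (by norm_num)
    exact Nat.not_prime_mul h4 h4 h3
  let F : Fin (n + 1) × Fin (n + 1) → ZMod l := fun q => ((q.1 : ℕ) : ZMod l) - x * ((q.2 : ℕ) : ZMod l)
  have hcard : Fintype.card (ZMod l) < Fintype.card (Fin (n + 1) × Fin (n + 1)) := by
    rw [ZMod.card, Fintype.card_prod, Fintype.card_fin]
    exact h1
  obtain ⟨⟨a1, b1⟩, ⟨a2, b2⟩, hne, hF⟩ := Fintype.exists_ne_map_eq_of_card_lt F hcard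
  have hb : ∀ u v : Fin (n + 1), (((u : ℕ) : ℤ) - (v : ℕ)) ^ 2 < l := by
    intro u v
    have hu := u.isLt
    have hv := v.isLt
    have h3 : |((u : ℕ) : ℤ) - (v : ℕ)| ≤ n := by
      rw [abs_le]; constructor <;> omega
    have h4 : (((u : ℕ) : ℤ) - (v : ℕ)) ^ 2 ≤ (n : ℤ) ^ 2 := by
      rw [← sq_abs]
      exact pow_le_pow_left₀ (abs_nonneg _) h3 2
    have h5 : (n : ℤ) ^ 2 < l := by
      rw [pow_two]; exact_mod_cast h2
    linarith
  refine ⟨(a1 : ℕ) - (a2 : ℕ), (b1 : ℕ) - (b2 : ℕ), ?_, hb _ _, hb _ _, ?_⟩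
  · by_contra hcon
    push Not at hcon
    apply hne
    have e1 : a1 = a2 := Fin.ext (by omega)
    have e2 : b1 = b2 := Fin.ext (by omega)
    rw [e1, e2]
  · push_cast
    have := hF
    simp only [F] at this
    linear_combination this

theorem mod4 (a b : ℤ) : (a ^ 2 + 5 * b ^ 2) % 4 ≠ 3 := by
  have ha : a % 4 = 0 ∨ a % 4 = 1 ∨ a % 4 = 2 ∨ a % 4 = 3 := by omega
  have hb : b % 4 = 0 ∨ b % 4 = 1 ∨ b % 4 = 2 ∨ b % 4 = 3 := by omega
  rcases ha with h | h | h | h <;> rcases hb with h' | h' | h' | h' <;>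
    simp [pow_two, Int.add_emod, Int.mul_emod, h, h']

theorem mod4' (a b : ℤ) : (5 * a ^ 2 + b ^ 2) % 4 ≠ 3 := by
  rw [add_comm]; exact mod4 b a

theorem mod8 (a b : ℤ) (h : (a ^ 2 + 5 * b ^ 2) % 8 = 4) : a % 2 = 0 ∧ b % 2 = 0 := by
  have ha : a % 8 = 0 ∨ a % 8 = 1 ∨ a % 8 = 2 ∨ a % 8 = 3 ∨ a % 8 = 4 ∨ a % 8 = 5 ∨ a % 8 = 6 ∨
    a % 8 = 7 := by omega
  have hb : b % 8 = 0 ∨ b % 8 = 1 ∨ b % 8 = 2 ∨ b % 8 = 3 ∨ b % 8 = 4 ∨ b % 8 = 5 ∨ b % 8 = 6 ∨
    b % 8 = 7 := by omega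
  rcases ha with h1 | h1 | h1 | h1 | h1 | h1 | h1 | h1 <;>
    rcases hb with h2 | h2 | h2 | h2 | h2 | h2 | h2 | h2 <;>
    simp [pow_two, Int.add_emod, Int.mul_emod, h1, h2] at h <;> constructor <;> omega

/-- primes `3, 3 mod 4, 5` -/
theorem exists_rep {l : ℕ} (hl : l.Prime) (h4 : l % 4 = 3) (h5 : l % 5 = 3) :
    ∃ u v : ℤ, 2 * (l : ℤ) = u ^ 2 + 5 * v ^ 2 := by
  have : Fact l.Prime := ⟨hl⟩
  obtain ⟨x, hx⟩ := isSquare_neg_five h4 h5
  obtain ⟨a, b, hne, ha, hb, hab⟩ := exists_small x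
  have hd : (l : ℤ) ∣ a ^ 2 + 5 * b ^ 2 := by
    rw [← ZMod.intCast_zmod_eq_zero_iff_dvd]
    push_cast
    rw [hab, mul_pow, hx]
    ring
  obtain ⟨k, hk⟩ := hd
  have hlpos : (0 : ℤ) < l := by exact_mod_cast hl.pos
  have hpos : 0 < a ^ 2 + 5 * b ^ 2 := by
    rcases hne with h | h <;> positivity
  have hk0 : 0 < k := by
    rw [hk] at hpos
    exact (mul_pos_iff_of_pos_left hlpos).mp hpos
  have hk6 : k < 6 := by
    by_contra hcon
    push Not at hcon
    have : (l : ℤ) * 6 ≤ l * k := mul_le_mul_of_nonneg_left hcon hlpos.le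
    linarith
  have hl4 : (l : ℤ) % 4 = 3 := by omega
  interval_cases k
  · exfalso
    apply mod4 a b
    rw [hk, mul_one]
    exact hl4
  · exact ⟨a, b, by rw [hk]; ring⟩
  · have h3 : (3 : ℤ) ∣ (a - b) * (a + b) := by
      refine ⟨l - 2 * b ^ 2, ?_⟩
      linear_combination hk
    rcases (Int.Prime.dvd_mul' (by norm_num : Nat.Prime 3) h3) with ⟨c, hc⟩ | ⟨c, hc⟩
    · refine ⟨c + 2 * b, -c, ?_⟩
      have e : a = b + 3 * c := by push_cast at hc; linarith
      rw [e] at hk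
      nlinarith [hk]
    · refine ⟨c - 2 * b, c, ?_⟩
      have e : a = -b + 3 * c := by push_cast at hc; linarith
      rw [e] at hk
      nlinarith [hk]
  · exfalso
    have h8 : (a ^ 2 + 5 * b ^ 2) % 8 = 4 := by omega
    obtain ⟨ha2, hb2⟩ := mod8 a b h8
    obtain ⟨a', rfl⟩ : ∃ a', a = 2 * a' := ⟨a / 2, by omega⟩
    obtain ⟨b', rfl⟩ : ∃ b', b = 2 * b' := ⟨b / 2, by omega⟩
    apply mod4 a' b'
    have : a' ^ 2 + 5 * b' ^ 2 = l := by linarith
    rw [this]; exact hl4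
  · exfalso
    have h5a : (5 : ℤ) ∣ a * a := ⟨l - b ^ 2, by linear_combination hk⟩
    have h5a' : (5 : ℤ) ∣ a := by
      rcases Int.Prime.dvd_mul' (by norm_num : Nat.Prime 5) h5a with h | h <;> exact_mod_cast h
    obtain ⟨a', rfl⟩ := h5a'
    apply mod4' a' b
    have : 5 * a' ^ 2 + b ^ 2 = l := by linarith
    rw [this]; exact hl4

/-! ### Gauss -/

section Gauss

variable {l : ℕ} [hl : Fact l.Prime] {E : Type*} [Field E] [CharZero E] [Algebra ℚ E]

/-- half of the cyclotomic polynomial -/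
noncomputable def hp (ψ : AddChar (ZMod l) E) (e : ℤ) : E[X] :=
  ∏ a ∈ Finset.univ.filter (fun a : ZMod l => quadraticChar (ZMod l) a = e), (X - C (ψ a))

theorem hp_map (ψ : AddChar (ZMod l) E) (e : ℤ) (σ : E ≃ₐ[ℚ] E) (b : (ZMod l)ˣ)
    (hσ : ∀ a, σ (ψ a) = ψ (b * a)) :
    (hp ψ e).map (σ : E →+* E) = hp ψ (quadraticChar (ZMod l) (b : ZMod l) * e) := by
  classical
  rw [hp, hp, Polynomial.map_prod]
  have hb2 : quadraticChar (ZMod l) (b : ZMod l) * quadraticChar (ZMod l) (b : ZMod l) = 1 := by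
    rw [← pow_two]
    exact quadraticChar_sq_one b.ne_zero
  refine Finset.prod_bij' (fun a _ => (b : ZMod l) * a) (fun a _ => ((b⁻¹ : (ZMod l)ˣ) : ZMod l) * a)
    ?_ ?_ ?_ ?_ ?_
  · intro a ha
    rw [Finset.mem_filter] at ha ⊢
    exact ⟨Finset.mem_univ _, by rw [map_mul, ha.2]⟩
  · intro a ha
    rw [Finset.mem_filter] at ha ⊢
    refine ⟨Finset.mem_univ _, ?_⟩
    have h1 : quadraticChar (ZMod l) (b : ZMod l) *
        quadraticChar (ZMod l) (((b⁻¹ : (ZMod l)ˣ) : ZMod l) * a) =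
        quadraticChar (ZMod l) (b : ZMod l) * e := by
      rw [← map_mul, ← mul_assoc, Units.mul_inv, one_mul, ha.2]
    calc _ = quadraticChar (ZMod l) (b : ZMod l) * (quadraticChar (ZMod l) (b : ZMod l) *
        quadraticChar (ZMod l) (((b⁻¹ : (ZMod l)ˣ) : ZMod l) * a)) := by
          rw [← mul_assoc, hb2, one_mul]
      _ = _ := by rw [h1, ← mul_assoc, hb2, one_mul]
  · intro a _
    rw [← mul_assoc, Units.inv_mul, one_mul]
  · intro a _
    rw [← mul_assoc, Units.mul_inv, one_mul]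
  · intro a _
    rw [Polynomial.map_sub, map_X, map_C]
    congr 2
    exact hσ a

theorem hp_mul (ψ : AddChar (ZMod l) E) (hψ : Function.Injective ψ) :
    (X - 1) * (hp ψ 1 * hp ψ (-1)) = X ^ l - 1 := by
  classical
  have h1 : ∏ a : ZMod l, (X - C (ψ a)) = (X ^ l - 1 : E[X]) := by
    symm
    have hm : (X ^ l - 1 : E[X]).Monic := by
      have := monic_X_pow_sub_C (1 : E) hl.out.ne_zero
      rwa [C_1] at this
    have hmem : ∀ a : ZMod l, ψ a ∈ (X ^ l - 1 : E[X]).roots := by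
      intro a
      rw [mem_roots hm.ne_zero]
      simp only [IsRoot.def, eval_sub, eval_pow, eval_X, eval_one]
      rw [← AddChar.map_nsmul_eq_pow, sub_eq_zero]
      have : l • a = 0 := by
        rw [nsmul_eq_mul, ZMod.natCast_self, zero_mul]
      rw [this, AddChar.map_zero_eq_one]
    have hle : (Finset.univ.image ψ).val ≤ (X ^ l - 1 : E[X]).roots := by
      rw [Multiset.le_iff_subset (Finset.nodup _)]
      intro x hx
      obtain ⟨a, -, rfl⟩ := Finset.mem_image.mp hx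
      exact hmem a
    have hcard : (X ^ l - 1 : E[X]).natDegree = l := by
      have := natDegree_X_pow_sub_C (n := l) (r := (1 : E))
      rwa [C_1] at this
    have hcard2 : Multiset.card (Finset.univ.image ψ).val = l := by
      rw [Finset.card_val, Finset.card_image_of_injective _ hψ, Finset.card_univ, ZMod.card]
    have heq : (Finset.univ.image ψ).val = (X ^ l - 1 : E[X]).roots := by
      refine Multiset.eq_of_le_of_card_le hle ?_
      rw [hcard2]
      exact (card_roots' _).trans hcard.le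
    have h2 := prod_multiset_X_sub_C_of_monic_of_roots_card_eq hm (by
      rw [← heq, hcard2, hcard])
    rw [← h2, ← heq]
    rw [← Finset.prod_image (s := Finset.univ) (g := ψ) (f := fun x => X - C x)
      (fun a _ b _ h => hψ h)]
    rfl
  rw [← h1, hp, hp, ← Finset.prod_union]
  · rw [← Finset.mul_prod_erase Finset.univ (fun a => X - C (ψ a)) (Finset.mem_univ (0 : ZMod l)),
      AddChar.map_zero_eq_one, C_1]
    congr 1
    refine Finset.prod_congr ?_ fun _ _ => rfl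
    ext a
    simp only [Finset.mem_union, Finset.mem_filter, Finset.mem_univ, true_and, Finset.mem_erase,
      and_true]
    constructor
    · rintro h rfl
      rw [MulChar.map_zero] at h
      rcases h with h | h <;> norm_num at h
    · intro h
      exact quadraticChar_dichotomy h
  · rw [Finset.disjoint_left]
    intro a h1 h2
    rw [Finset.mem_filter] at h1 h2
    have := h1.2.symm.trans h2.2
    norm_num at this

theorem descend [FiniteDimensional ℚ E] [IsGalois ℚ E] (f : E[X])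
    (h : ∀ σ : E ≃ₐ[ℚ] E, f.map (σ : E →+* E) = f) : ∃ g : ℚ[X], g.map (algebraMap ℚ E) = f := by
  have h1 : f ∈ Polynomial.lifts (algebraMap ℚ E) := by
    rw [Polynomial.lifts_iff_coeff_lifts]
    intro n
    rw [IsGalois.mem_range_algebraMap_iff_fixed]
    intro σ
    conv_rhs => rw [← h σ]
    rw [coeff_map]
    rfl
  exact (Polynomial.mem_lifts f).mp h1

end Gauss

theorem exists_gauss' {l : ℕ} [hlp : Fact l.Prime] (h4 : l % 4 = 3) (E : Type*) [Field E]
    [CharZero E] [Algebra ℚ E] [IsCyclotomicExtension {l} ℚ E] :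
    ∃ S T : ℚ[X], (X - 1) * (C (l : ℚ) * S ^ 2 + T ^ 2) = C (4 * l : ℚ) * (X ^ l - 1) := by
  classical
  have hl2 : l ≠ 2 := by rintro rfl; norm_num at h4
  have hω := IsCyclotomicExtension.zeta_spec l ℚ E
  set ω := IsCyclotomicExtension.zeta l ℚ E with hωdef
  have : FiniteDimensional ℚ E := IsCyclotomicExtension.finiteDimensional {l} ℚ E
  have : IsGalois ℚ E := IsCyclotomicExtension.isGalois {l} ℚ E
  let ψ : AddChar (ZMod l) E := AddChar.zmodChar l hω.pow_eq_one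
  have hψ : ψ.IsPrimitive := AddChar.zmodChar_primitive_of_primitive_root l hω
  have hψv : ∀ a : ZMod l, ψ a = ω ^ a.val := fun a => AddChar.zmodChar_apply hω.pow_eq_one a
  have hψi : Function.Injective ψ := by
    intro a b hab
    rw [hψv, hψv] at hab
    have := hω.pow_inj (ZMod.val_lt a) (ZMod.val_lt b) hab
    exact ZMod.val_injective l this
  have hgal : ∀ σ : E ≃ₐ[ℚ] E, ∃ b : (ZMod l)ˣ, ∀ a, σ (ψ a) = ψ (b * a) := by
    intro σ
    refine ⟨hω.autToPow ℚ σ, fun a => ?_⟩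
    rw [hψv, map_pow, ← hω.autToPow_spec ℚ σ, ← pow_mul, hψv]
    rw [← pow_mod_orderOf, ← hω.eq_orderOf, ZMod.val_mul]
  let χ : MulChar (ZMod l) E := (quadraticChar (ZMod l)).ringHomComp (Int.castRingHom E)
  have hχv : ∀ a, χ a = ((quadraticChar (ZMod l) a : ℤ) : E) := fun a => rfl
  have hchar : ringChar (ZMod l) ≠ 2 := by rw [ZMod.ringChar_zmod_n]; exact hl2
  have hχ1 : χ ≠ 1 := by
    intro h
    obtain ⟨a, ha⟩ := quadraticChar_exists_neg_one hchar
    have h1 : χ a = 1 := by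
      rw [h]
      refine MulChar.one_apply ?_
      by_contra hcon
      rw [isUnit_iff_ne_zero, not_not] at hcon
      rw [hcon, MulChar.map_zero] at ha
      norm_num at ha
    rw [hχv, ha] at h1
    norm_num at h1
  have hχ2 : χ.IsQuadratic := (quadraticChar_isQuadratic (ZMod l)).comp _
  have hgg := gaussSum_sq hχ1 hχ2 hψ
  set g := gaussSum χ ψ with hg
  have hneg : χ (-1) = -1 := by
    have h2 : ¬ IsSquare (-1 : ZMod l) := by
      rw [ZMod.exists_sq_eq_neg_one_iff]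
      omega
    rw [hχv, (quadraticChar_neg_one_iff_not_isSquare).mpr h2]
    norm_num
  rw [hneg, ZMod.card] at hgg
  have hmapg : ∀ (σ : E ≃ₐ[ℚ] E) (b : (ZMod l)ˣ), (∀ a, σ (ψ a) = ψ (b * a)) →
      σ g = ((quadraticChar (ZMod l) (b : ZMod l) : ℤ) : E) * g := by
    intro σ b hb
    have h1 : σ g = gaussSum χ (ψ.mulShift b) := by
      rw [hg, gaussSum, map_sum, gaussSum]
      refine Finset.sum_congr rfl fun a _ => ?_
      rw [map_mul, hb, hχv, map_intCast]
      rfl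
    rw [h1, gaussSum_mulShift_eq, hχ2.inv]
    rfl
  set A := hp ψ 1 with hA
  set B := hp ψ (-1) with hB
  have hS : ∀ σ : E ≃ₐ[ℚ] E, (A + B).map (σ : E →+* E) = A + B := by
    intro σ
    obtain ⟨b, hb⟩ := hgal σ
    rw [Polynomial.map_add, hA, hB, hp_map ψ 1 σ b hb, hp_map ψ (-1) σ b hb]
    rcases quadraticChar_dichotomy b.ne_zero with h | h
    · rw [h, one_mul, one_mul]
    · rw [h, mul_one, neg_one_mul, neg_neg, add_comm]
  have hT : ∀ σ : E ≃ₐ[ℚ] E, ((A - B) * C g).map (σ : E →+* E) = (A - B) * C g := by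
    intro σ
    obtain ⟨b, hb⟩ := hgal σ
    rw [Polynomial.map_mul, Polynomial.map_sub, hA, hB, hp_map ψ 1 σ b hb, hp_map ψ (-1) σ b hb,
      map_C]
    have h1 : (σ : E →+* E) g = ((quadraticChar (ZMod l) (b : ZMod l) : ℤ) : E) * g := hmapg σ b hb
    rw [h1]
    rcases quadraticChar_dichotomy b.ne_zero with h | h
    · rw [h, one_mul, one_mul, Int.cast_one, one_mul]
    · rw [h, mul_one, neg_one_mul, neg_neg, Int.cast_neg, Int.cast_one, neg_one_mul, C_neg]
      ring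
  obtain ⟨S, hS⟩ := descend _ hS
  obtain ⟨T, hT⟩ := descend _ hT
  refine ⟨S, T, ?_⟩
  apply Polynomial.map_injective (algebraMap ℚ E) (algebraMap ℚ E).injective
  simp only [Polynomial.map_mul, Polynomial.map_sub, Polynomial.map_add, Polynomial.map_pow,
    map_X, Polynomial.map_one, map_C]
  rw [hS, hT]
  have h1 := hp_mul ψ hψi
  rw [← h1, mul_pow, ← C_pow, hgg]
  simp only [map_mul, map_natCast, C_neg, C_mul, C_1, neg_one_mul, map_neg, map_ofNat]
  ring

theorem exists_gauss {l : ℕ} (hl : l.Prime) (h4 : l % 4 = 3) :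
    ∃ S T : ℚ[X], (X - 1) * (C (l : ℚ) * S ^ 2 + T ^ 2) = C (4 * l : ℚ) * (X ^ l - 1) := by
  have : Fact l.Prime := ⟨hl⟩
  have : NeZero (l : ℚ) := ⟨by exact_mod_cast hl.ne_zero⟩
  have : NeZero l := ⟨hl.ne_zero⟩
  have : IsCyclotomicExtension {l} ℚ (CyclotomicField l ℚ) :=
    CyclotomicField.isCyclotomicExtension l ℚ
  exact exists_gauss' h4 (CyclotomicField l ℚ)

end Cfsg.Agent.H79.Dv
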