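import Cfsg.Agent.H79.KerPair
import Cfsg.Agent.H4.BlkKer
import Cfsg.Agent.BlkF.Transport
import Cfsg.Agent.BlkInd.Basic

/-!
# Kernels of blocks and pairs, dictionary
-/

set_option autoImplicit false
set_option linter.unusedSectionVars false
set_option linter.style.haveILetI false
set_option linter.unusedVariables false

namespace Cfsg.Agent.H79

open Cfsg Cfsg.Agent.CharBase Cfsg.Agent.Blk MonoidAlgebra

universe u

section dict

variable {G : Type u} [Group G] [Fintype G] {M : Ideal AlgInt} [hMp : M.IsPrime] {p : ℕ}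

open Classical in
/-- the complex averaging function -/
noncomputable def avF (W : Subgroup G) : G → ℂ := fun g => if g ∈ W then (Nat.card W : ℂ)⁻¹ else 0

theorem avF_cf (W : Subgroup G) [hW : W.Normal] : IsClassFunction G (avF W) := by
  intro g h
  unfold avF
  have : h * g * h⁻¹ ∈ W ↔ g ∈ W := by
    constructor
    · intro h1
      have := hW.conj_mem _ h1 h⁻¹
      simpa [mul_assoc] using this
    · intro h1; exact hW.conj_mem _ h1 h
  by_cases hg : g ∈ W
  · rw [if_pos hg, if_pos (this.2 hg)]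
  · rw [if_neg hg, if_neg fun h => hg (this.1 h)]

theorem avF_rv (hM : IsPModular p M) {W : Subgroup G} (hW : ¬ p ∣ Nat.card W) : RV M (avF W) := by
  intro g
  unfold avF
  split_ifs
  · exact mlr_natCast_inv hM hW
  · exact mlr_zero

theorem redc_avF (hM : IsPModular p M) {W : Subgroup G} (hW : ¬ p ∣ Nat.card W) :
    redc M (avF W) = eW (kM M) W := by
  apply ga_ext; intro g
  rw [redc_coeff]
  unfold avF
  by_cases hg : g ∈ W
  · rw [if_pos hg, eW_coeff_of_mem hg, rd_inv (mlr_natCast _) (by rwa [mli_natCast_iff hM]),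
      rd_natCast]
  · rw [if_neg hg, eW_coeff_of_notMem hg, rd_zero]

theorem sum_avF (W : Subgroup G) (χ : G → ℂ) :
    ∑ g : G, avF W g * χ g = (Nat.card W : ℂ)⁻¹ * ∑ᶠ w : W, χ w := by
  classical
  have := Fintype.ofFinite W
  rw [finsum_eq_sum_of_fintype, Finset.mul_sum]
  symm
  have h1 : ∑ g : G, avF W g * χ g = ∑ g ∈ Finset.univ.filter (fun g : G => g ∈ W),
      (Nat.card W : ℂ)⁻¹ * χ g := by
    rw [Finset.sum_filter]
    refine Finset.sum_congr rfl fun g _ => ?_
    unfold avF
    split_ifs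
    · rfl
    · rw [zero_mul]
  rw [h1]
  refine Finset.sum_bij (fun (x : W) _ => (x : G)) ?_ ?_ ?_ ?_
  · intro a _; simp
  · intro a _ b _ hab; exact Subtype.ext hab
  · intro b hb
    exact ⟨⟨b, by simpa using hb⟩, Finset.mem_univ _, rfl⟩
  · intro a _; rfl

theorem lam_eW (hM : IsPModular p M) {W : Subgroup G} [W.Normal] (hW : ¬ p ∣ Nat.card W)
    (χ : IrrCharacter G) :
    lam χ (eW (kM M) W) = 1 ↔ ∀ x ∈ W, (χ : G → ℂ) x = (χ : G → ℂ) 1 := by
  classical
  have := Fintype.ofFinite W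
  have hW0 : (Nat.card W : ℂ) ≠ 0 := Nat.cast_ne_zero.2 Nat.card_pos.ne'
  have hχ1 : (χ : G → ℂ) 1 ≠ 0 := irr_one_ne_zero χ.2
  rw [← redc_avF hM hW, lam_redc χ (avF_cf W) (avF_rv hM hW)]
  have hom : omega (χ : G → ℂ) (avF W) = ((Nat.card W : ℂ)⁻¹ * ∑ w : W, (χ : G → ℂ) w) /
      (χ : G → ℂ) 1 := by
    unfold omega
    rw [sum_avF, finsum_eq_sum_of_fintype]
  constructor
  · intro h
    by_contra hcon
    have h2 := H4.sum_coset_eq_zero W χ hcon 1
    simp only [one_mul] at h2
    rw [hom, h2, mul_zero, zero_div, rd_zero] at h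
    exact zero_ne_one h
  · intro h
    have h3 : ∑ x : W, (χ : G → ℂ) x = Nat.card W * (χ : G → ℂ) 1 := by
      rw [Finset.sum_congr rfl (fun (x : W) _ => h x x.2), Finset.sum_const, Finset.card_univ,
        nsmul_eq_mul, Nat.card_eq_fintype_card]
    rw [hom, h3, ← mul_assoc, inv_mul_cancel₀ hW0, one_mul, div_self hχ1, rd_one]

theorem natCard_ne_kM (hM : IsPModular p M) {n : ℕ} (h : ¬ p ∣ n) : (n : kM M) ≠ 0 := by
  have := charP_kM hM
  rwa [Ne, CharP.cast_eq_zero_iff (kM M) p]

theorem eW_mul_eB_iff (hM : IsPModular p M) {W : Subgroup G} [hWn : W.Normal]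
    (hW : ¬ p ∣ Nat.card W) {B : Set (IrrCharacter G)} (hB : IsPBlock M B) :
    eW (kM M) W * eB M B = eB M B ↔ ∀ x ∈ W, x ∈ blockKer B := by
  have hN : (⊤ : Subgroup G) ≤ Subgroup.normalizer (W : Set G) := by
    rw [top_le_iff]; exact Subgroup.normalizer_eq_top_iff.2 hWn
  have key : ∀ χ ∈ B, (eW (kM M) W * eB M B = eB M B ↔ lam χ (eW (kM M) W) = 1) := fun χ hχ =>
    mul_eB_eq_iff hB hχ (fixed_eW hN) (eW_idem (natCard_ne_kM hM hW))
  constructor
  · intro h x hx χ hχ
    exact (lam_eW hM hW χ).1 ((key χ hχ).1 h) x hx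
  · intro h
    obtain ⟨χ, hχ⟩ := isPBlock_nonempty hB
    exact (key χ hχ).2 ((lam_eW hM hW χ).2 fun x hx => h x hx χ hχ)

theorem incl_eW {H W : Subgroup G} (hWH : W ≤ H) {k : Type*} [Field k] :
    incl H (eW k (W.subgroupOf H)) = eW k W := by
  have hc : Nat.card (W.subgroupOf H) = Nat.card W := BG.card_subgroupOf_of_le hWH
  apply ga_ext; intro g
  by_cases hg : g ∈ H
  · rw [incl_coeff_of_mem _ hg]
    by_cases hgW : g ∈ W
    · rw [eW_coeff_of_mem hgW, eW_coeff_of_mem (Subgroup.mem_subgroupOf.2 hgW), hc]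
    · rw [eW_coeff_of_notMem hgW, eW_coeff_of_notMem fun h => hgW (Subgroup.mem_subgroupOf.1 h)]
  · rw [incl_coeff_of_notMem _ hg, eW_coeff_of_notMem fun h => hg (hWH h)]

theorem eW_mul_EB_iff (hM : IsPModular p M) {H W : Subgroup G} (hWH : W ≤ H)
    (hHN : H ≤ Subgroup.normalizer (W : Set G))
    (hW : ¬ p ∣ Nat.card W) {b : Set (IrrCharacter H)} (hb : IsPBlock M b) :
    eW (kM M) W * EB M H b = EB M H b ↔ ∀ x : H, (x : G) ∈ W → x ∈ blockKer b := by
  have := Fintype.ofFinite H
  have hn : (W.subgroupOf H).Normal := Subgroup.normal_subgroupOf_of_le_normalizer hHN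
  have hc : Nat.card (W.subgroupOf H) = Nat.card W := BG.card_subgroupOf_of_le hWH
  rw [← incl_eW hWH, EB_eq, ← incl_mul, (incl_injective (H := H)).eq_iff,
    eW_mul_eB_iff hM (by rwa [hc]) hb]
  rfl

/-- central characters and induced blocks, functional form -/
theorem omega_sub_of_induced {H : Subgroup G} [Fintype H] {b : Set (IrrCharacter H)}
    {B : Set (IrrCharacter G)} (hI : IsInducedBlock M H b B) {ξ : IrrCharacter H} (hξ : ξ ∈ b)
    {χ : IrrCharacter G} (hχ : χ ∈ B) {F : G → ℂ} (hF : IsClassFunction G F) (hR : RV M F) :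
    MemLocalIdeal M (omega (ξ : H → ℂ) (fun h : H => F h) - omega (χ : G → ℂ) F) := by
  classical
  have e1 : omega (ξ : H → ℂ) (fun h : H => F h) =
      ∑ c ∈ (Finset.univ.image (fun g : G => ConjClasses.mk g)),
        F (Quotient.out c) * inducedCentralChar H (ξ : H → ℂ) (Quotient.out c) := by
    unfold omega
    have hext : ∀ a : H, extendByZero H (ξ : H → ℂ) (a : G) = (ξ : H → ℂ) a := fun a =>
      Function.Injective.extend_apply Subtype.val_injective _ _ _
    have hext0 : ∀ y : G, y ∉ H → extendByZero H (ξ : H → ℂ) y = 0 := by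
      intro y hy
      unfold extendByZero
      rw [Function.extend_apply']
      · rfl
      · rintro ⟨a, rfl⟩
        exact hy a.2
    have h1 : ∑ h : H, F h * (ξ : H → ℂ) h =
        ∑ g : G, F g * extendByZero H (ξ : H → ℂ) g := by
      symm
      rw [← Finset.sum_filter_add_sum_filter_not _ (fun y => y ∈ H)]
      rw [Finset.sum_eq_zero (s := Finset.filter (fun x => x ∉ H) _)
        (fun y hy => by rw [hext0 y (Finset.mem_filter.mp hy).2, mul_zero]), add_zero]
      symm
      refine Finset.sum_bij (fun (x : H) _ => (x : G)) ?_ ?_ ?_ ?_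
      · intro a _; simp
      · intro a _ b _ hab; exact Subtype.ext hab
      · intro b hb
        exact ⟨⟨b, by simpa using hb⟩, Finset.mem_univ _, rfl⟩
      · intro a _; rw [hext]
    rw [h1, ← Finset.sum_fiberwise_of_maps_to (s := Finset.univ)
      (t := Finset.univ.image (fun g : G => ConjClasses.mk g))
      (g := fun g : G => ConjClasses.mk g) (fun x hx => Finset.mem_image_of_mem _ hx),
      Finset.sum_div]
    refine Finset.sum_congr rfl fun c _ => ?_
    rw [BlkInd.inducedCentralChar_eq_sum, ← mul_div_assoc, Finset.mul_sum]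
    congr 1
    have hout : ConjClasses.mk (Quotient.out c : G) = c := Quotient.out_eq c
    refine Finset.sum_congr ?_ ?_
    · ext g
      simp only [Finset.mem_filter, Finset.mem_univ, true_and]
      rw [← ConjClasses.mk_eq_mk_iff_isConj, hout]
      exact eq_comm
    · intro g hg
      simp only [Finset.mem_filter, Finset.mem_univ, true_and] at hg
      rw [← ConjClasses.mk_eq_mk_iff_isConj] at hg
      congr 1
      obtain ⟨u, hu⟩ := isConj_iff.1 (ConjClasses.mk_eq_mk_iff_isConj.1 hg)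
      rw [← hu, hF]
  rw [e1, omega_eq_sum_classes hF, ← Finset.sum_sub_distrib]
  refine mli_sum _ _ fun c _ => ?_
  rw [← mul_sub]
  exact mli_mul_left (hR _) (hI.2.2 ξ hξ χ hχ _)

theorem res_fixed {H : Subgroup G} {z : MonoidAlgebra (kM M) G} (hz : Fixed ⊤ z) :
    Fixed ⊤ (res H z) := by
  rw [fixed_iff]
  intro u _ g
  change z.coeff ((u * g * u⁻¹ : H) : G) = z.coeff (g : G)
  push_cast
  exact hz.coeff_conj (Subgroup.mem_top _) _

theorem incl_res_eq {H : Subgroup G} (z : MonoidAlgebra (kM M) G) :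
    incl H (res H z) = trunc H z := by
  apply ga_ext; intro g
  by_cases hg : g ∈ H
  · rw [incl_coeff_of_mem _ hg, trunc_coeff_of_mem _ hg]; rfl
  · rw [incl_coeff_of_notMem _ hg, trunc_coeff_of_notMem _ hg]

theorem lam_res {H : Subgroup G} [Fintype H] {b : Set (IrrCharacter H)}
    {B : Set (IrrCharacter G)} (hI : IsInducedBlock M H b B) {ξ : IrrCharacter H} (hξ : ξ ∈ b)
    {χ : IrrCharacter G} (hχ : χ ∈ B) {z : MonoidAlgebra (kM M) G} (hz : Fixed ⊤ z) :
    lam ξ (res H z) = lam χ z := by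
  have hcf := cf_lft hz
  have hcf' : IsClassFunction H (fun h : H => lft z (h : G)) := by
    intro g h
    exact hcf g h
  have h1 : res H z = redc M (fun h : H => lft z (h : G)) := by
    apply ga_ext; intro g
    rw [redc_coeff]
    change z.coeff (g : G) = rd M (sec M (z.coeff (g : G)))
    rw [rd_sec]
  have h2 : lam χ z = rd M (omega (χ : G → ℂ) (lft z)) := rfl
  rw [h1, h2, lam_redc ξ hcf' (fun h => rv_lft z h), rd_eq_iff
    (mlr_omega ξ hcf' (fun h => rv_lft z h)) (mlr_omega χ hcf (rv_lft z))]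
  exact omega_sub_of_induced hI hξ hχ hcf (rv_lft z)

/-- **Induced blocks and the Brauer map.** -/
theorem br_mul_of_induced (hM : IsPModular p M) {H : Subgroup G}
    {b : Set (IrrCharacter H)} {B : Set (IrrCharacter G)} (hI : IsInducedBlock M H b B)
    {P : Subgroup G} (hP : IsPGroup p P) (hPH : P ≤ H)
    (hCH : Subgroup.centralizer (P : Set G) ≤ H) {f : MonoidAlgebra (kM M) G}
    (hf : IsBlk (Subgroup.centralizer (P : Set G)) f) (hbf : br P (EB M H b) * f = f) :
    br P (eB M B) * f = f := by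
  classical
  have := Fintype.ofFinite H
  have := charP_kM hM
  have := Fact.mk hM.1
  have hEb := isBlk_EB hI.1
  have hEB := isBlk_eB hI.2.1
  obtain ⟨ξ, hξ⟩ := isPBlock_nonempty hI.1
  obtain ⟨χ, hχ⟩ := isPBlock_nonempty hI.2.1
  have hz0 := fixed_eB (M := M) B
  have hlam : lam ξ (res H (eB M B)) = 1 := by
    rw [lam_res hI hξ hχ hz0, lam_eB hI.2.1, if_pos hχ]
  have hnn : ¬ IsNilpotent (trunc H (eB M B) * EB M H b) := by
    rw [← incl_res_eq, EB_eq, ← incl_mul, isNilpotent_incl_iff,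
      isNilpotent_mul_eB_iff hI.1 hξ (res_fixed hz0), hlam]
    exact one_ne_zero
  have hzH : InZ H (trunc H (eB M B)) :=
    ⟨supp_trunc _ _, (hz0.mono le_top).trunc Subgroup.le_normalizer⟩
  obtain ⟨w, hw, hzw⟩ := (hEb.nilpotent_or_unit hzH).resolve_left hnn
  have hbrz : br P (trunc H (eB M B)) = br P (eB M B) := trunc_trunc_of_le hCH _
  have hEbrC : InZ (Subgroup.centralizer (P : Set G)) (br P (eB M B)) :=
    ⟨supp_br _ _, (hz0.mono le_top).br (centralizer_le_normalizer P)⟩
  have hcomm : br P (eB M B) * f = f * br P (eB M B) := hEbrC.comm hf.supp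
  rw [hcomm]
  rcases hf.prim (br P (eB M B)) hEbrC.1 hEbrC.2 (by
    rw [← br_mul hP (hz0.mono le_top) (hz0.mono le_top), eB_idem hI.2.1]) with h | h
  · exact h
  · exfalso
    apply hf.ne_zero
    have h1 : br P (EB M H b) = br P (eB M B) * br P w := by
      rw [← hzw, br_mul hP (hzH.2.mono hPH) (hw.2.mono hPH), hbrz]
    rw [← hbf, h1, hEbrC.comm (supp_br P w), mul_assoc, hcomm, h, mul_zero]

end dict

end Cfsg.Agent.H79
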