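import Cfsg.Agent.H79.MaxPair
import Cfsg.Agent.H79.KerPair2
import Cfsg.Agent.S0919

/-!
# Blocks of `P C_G(P)` inducing a block (S0973)
-/

set_option autoImplicit false
set_option linter.unusedSectionVars false
set_option linter.style.haveILetI false
set_option linter.unusedVariables false

namespace Cfsg.Agent.H79

open Cfsg Cfsg.Agent.CharBase Cfsg.Agent.Blk

universe u

section ext

variable {G : Type u} [Group G] [Fintype G] {p : ℕ} [Fact p.Prime] {M : Ideal AlgInt}

theorem centralizer_le_sup' (P : Subgroup G) :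
    Subgroup.centralizer (P : Set G) ≤ P ⊔ Subgroup.centralizer (P : Set G) := le_sup_right

theorem sup_le_normalizer (P : Subgroup G) :
    P ⊔ Subgroup.centralizer (P : Set G) ≤ Subgroup.normalizer (P : Set G) :=
  sup_le Subgroup.le_normalizer (centralizer_le_normalizer P)

/-- for a block `b` of `P C_G(P)` the idempotent of `b` gives a `p`-pair -/
theorem mpair_of_sup [M.IsPrime] [CharP (kM M) p] {P : Subgroup G} (hP : IsPGroup p P)
    {b : Set (IrrCharacter ↥(P ⊔ Subgroup.centralizer (P : Set G)))} (hb : IsPBlock M b) :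
    MPair p P (EB M _ b) :=
  ⟨hP, H76.isBlk_centralizer_of_sup hP rfl (isBlk_EB hb)⟩

theorem induced_iff_mpairOf (hM : IsPModular p M) [M.IsPrime] [CharP (kM M) p] {P : Subgroup G}
    (hP : IsPGroup p P)
    {b : Set (IrrCharacter ↥(P ⊔ Subgroup.centralizer (P : Set G)))} (hb : IsPBlock M b)
    {B : Set (IrrCharacter G)} (hB : IsPBlock M B) :
    IsInducedBlock M (P ⊔ Subgroup.centralizer (P : Set G)) b B ↔
      MPairOf p (eB M B) P (EB M _ b) := by
  have hpair := mpair_of_sup (M := M) hP hb
  have key : ∀ B' : Set (IrrCharacter G),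
      IsInducedBlock M (P ⊔ Subgroup.centralizer (P : Set G)) b B' →
      MPairOf p (eB M B') P (EB M _ b) := by
    intro B' hI
    refine ⟨hpair, isBlk_eB hI.2.1, ?_⟩
    refine br_mul_of_induced hM hI hP le_sup_left le_sup_right hpair.blk ?_
    rw [br_of_supp hpair.blk.supp]
    exact hpair.blk.idem
  constructor
  · exact key B
  · intro h
    obtain ⟨B', hB'⟩ := Cfsg.Agent.S0919.result p M hM P _ hP le_sup_left le_sup_right
      (sup_le_normalizer P) b hb
    have h1 := key B' hB'
    have h2 := h.unique h1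
    have h3 := eB_injective hB hB'.2.1 h2
    rw [h3]; exact hB'

end ext

end Cfsg.Agent.H79
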