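import Mathlib.GroupTheory.FiniteAbelian.Duality
import Mathlib.Analysis.Complex.Polynomial.Basic
import Mathlib.RingTheory.RootsOfUnity.AlgebraicallyClosed
import Mathlib.GroupTheory.PGroup

/-!
# Linear characters of a finite abelian group: coset sums, invariant characters
(owner: helper79)
-/

set_option autoImplicit false
set_option linter.unusedSectionVars false

namespace Cfsg.Agent.H79

section lin

variable {P : Type*} [CommGroup P] [Fintype P]

theorem sum_lin (L : Subgroup (P →* ℂˣ)) [Fintype L] (z : P) [Decidable (∀ μ ∈ L, μ z = 1)] :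
    ∑ μ : L, ((μ : P →* ℂˣ) z : ℂ) = if (∀ μ ∈ L, μ z = 1) then (Nat.card L : ℂ) else 0 := by
  classical
  split_ifs with h
  · rw [Finset.sum_congr rfl fun (μ : L) _ => by rw [h μ μ.2], Finset.sum_const, Finset.card_univ,
      Nat.card_eq_fintype_card]
    simp
  · push Not at h
    obtain ⟨μ₀, hμ₀, hz⟩ := h
    have h1 : ∑ μ : L, ((μ : P →* ℂˣ) z : ℂ) =
        ((μ₀ z : ℂˣ) : ℂ) * ∑ μ : L, ((μ : P →* ℂˣ) z : ℂ) := by
      rw [Finset.mul_sum]
      symm
      apply Fintype.sum_equiv (Equiv.mulLeft (⟨μ₀, hμ₀⟩ : L))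
      intro μ
      rw [Equiv.coe_mulLeft]
      simp
    have h2 : (1 - ((μ₀ z : ℂˣ) : ℂ)) * ∑ μ : L, ((μ : P →* ℂˣ) z : ℂ) = 0 := by
      rw [sub_mul, one_mul, ← h1, sub_self]
    rcases mul_eq_zero.1 h2 with h3 | h3
    · exfalso
      apply hz
      apply Units.ext
      rw [Units.val_one]
      exact (sub_eq_zero.1 h3).symm
    · exact h3

/-- coset sums of a function orthogonal to the nontrivial characters in `L` -/
theorem coset_sum (L : Subgroup (P →* ℂˣ)) [Fintype L] [∀ z : P, Decidable (∀ μ ∈ L, μ z = 1)]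
    (w : P → ℂ) (hw : ∀ μ ∈ L, μ ≠ 1 → ∑ u : P, w u * (μ u : ℂ) = 0) (z : P) :
    (Nat.card L : ℂ) * ∑ y ∈ Finset.univ.filter (fun y : P => ∀ μ ∈ L, μ y = 1), w (z * y) =
      ∑ u : P, w u := by
  classical
  have h1 : ∑ u : P, w u * ∑ μ : L, ((μ : P →* ℂˣ) (z⁻¹ * u) : ℂ) = ∑ u : P, w u := by
    have h2 : ∀ u : P, w u * ∑ μ : L, ((μ : P →* ℂˣ) (z⁻¹ * u) : ℂ) =
        ∑ μ : L, ((μ : P →* ℂˣ) z⁻¹ : ℂ) * (w u * ((μ : P →* ℂˣ) u : ℂ)) := by
      intro u
      rw [Finset.mul_sum]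
      refine Finset.sum_congr rfl fun μ _ => ?_
      rw [map_mul, Units.val_mul]
      ring
    rw [Finset.sum_congr rfl fun u _ => h2 u, Finset.sum_comm, Finset.sum_eq_single (1 : L)]
    · rw [← Finset.mul_sum]
      simp
    · intro μ _ hμ
      rw [← Finset.mul_sum, hw μ μ.2 (fun h => hμ (Subtype.ext h)), mul_zero]
    · intro h; exact absurd (Finset.mem_univ _) h
  rw [← h1, Finset.mul_sum, Finset.sum_filter]
  apply Fintype.sum_equiv (Equiv.mulLeft z)
  intro y
  rw [Equiv.coe_mulLeft, inv_mul_cancel_left, sum_lin]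
  split_ifs <;> ring

instance instFiniteDual : Finite (P →* ℂˣ) :=
  Finite.of_equiv P (CommGroup.monoidHom_mulEquiv_of_hasEnoughRootsOfUnity P ℂ).some.symm.toEquiv

/-- the linear characters invariant under a group of automorphisms -/
def invL (A : Subgroup (MulAut P)) : Subgroup (P →* ℂˣ) where
  carrier := {μ | ∀ a ∈ A, ∀ u : P, μ (a u) = μ u}
  one_mem' := fun _ _ _ => rfl
  mul_mem' := fun {μ ν} hμ hν a ha u => by
    rw [MonoidHom.mul_apply, MonoidHom.mul_apply, hμ a ha, hν a ha]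
  inv_mem' := fun {μ} hμ a ha u => by
    rw [MonoidHom.inv_apply, MonoidHom.inv_apply, hμ a ha]

theorem mem_invL {A : Subgroup (MulAut P)} {μ : P →* ℂˣ} :
    μ ∈ invL A ↔ ∀ a ∈ A, ∀ u : P, μ (a u) = μ u := Iff.rfl

/-- invariant characters separate fixed elements, coprime action -/
theorem eq_one_of_fixed {p : ℕ} [hp : Fact p.Prime] (hP : IsPGroup p P) (A : Subgroup (MulAut P))
    (hA : ¬ p ∣ Nat.card A) {y : P} (hy : ∀ a ∈ A, a y = y) (h : ∀ μ ∈ invL A, μ y = 1) :
    y = 1 := by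
  classical
  have : Fintype A := Fintype.ofFinite A
  by_contra hne
  obtain ⟨μ, hμ⟩ := CommGroup.exists_apply_ne_one_of_hasEnoughRootsOfUnity P ℂ hne
  have h1 : (∏ a : A, μ.comp (a : MulAut P).toMonoidHom) ∈ invL A := by
    intro b hb u
    rw [MonoidHom.finsetProd_apply, MonoidHom.finsetProd_apply]
    apply Fintype.prod_equiv (Equiv.mulRight (⟨b, hb⟩ : A))
    intro a
    rw [Equiv.coe_mulRight]
    simp
  have h2 := h _ h1
  rw [MonoidHom.finsetProd_apply, Finset.prod_congr rfl fun a _ => (by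
    change μ ((a : MulAut P) y) = μ y
    rw [hy a a.2] : _ = μ y), Finset.prod_const, Finset.card_univ] at h2
  obtain ⟨k, hk⟩ := hP y
  have h3 : (μ y) ^ (p ^ k) = 1 := by rw [← map_pow, hk, map_one]
  have h4 : Nat.Coprime (Fintype.card A) (p ^ k) := by
    rw [← Nat.card_eq_fintype_card]
    exact Nat.Coprime.pow_right _ ((Nat.Prime.coprime_iff_not_dvd hp.out).2 hA).symm
  apply hμ
  have h5 := orderOf_dvd_of_pow_eq_one h2
  have h6 := orderOf_dvd_of_pow_eq_one h3
  have h7 := Nat.dvd_gcd h5 h6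
  rw [h4] at h7
  exact orderOf_eq_one_iff.1 (Nat.dvd_one.1 h7)

end lin

end Cfsg.Agent.H79
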