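import Cfsg.Agent.H79.FixMain2
import Cfsg.Agent.H79.FixLin
import Cfsg.Agent.Char.Linear

/-!
# Counting characters of blocks with abelian defect group: fixed elements of the inertia group
(owner: helper79)
-/

set_option autoImplicit false
set_option linter.unusedSectionVars false
set_option linter.style.haveILetI false

universe u v

namespace Cfsg.Agent.H79

open scoped ComplexConjugate
open MonoidAlgebra Cfsg Cfsg.Agent.Blk Cfsg.Agent.CharBase Cfsg.Agent.BlkC Cfsg.Agent.BlkF
  Cfsg.Agent.Star Cfsg.Agent.H4 Cfsg.Agent.BlkInd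

section fin

variable {p : ℕ} [hp : Fact p.Prime] {M : Ideal AlgInt} [hMp : M.IsPrime]
  {G : Type u} [Group G] [Fintype G] {B : Set (IrrCharacter G)}

open Classical in
/-- extension of a linear character of `P` by zero -/
noncomputable def extL {P : Subgroup G} (μ : P →* ℂˣ) (g : G) : ℂ :=
  if h : g ∈ P then ((μ ⟨g, h⟩ : ℂˣ) : ℂ) else 0

theorem extL_coe {P : Subgroup G} (μ : P →* ℂˣ) (u : P) : extL μ (u : G) = (μ u : ℂ) := by
  rw [extL, dif_pos u.2]

theorem extL_mem {P : Subgroup G} (μ : P →* ℂˣ) {u : G} (hu : u ∈ P) :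
    extL μ u = (μ ⟨u, hu⟩ : ℂ) := by
  rw [extL, dif_pos hu]

theorem isCharacter_linU {H : Type*} [Group H] [Finite H] (μ : H →* ℂˣ) :
    IsCharacter H (fun v => (μ v : ℂ)) := by
  have := Fintype.ofFinite H
  have h1 : IsIrrCharacter H (fun v => (((Units.coeHom ℂ).comp μ : H →* ℂ) v)) :=
    Cfsg.Agent.Char.isIrrCharacter_of_hom _
  exact isCharacter_of_isIrr h1

theorem conj_mul_self_of_pow {z : ℂ} {n : ℕ} (hn : n ≠ 0) (hz : z ^ n = 1) : conj z * z = 1 := by
  have h1 : ‖z‖ = 1 := by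
    have h2 : ‖z‖ ^ n = 1 := by rw [← norm_pow, hz, norm_one]
    exact (pow_eq_one_iff_of_nonneg (norm_nonneg z) hn).1 h2
  rw [mul_comm, Complex.mul_conj, Complex.normSq_eq_norm_sq, h1]
  norm_num

variable (hM : IsPModular p M)

include hM in
/-- **Fixed elements of the inertia group, ranks.** -/
theorem rk_fix_step {P : Subgroup G} {e : MonoidAlgebra (kM M) G} (h : AbBlk p M B P e)
    (IH : ∀ (H : Subgroup G) [Fintype H], H ≠ ⊤ → ∀ (B' : Set (IrrCharacter H)) (P' : Subgroup H)
      (e' : MonoidAlgebra (kM M) H), AbBlk p M B' P' e' → ∀ u' ∈ P',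
      (∀ t ∈ TT P' e', t * u' * t⁻¹ = u') → ∀ f', MLe p (Subgroup.zpowers u') f' P' e' →
      rk p M (Subgroup.centralizer (Subgroup.zpowers u' : Set _)) f' = blockRank p B')
    {u : G} (hu : u ∈ P) (hfix : ∀ t ∈ TT P e, t * u * t⁻¹ = u) {f : MonoidAlgebra (kM M) G}
    (hf : MLe p (Subgroup.zpowers u) f P e) :
    rk p M (Subgroup.centralizer (Subgroup.zpowers u : Set G)) f = blockRank p B := by
  classical
  have := charP_kM hM
  letI : CommGroup P := { (inferInstance : Group P) with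
    mul_comm := fun a b => Subtype.ext (h.ab a a.2 b b.2) }
  have : Fintype P := Fintype.ofFinite P
  obtain ⟨T, hT⟩ : ∃ T, T = TT P e := ⟨_, rfl⟩
  have hTN : T ≤ Subgroup.normalizer (P : Set G) := by rw [hT]; exact stab_le _ _
  have hCT : Subgroup.centralizer (P : Set G) ≤ T := by
    rw [hT]; exact centralizer_le_stab h.mmax.1.blk
  choose E hE hEu using fun v : P =>
    existsUnique_mle h.mmax.1 (Subgroup.zpowers_le.mpr v.2 : Subgroup.zpowers (v : G) ≤ P)
  -- the group of automorphisms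
  obtain ⟨ρ, hρ⟩ : ∃ ρ : T →* MulAut P, ∀ (t : T) (v : P), ((ρ t v : P) : G) = t * v * (t : G)⁻¹ :=
    ⟨P.normalizerMonoidHom.comp (Subgroup.inclusion hTN), fun t v => rfl⟩
  obtain ⟨A, hA⟩ : ∃ A : Subgroup (MulAut P), A = ρ.range := ⟨_, rfl⟩
  have hcardA : ¬ p ∣ Nat.card A := by
    have h1 := Star.not_dvd_inertial h.mmax h.ab
    have h2 : Nat.card A = (Subgroup.centralizer (P : Set G)).relIndex T := by
      rw [hA, ← Subgroup.index_ker, Subgroup.relIndex]
      congr 1
      ext t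
      rw [MonoidHom.mem_ker, Subgroup.mem_subgroupOf, Subgroup.mem_centralizer_iff]
      constructor
      · intro h3 v hv
        have h4 := hρ t ⟨v, hv⟩
        rw [h3] at h4
        have h5 : v = t * v * (t : G)⁻¹ := h4
        rw [eq_mul_inv_iff_mul_eq] at h5
        exact h5
      · intro h3
        apply MulEquiv.ext
        intro v
        apply Subtype.ext
        rw [hρ]
        have h4 := h3 v v.2
        rw [← h4]
        simp
    rw [h2, hT]
    exact h1
  have hstab : ∀ μ ∈ invL A, StableF p P e (extL μ) := by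
    intro μ hμ
    refine stableF_of_inv hM h.mmax h.ab ?_
    intro t ht0 v hv
    have ht : t ∈ T := by rw [hT]; exact ht0
    have h1 : t * v * t⁻¹ ∈ P := (Subgroup.mem_normalizer_iff.1 (hTN ht) v).1 hv
    rw [extL_mem μ h1, extL_mem μ hv]
    congr 1
    have h2 := mem_invL.1 hμ (ρ ⟨t, ht⟩) (by rw [hA]; exact ⟨_, rfl⟩) ⟨v, hv⟩
    rw [← h2]
    congr 1
    exact Subtype.ext (hρ ⟨t, ht⟩ ⟨v, hv⟩).symm
  -- orthogonality
  obtain ⟨w, hw⟩ : ∃ w : P → ℂ, ∀ v : P, w v = (Nat.card (cT T (v : G)) : ℂ) *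
      (rk p M (Subgroup.centralizer (Subgroup.zpowers (v : G) : Set G)) (E v) : ℂ) :=
    ⟨_, fun _ => rfl⟩
  have hTc : (Nat.card T : ℂ) ≠ 0 := by exact_mod_cast Nat.card_pos.ne'
  have horth : ∀ μ ∈ invL A, μ ≠ 1 → ∑ v : P, w v * (μ v : ℂ) = 0 := by
    intro μ hμ hne
    obtain ⟨x, hx⟩ : ∃ x : P, μ x ≠ 1 := by
      by_contra hcon
      push Not at hcon
      exact hne (MonoidHom.ext hcon)
    have h1 := trace_eq hM h E hE (hstab μ hμ)
    have h2 : ∀ χ ∈ Bfin B, classInner (wstar p (wt p P e (extL μ)) (χ : G → ℂ)) (χ : G → ℂ) =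
        0 := by
      intro χ hχ
      refine trace_eq_zero hM h (hstab μ hμ) ?_ ?_ ?_ x.2 ?_ (mem_Bfin.1 hχ)
      · have h3 : (fun v : P => extL μ v) = fun v : P => (μ v : ℂ) := by
          funext v; exact extL_coe μ v
        rw [h3]
        exact Cfsg.Agent.Char.BI.isGeneralizedCharacter_of_isCharacter (isCharacter_linU μ)
      · have h3 := extL_coe μ 1
        rw [map_one, Units.val_one] at h3
        exact h3
      · intro v hv
        rw [extL_mem μ hv]
        refine conj_mul_self_of_pow (n := Nat.card P) Nat.card_pos.ne' ?_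
        have h3 : (μ ⟨v, hv⟩) ^ Nat.card P = 1 := by
          rw [← map_pow, pow_card_eq_one', map_one]
        have h4 := congrArg (fun z : ℂˣ => (z : ℂ)) h3
        simpa using h4
      · rw [extL_coe]
        intro h3
        exact hx (Units.ext h3)
    rw [Finset.sum_congr rfl h2, Finset.sum_const_zero, ← hT] at h1
    have h3 : ∑ v : P, (Nat.card (cT T (v : G)) : ℂ) * (extL μ (v : G) *
        (rk p M (Subgroup.centralizer (Subgroup.zpowers (v : G) : Set G)) (E v) : ℂ)) = 0 := by
      rcases mul_eq_zero.1 h1.symm with h4 | h4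
      · exact absurd (inv_eq_zero.1 h4) hTc
      · exact h4
    rw [← h3]
    refine Finset.sum_congr rfl fun v _ => ?_
    rw [hw, extL_coe]
    ring
  have : Fintype (invL A) := Fintype.ofFinite _
  have hL : (Nat.card (invL A) : ℂ) ≠ 0 := by exact_mod_cast Nat.card_pos.ne'
  obtain ⟨u₀, hu₀⟩ : ∃ u₀ : P, u₀ = ⟨u, hu⟩ := ⟨_, rfl⟩
  have hsum : ∑ y ∈ Finset.univ.filter (fun y : P => ∀ μ ∈ invL A, μ y = 1), w (u₀ * y) =
      ∑ y ∈ Finset.univ.filter (fun y : P => ∀ μ ∈ invL A, μ y = 1), w y := by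
    have h1 := coset_sum (invL A) w horth u₀
    have h2 := coset_sum (invL A) w horth 1
    apply mul_left_cancel₀ hL
    rw [h1, ← h2]
    simp only [one_mul]
  -- elements of the kernel fixed by `T` are trivial
  have hker : ∀ y : P, (∀ μ ∈ invL A, μ y = 1) → (∀ t ∈ T, t * (y : G) = y * t) → y = 1 := by
    intro y hy hyT
    refine eq_one_of_fixed h.mmax.1.isPGroup A hcardA ?_ hy
    intro a ha
    rw [hA] at ha
    obtain ⟨t, rfl⟩ := ha
    apply Subtype.ext
    rw [hρ, hyT t t.2]
    simp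
  have hfix' : ∀ t ∈ T, t * u = u * t := by
    intro t ht
    rw [hT] at ht
    exact mul_inv_eq_iff_eq_mul.1 (hfix t ht)
  have hcT : ∀ y : G, cT T (u * y) = cT T y := by
    intro y
    ext t
    rw [mem_cT, mem_cT]
    have h1 := hfix' t t.2
    rw [← mul_assoc, h1, mul_assoc, mul_assoc]
    exact mul_right_inj u
  -- terms with `y ≠ 1` agree
  have hterm : ∀ y : P, (∀ μ ∈ invL A, μ y = 1) → y ≠ 1 → w (u₀ * y) = w y := by
    intro y hy hy1
    have hny : Subgroup.centralizer (Subgroup.zpowers (y : G) : Set G) ≠ ⊤ := by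
      intro htop
      apply hy1
      refine hker y hy fun t _ => ?_
      have h1 : t ∈ Subgroup.centralizer (Subgroup.zpowers (y : G) : Set G) := by
        rw [htop]; exact Subgroup.mem_top t
      rw [mem_cent_zpowers] at h1
      exact h1.symm
    have hnuy : Subgroup.centralizer (Subgroup.zpowers ((u₀ * y : P) : G) : Set G) ≠ ⊤ := by
      intro htop
      apply hy1
      refine hker y hy fun t ht => ?_
      have h1 : t ∈ Subgroup.centralizer (Subgroup.zpowers ((u₀ * y : P) : G) : Set G) := by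
        rw [htop]; exact Subgroup.mem_top t
      rw [mem_cent_zpowers] at h1
      have h2 : ((u₀ * y : P) : G) = u * y := by rw [hu₀]; rfl
      rw [h2] at h1
      have h3 : u * (t * y) = u * (y * t) := by
        rw [← mul_assoc, ← mul_assoc, ← hfix' t ht, mul_assoc, h1]
      exact mul_left_cancel h3
    obtain ⟨g₁, h11, h12, h13⟩ := loc_rk hM h y.2 hu (fun t ht _ => hfix t ht)
      (fun B' P' e' h' u' hu' hf' f' hf'' => IH _ hny B' P' e' h' u' hu' hf' f' hf'') (hE y)
    obtain ⟨g₂, h21, h22, h23⟩ := loc_rk hM h (u₀ * y).2 hu (fun t ht _ => hfix t ht)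
      (fun B' P' e' h' u' hu' hf' f' hf'' => IH _ hnuy B' P' e' h' u' hu' hf' f' hf'')
      (hE (u₀ * y))
    have hcoe : ((u₀ * y : P) : G) = u * y := by rw [hu₀]; rfl
    have hK : Subgroup.centralizer (Subgroup.zpowers u : Set G) ⊓
        Subgroup.centralizer (Subgroup.zpowers ((u₀ * y : P) : G) : Set G) =
        Subgroup.centralizer (Subgroup.zpowers u : Set G) ⊓
          Subgroup.centralizer (Subgroup.zpowers (y : G) : Set G) := by
      ext t
      rw [Subgroup.mem_inf, Subgroup.mem_inf, mem_cent_zpowers, mem_cent_zpowers,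
        mem_cent_zpowers, hcoe]
      refine and_congr_right fun h1 => ?_
      rw [← mul_assoc t, ← h1, mul_assoc, mul_assoc]
      exact mul_right_inj u
    rw [hK] at h21 h23
    have hPK : P ≤ Subgroup.centralizer (Subgroup.zpowers u : Set G) ⊓
        Subgroup.centralizer (Subgroup.zpowers (y : G) : Set G) :=
      le_inf (le_centralizer_of_comm h.ab (Subgroup.zpowers_le.mpr hu))
        (le_centralizer_of_comm h.ab (Subgroup.zpowers_le.mpr y.2))
    have hgg : g₁ = g₂ := uniq_brmul hM h.mmax.1.isPGroup hPK h.mmax.1.blk.ne_zero h11 h21 h12 h22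
    rw [hw, hw]
    have hcc : Nat.card (cT T ((u₀ * y : P) : G)) = Nat.card (cT T (y : G)) := by
      rw [hcoe, hcT]
    have hrr : rk p M (Subgroup.centralizer (Subgroup.zpowers ((u₀ * y : P) : G) : Set G))
        (E (u₀ * y)) = rk p M (Subgroup.centralizer (Subgroup.zpowers (y : G) : Set G)) (E y) := by
      rw [← h23, ← h13, hgg]
    rw [hcc, hrr]
  have h1mem : (1 : P) ∈ Finset.univ.filter (fun y : P => ∀ μ ∈ invL A, μ y = 1) := by
    rw [Finset.mem_filter]
    exact ⟨Finset.mem_univ _, fun μ _ => map_one μ⟩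
  rw [← Finset.add_sum_erase _ _ h1mem, ← Finset.add_sum_erase _ _ h1mem,
    Finset.sum_congr rfl (fun y hy => hterm y (Finset.mem_filter.1 (Finset.mem_of_mem_erase hy)).2
      (Finset.ne_of_mem_erase hy)), mul_one] at hsum
  have hw1 := add_right_cancel hsum
  rw [hw, hw] at hw1
  have hc1 : Nat.card (cT T ((1 : P) : G)) = Nat.card (cT T (u₀ : G)) := by
    have h2 : ((u₀ : P) : G) = u * ((1 : P) : G) := by rw [hu₀]; simp
    rw [h2, hcT]
  rw [hc1] at hw1
  have hcc : (Nat.card (cT T (u₀ : G)) : ℂ) ≠ 0 := by exact_mod_cast Nat.card_pos.ne'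
  have hw2 := mul_left_cancel₀ hcc hw1
  have hw3 : rk p M (Subgroup.centralizer (Subgroup.zpowers (u₀ : G) : Set G)) (E u₀) =
      rk p M (Subgroup.centralizer (Subgroup.zpowers ((1 : P) : G) : Set G)) (E 1) := by
    exact_mod_cast hw2
  have hEu0 : E u₀ = f := by
    have h2 := hE u₀
    rw [hu₀] at h2 ⊢
    exact MLe.unique h.mmax.1 _ _ _ h2 hf
  have hu0 : (u₀ : G) = u := by rw [hu₀]
  rw [hEu0, hu0] at hw3
  rw [hw3]
  -- the identity element
  have h5 : MLe p (Subgroup.zpowers ((1 : P) : G)) (eB M B) P e := by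
    have h6 := mpairOf_iff.1 h.pair
    have h7 : Subgroup.zpowers ((1 : P) : G) = ⊥ := by
      rw [OneMemClass.coe_one, Subgroup.zpowers_one_eq_bot]
    rw [h7]
    exact h6.mle
  have h6 : E 1 = eB M B := MLe.unique h.mmax.1 _ _ _ (hE 1) h5
  have h7 : Subgroup.centralizer (Subgroup.zpowers ((1 : P) : G) : Set G) = ⊤ := by
    rw [OneMemClass.coe_one, Subgroup.zpowers_one_eq_bot]
    exact centralizer_bot'
  rw [h6, h7, rk_top h.hB]

end fin

section final

variable {p : ℕ} [hp : Fact p.Prime] {M : Ideal AlgInt} [hMp : M.IsPrime]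

theorem rk_fix_aux (hM : IsPModular p M) (n : ℕ) : ∀ (G : Type u) [Group G] [Fintype G],
    Nat.card G = n → ∀ (B : Set (IrrCharacter G)) (P : Subgroup G) (e : MonoidAlgebra (kM M) G),
    AbBlk p M B P e → ∀ u ∈ P, (∀ t ∈ TT P e, t * u * t⁻¹ = u) → ∀ f,
    MLe p (Subgroup.zpowers u) f P e →
    rk p M (Subgroup.centralizer (Subgroup.zpowers u : Set _)) f = blockRank p B := by
  induction n using Nat.strong_induction_on with
  | _ n ih =>
    intro G _ _ hn B P e h u hu hfix f hf
    refine rk_fix_step hM h ?_ hu hfix hf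
    intro H _ hH B' P' e' h' u' hu' hfix' f' hf'
    refine ih (Nat.card H) ?_ H rfl B' P' e' h' u' hu' hfix' f' hf'
    rw [← hn]
    refine lt_of_le_of_ne (Subgroup.card_le_card_group H) fun h => hH ?_
    exact Subgroup.eq_top_of_card_eq H h

variable {G : Type u} [Group G] [Fintype G] {B : Set (IrrCharacter G)}

theorem rk_fix (hM : IsPModular p M) {P : Subgroup G} {e : MonoidAlgebra (kM M) G}
    (h : AbBlk p M B P e) {u : G} (hu : u ∈ P) (hfix : ∀ t ∈ TT P e, t * u * t⁻¹ = u)
    {f : MonoidAlgebra (kM M) G} (hf : MLe p (Subgroup.zpowers u) f P e) :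
    rk p M (Subgroup.centralizer (Subgroup.zpowers u : Set G)) f = blockRank p B :=
  rk_fix_aux hM _ G rfl B P e h u hu hfix f hf

theorem natCard_cT (T : Subgroup G) (u : G) :
    Nat.card (cT T u) = Nat.card {t : G // t ∈ T ∧ t * u = u * t} := by
  refine Nat.card_congr ⟨fun t => ⟨t.1, t.1.2, mem_cT.1 t.2⟩,
    fun t => ⟨⟨t.1, t.2.1⟩, mem_cT.2 t.2.2⟩, fun t => rfl, fun t => rfl⟩

theorem nk_fix (hM : IsPModular p M) {P : Subgroup G} {e : MonoidAlgebra (kM M) G}
    (h : AbBlk p M B P e) {u : G} (hu : u ∈ P) (hfix : ∀ t ∈ TT P e, t * u * t⁻¹ = u)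
    {f : MonoidAlgebra (kM M) G} (hf : MLe p (Subgroup.zpowers u) f P e) :
    nk M (Subgroup.centralizer (Subgroup.zpowers u : Set G)) f = Nat.card B := by
  classical
  have := charP_kM hM
  have : Fintype P := Fintype.ofFinite P
  choose E hE hEu using fun v : P =>
    existsUnique_mle h.mmax.1 (Subgroup.zpowers_le.mpr v.2 : Subgroup.zpowers (v : G) ≤ P)
  have h1 := card_mul_eq hM h E hE
  obtain ⟨H, hH⟩ : ∃ H, H = Subgroup.centralizer (Subgroup.zpowers u : Set G) := ⟨_, rfl⟩
  have := Fintype.ofFinite (Subgroup.centralizer (Subgroup.zpowers u : Set G))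
  have h' := abBlk_loc hM h hf
  have hPH : P ≤ Subgroup.centralizer (Subgroup.zpowers u : Set G) :=
    le_centralizer_of_comm h.ab hf.le
  have hCP : Subgroup.centralizer (P : Set G) ≤ Subgroup.centralizer (Subgroup.zpowers u : Set G) :=
    centralizer_le_of_le hf.le
  have : Fintype (P.subgroupOf (Subgroup.centralizer (Subgroup.zpowers u : Set G))) :=
    Fintype.ofFinite _
  choose E' hE' hEu' using fun v : P.subgroupOf (Subgroup.centralizer (Subgroup.zpowers u : Set G)) =>
    existsUnique_mle h'.mmax.1 (Subgroup.zpowers_le.mpr v.2 :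
      Subgroup.zpowers (v : Subgroup.centralizer (Subgroup.zpowers u : Set G)) ≤ _)
  have h2 := card_mul_eq hM h' E' hE'
  have hfix' : ∀ t ∈ TT P e, t * u = u * t := fun t ht => mul_inv_eq_iff_eq_mul.1 (hfix t ht)
  have hmemT : ∀ t : Subgroup.centralizer (Subgroup.zpowers u : Set G),
      t ∈ TT (P.subgroupOf (Subgroup.centralizer (Subgroup.zpowers u : Set G)))
        (res (Subgroup.centralizer (Subgroup.zpowers u : Set G)) e) ↔ (t : G) ∈ TT P e :=
    fun t => mem_stab_res_iff hPH (h.mmax.1.blk.supp.mono hCP) t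
  have hTH : ∀ t ∈ TT P e, t ∈ Subgroup.centralizer (Subgroup.zpowers u : Set G) := by
    intro t ht
    rw [mem_cent_zpowers]
    exact (hfix' t ht).symm
  have hcardT : Nat.card (TT (P.subgroupOf (Subgroup.centralizer (Subgroup.zpowers u : Set G)))
        (res (Subgroup.centralizer (Subgroup.zpowers u : Set G)) e)) = Nat.card (TT P e) := by
    refine Nat.card_congr ⟨fun t => ⟨(t.1 : G), (hmemT t.1).1 t.2⟩,
      fun t => ⟨⟨t.1, hTH t.1 t.2⟩, (hmemT _).2 t.2⟩, fun t => rfl, fun t => rfl⟩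
  have hcardC : ∀ v : Subgroup.centralizer (Subgroup.zpowers u : Set G),
      Nat.card (cT (TT (P.subgroupOf (Subgroup.centralizer (Subgroup.zpowers u : Set G)))
        (res (Subgroup.centralizer (Subgroup.zpowers u : Set G)) e)) v) =
      Nat.card (cT (TT P e) (v : G)) := by
    intro v
    rw [natCard_cT, natCard_cT]
    refine Nat.card_congr ⟨fun t => ⟨(t.1 : G), (hmemT t.1).1 t.2.1, congrArg Subtype.val t.2.2⟩,
      fun t => ⟨⟨t.1, hTH t.1 t.2.1⟩, (hmemT _).2 t.2.1, Subtype.ext t.2.2⟩, fun t => rfl,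
      fun t => rfl⟩
  have hnk : nk M (Subgroup.centralizer (Subgroup.zpowers u : Set G)) f =
      Nat.card (chB M (Subgroup.centralizer (Subgroup.zpowers u : Set G)) f) := rfl
  have h3 : (Nat.card (chB M (Subgroup.centralizer (Subgroup.zpowers u : Set G)) f) : ℂ) =
      (Nat.card B : ℂ) := by
    rw [h1, h2, hcardT]
    congr 1
    apply Fintype.sum_equiv (Subgroup.subgroupOfEquivOfLe hPH).toEquiv
    intro v
    obtain ⟨vP, hvP⟩ : ∃ vP : P, vP = (Subgroup.subgroupOfEquivOfLe hPH).toEquiv v := ⟨_, rfl⟩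
    have hvc : (vP : G) = ((v : Subgroup.centralizer (Subgroup.zpowers u : Set G)) : G) := by
      rw [hvP]; rfl
    rw [← hvP, hcardC, hvc]
    congr 2
    -- the two local ranks
    obtain ⟨h21, h22, h23⟩ := loc_blk hM h hf (v := (v : Subgroup.centralizer
      (Subgroup.zpowers u : Set G))) v.2 (hE' v)
    have hfv := hE vP
    obtain ⟨g, h31, h32, h33⟩ := loc_rk hM h vP.2 hu (fun t ht _ => hfix t ht)
      (fun B' P' e' h' u' hu' hf' f' hf'' => rk_fix hM h' hu' hf' hf'') hfv
    rw [h23]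
    rw [hvc, inf_comm] at h31 h33
    have hPK : P ≤ Subgroup.centralizer (Subgroup.zpowers
        ((v : Subgroup.centralizer (Subgroup.zpowers u : Set G)) : G) : Set G) ⊓
        Subgroup.centralizer (Subgroup.zpowers u : Set G) :=
      le_inf (le_centralizer_of_comm h.ab (Subgroup.zpowers_le.mpr v.2)) hPH
    have hgg := uniq_brmul hM h.mmax.1.isPGroup hPK h.mmax.1.blk.ne_zero h31 h21 h32 h22
    rw [← hgg, h33]
  rw [hnk]
  exact_mod_cast h3

end final

end Cfsg.Agent.H79
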