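import Cfsg.Agent.H79.FixRk
import Cfsg.Agent.H4.ScVal
import Cfsg.Agent.H4.AbelLoc
import Mathlib.GroupTheory.FiniteAbelian.Duality

/-!
# Counting characters of blocks with abelian defect group: fixed elements of the inertia group
(owner: helper79)
-/

set_option autoImplicit false
set_option linter.unusedSectionVars false
set_option linter.style.haveILetI false

universe u v

namespace Cfsg.Agent.H79

open scoped ComplexConjugate
open MonoidAlgebra Cfsg Cfsg.Agent.Blk Cfsg.Agent.CharBase Cfsg.Agent.BlkC Cfsg.Agent.BlkF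
  Cfsg.Agent.Star Cfsg.Agent.H4 Cfsg.Agent.BlkInd

section tr

variable {p : ℕ} [hp : Fact p.Prime] {M : Ideal AlgInt} [hMp : M.IsPrime]
  {G : Type u} [Group G] [Fintype G] {B : Set (IrrCharacter G)}

/-- the data of a block with abelian defect group -/
structure AbBlk (p : ℕ) (M : Ideal AlgInt) [M.IsPrime] (B : Set (IrrCharacter G)) (P : Subgroup G)
    (e : MonoidAlgebra (kM M) G) : Prop where
  hB : IsPBlock M B
  mmax : MMax p P e
  pair : MPairOf p (eB M B) P e
  ab : ∀ x ∈ P, ∀ y ∈ P, x * y = y * x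

/-- the inertia group -/
noncomputable abbrev TT (P : Subgroup G) (e : MonoidAlgebra (kM M) G) : Subgroup G :=
  stab (Subgroup.normalizer (P : Set G)) e

theorem pel_of_mem {P : Subgroup G} (hP : IsPGroup p P) {u : G} (hu : u ∈ P) :
    ∃ k : ℕ, orderOf u = p ^ k := by
  obtain ⟨k, hk⟩ := (IsPGroup.iff_orderOf.1 hP) ⟨u, hu⟩
  exact ⟨k, by rw [← hk, ← Subgroup.orderOf_coe]⟩

theorem isDefectGroup_of_abBlk (hM : IsPModular p M) {P : Subgroup G} {e : MonoidAlgebra (kM M) G}
    (h : AbBlk p M B P e) : IsDefectGroup p M B P := by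
  have := charP_kM hM
  rw [isDefectGroup_iff hM h.hB]
  exact h.mmax.isDef h.pair

theorem trace_eq (hM : IsPModular p M) {P : Subgroup G} [Fintype P] {e : MonoidAlgebra (kM M) G}
    (h : AbBlk p M B P e) (E : P → MonoidAlgebra (kM M) G)
    (hE : ∀ u : P, MLe p (Subgroup.zpowers (u : G)) (E u) P e)
    {η : G → ℂ} (hst : StableF p P e η) :
    ∑ χ ∈ Bfin B, classInner (wstar p (wt p P e η) (χ : G → ℂ)) (χ : G → ℂ) =
      (Nat.card (TT P e) : ℂ)⁻¹ * ∑ u : P, (Nat.card (cT (TT P e) (u : G)) : ℂ) *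
        (η u * (rk p M (Subgroup.centralizer (Subgroup.zpowers (u : G) : Set G)) (E u) : ℂ)) := by
  classical
  have := charP_kM hM
  have h1 : ∀ χ ∈ Bfin B, classInner (wstar p (wt p P e η) (χ : G → ℂ)) (χ : G → ℂ) =
      (Nat.card (TT P e) : ℂ)⁻¹ * ∑ u : P, (Nat.card (cT (TT P e) (u : G)) : ℂ) /
        (Nat.card (Subgroup.centralizer ({(u : G)} : Set G)) : ℂ) *
          (η u * SS p (u : G) (E u) (χ : G → ℂ) (χ : G → ℂ)) := fun χ _ =>
    classInner_wstar_abel hM h.mmax h.ab E hE hst (irr_isClassFunction χ) (irr_isClassFunction χ)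
  rw [Finset.sum_congr rfl h1, ← Finset.mul_sum, Finset.sum_comm]
  congr 1
  refine Finset.sum_congr rfl fun u _ => ?_
  rw [← Finset.mul_sum, ← Finset.mul_sum]
  have := Fintype.ofFinite (Subgroup.centralizer (Subgroup.zpowers (u : G) : Set G))
  have hup := pel_of_mem h.mmax.1.isPGroup u.2
  obtain ⟨hc, hcE⟩ := chB_spec ((hE u).left_pair h.mmax.1).blk
  obtain ⟨c, hcc⟩ : ∃ c, c = chB M (Subgroup.centralizer (Subgroup.zpowers (u : G) : Set G)) (E u) :=
    ⟨_, rfl⟩
  have hrk : rk p M (Subgroup.centralizer (Subgroup.zpowers (u : G) : Set G)) (E u) =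
      blockRank p c := by rw [hcc]; rfl
  rw [← hcc] at hc hcE
  rw [hrk, ← hcE]
  have hind : IsInducedBlock M (Subgroup.centralizer (Subgroup.zpowers (u : G) : Set G)) c B := by
    refine ind_of_mpairOf hM h.hB hup (centralizer_zpowers_eq (u : G)) hc ?_
    rw [hcE]
    exact ((hE u).pairOf_iff h.mmax.1).mp h.pair
  have h2 : ∑ χ ∈ Bfin B, SS p (u : G) (EB M _ c) (χ : G → ℂ) (χ : G → ℂ) =
      (Nat.card (Subgroup.centralizer (Subgroup.zpowers (u : G) : Set G)) : ℂ) *
        (blockRank p c : ℂ) := by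
    rw [← sum_sc_self hM hup (centralizer_zpowers_eq (u : G)) hind, Finset.mul_sum]
    refine Finset.sum_congr rfl fun χ _ => ?_
    exact SS_EB hM (irr_isClassFunction χ) hc
  have h4 : (Nat.card (Subgroup.centralizer (Subgroup.zpowers (u : G) : Set G)) : ℂ) =
      Nat.card (Subgroup.centralizer ({(u : G)} : Set G)) := by rw [centralizer_zpowers_eq]
  rw [h2, h4]
  have h3 : (Nat.card (Subgroup.centralizer ({(u : G)} : Set G)) : ℂ) ≠ 0 := by
    exact_mod_cast Nat.card_pos.ne'
  field_simp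

/-- every character of the block has a nonzero component at every element of `P` -/
theorem dpart_ne_zero (hM : IsPModular p M) {P : Subgroup G} {e : MonoidAlgebra (kM M) G}
    (h : AbBlk p M B P e) {u : G} (hu : u ∈ P) {c : Set (IrrCharacter
      (Subgroup.centralizer (Subgroup.zpowers u : Set G)))} (hc : IsPBlock M c)
    (hE : MLe p (Subgroup.zpowers u) (EB M _ c) P e)
    [Fintype (Subgroup.centralizer (Subgroup.zpowers u : Set G))]
    {χ : IrrCharacter G} (hχ : χ ∈ B) : dpart p u c (χ : G → ℂ) ≠ 0 := by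
  classical
  have := charP_kM hM
  have hup := pel_of_mem h.mmax.1.isPGroup hu
  have hind : IsInducedBlock M (Subgroup.centralizer (Subgroup.zpowers u : Set G)) c B :=
    ind_of_mpairOf hM h.hB hup (centralizer_zpowers_eq u) hc ((hE.pairOf_iff h.mmax.1).mp h.pair)
  have hd := blockDefect_eq_of_comm hM (isDefectGroup_of_abBlk hM h) h.ab hup
    (centralizer_zpowers_eq u) hind
  obtain ⟨k, hk⟩ := hup
  obtain ⟨w, hw1, -, hw3⟩ := exists_val (j := k) hM h.hB ⟨k, by omega, hk⟩
    (centralizer_zpowers_eq u) hind hd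
  obtain ⟨ψ, hψ, hψ0⟩ := exists_nuMin (p := p) (block_nonempty h.hB)
  have hht : blockHeight p B (ψ : G → ℂ) = 0 := by
    rw [height_eq, hψ0, Nat.sub_self]
  have h2 : ¬ MemLocalIdeal M (w χ ψ) := fun h3 => (hw3 χ hχ ψ hψ).1 h3 hht
  intro h0
  apply h2
  have h3 : w χ ψ = 0 := by
    have h4 := hw1 χ hχ ψ
    have h5 : sc p u c (χ : G → ℂ) (ψ : G → ℂ) = 0 := by
      unfold sc
      rw [h0]
      simp
    rw [h5, mul_zero] at h4
    have hp0 : (p : ℂ) ^ blockHeight p B (χ : G → ℂ) ≠ 0 :=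
      pow_ne_zero _ (by exact_mod_cast hp.out.ne_zero)
    rcases mul_eq_zero.1 h4.symm with h6 | h6
    · exact absurd h6 hp0
    · exact h6
  rw [h3]
  exact mli_zero

/-- nontrivial stable linear characters act freely on `Irr(B)` -/
theorem trace_eq_zero (hM : IsPModular p M) {P : Subgroup G} [Fintype P]
    {e : MonoidAlgebra (kM M) G} (h : AbBlk p M B P e)
    {η : G → ℂ} (hst : StableF p P e η)
    (hη : IsGeneralizedCharacter P (fun v : P => η v)) (h1 : η 1 = 1)
    (hu : ∀ v ∈ P, conj (η v) * η v = 1) {x : G} (hx : x ∈ P) (hxη : η x ≠ 1)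
    {χ : IrrCharacter G} (hχ : χ ∈ B) :
    classInner (wstar p (wt p P e η) (χ : G → ℂ)) (χ : G → ℂ) = 0 := by
  classical
  have := charP_kM hM
  obtain ⟨ψ, hψ, hψe⟩ := wstar_wt_irr hM h.hB h.mmax h.pair hst hη h1 hu hχ
  rw [hψe, classInner_irr]
  by_cases hψχ : ψ = χ
  · exfalso
    obtain ⟨f, hf, -⟩ := existsUnique_mle h.mmax.1 (Subgroup.zpowers_le.mpr hx)
    obtain ⟨c, hc, rfl⟩ := exists_EB (hf.left_pair h.mmax.1).blk
    have := Fintype.ofFinite (Subgroup.centralizer (Subgroup.zpowers x : Set G))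
    have hup := pel_of_mem h.mmax.1.isPGroup hx
    have h2 := dpart_wstar (w := wt p P e η) hM (irr_isClassFunction χ) hup hc
    rw [hψe, hψχ, wt_of_mle hst hf] at h2
    have h3 := dpart_ne_zero hM h hx hc hf hχ
    apply h3
    have h4 : (1 - η x) • dpart p x c (χ : G → ℂ) = 0 := by
      rw [sub_smul, one_smul, ← h2, sub_self]
    rcases smul_eq_zero.1 h4 with h5 | h5
    · exact absurd (sub_eq_zero.1 h5).symm hxη
    · exact h5
  · rw [if_neg hψχ]

end tr

end Cfsg.Agent.H79
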