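import Cfsg.Agent.H79.FixMain

/-!
# Counting characters of blocks with abelian defect group: fixed elements of the inertia group
(owner: helper79)
-/

set_option autoImplicit false
set_option linter.unusedSectionVars false
set_option linter.style.haveILetI false

universe u v

namespace Cfsg.Agent.H79

open scoped ComplexConjugate
open MonoidAlgebra Cfsg Cfsg.Agent.Blk Cfsg.Agent.CharBase Cfsg.Agent.BlkC Cfsg.Agent.BlkF
  Cfsg.Agent.Star Cfsg.Agent.H4 Cfsg.Agent.BlkInd

section loc

variable {p : ℕ} [hp : Fact p.Prime] {M : Ideal AlgInt} [hMp : M.IsPrime]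
  {G : Type u} [Group G] [Fintype G] {B : Set (IrrCharacter G)}

theorem uniq_brmul (hM : IsPModular p M) {P K : Subgroup G} (hP : IsPGroup p P) (hPK : P ≤ K)
    {e g₁ g₂ : MonoidAlgebra (kM M) G} (he : e ≠ 0) (h1 : IsBlk K g₁) (h2 : IsBlk K g₂)
    (hb1 : br P g₁ * e = e) (hb2 : br P g₂ * e = e) : g₁ = g₂ := by
  have := charP_kM hM
  refine h1.eq_of_mul_ne_zero h2 fun h0 => he ?_
  have h3 : br P (g₁ * g₂) * e = e := by
    rw [br_mul hP (h1.fixed.mono hPK) (h2.fixed.mono hPK), mul_assoc, hb2, hb1]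
  rw [h0, br_zero, zero_mul] at h3
  exact h3.symm

theorem abBlk_loc (hM : IsPModular p M) {P : Subgroup G} {e : MonoidAlgebra (kM M) G}
    (h : AbBlk p M B P e) {Q : Subgroup G} {f : MonoidAlgebra (kM M) G} (hQ : MLe p Q f P e)
    [Fintype (Subgroup.centralizer (Q : Set G))] :
    AbBlk p M (chB M (Subgroup.centralizer (Q : Set G)) f)
      (P.subgroupOf (Subgroup.centralizer (Q : Set G)))
      (res (Subgroup.centralizer (Q : Set G)) e) := by
  have := charP_kM hM
  obtain ⟨h1, h2, h3⟩ := local_setup h.mmax h.ab hQ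
  obtain ⟨h4, h5⟩ := chB_spec (hQ.left_pair h.mmax.1).blk
  refine ⟨h4, h2, ?_, fun x hx y hy => Subtype.ext (h.ab x hx y hy)⟩
  rw [← res_EB, h5]
  exact h1

/-- the data of a pair of `C_G(Q)` seen in `G` -/
theorem loc_blk (hM : IsPModular p M) {P : Subgroup G} {e : MonoidAlgebra (kM M) G}
    (h : AbBlk p M B P e) {Q : Subgroup G} {f : MonoidAlgebra (kM M) G} (hQ : MLe p Q f P e)
    [Fintype (Subgroup.centralizer (Q : Set G))]
    {v : Subgroup.centralizer (Q : Set G)} (hv : (v : G) ∈ P)
    {f' : MonoidAlgebra (kM M) (Subgroup.centralizer (Q : Set G))}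
    (hf' : MLe p (Subgroup.zpowers v) f' (P.subgroupOf (Subgroup.centralizer (Q : Set G)))
      (res (Subgroup.centralizer (Q : Set G)) e)) :
    IsBlk (Subgroup.centralizer (Subgroup.zpowers (v : G) : Set G) ⊓
      Subgroup.centralizer (Q : Set G)) (incl _ f') ∧ br P (incl _ f') * e = e ∧
    rk p M (Subgroup.centralizer (Subgroup.zpowers v : Set (Subgroup.centralizer (Q : Set G)))) f' =
      rk p M (Subgroup.centralizer (Subgroup.zpowers (v : G) : Set G) ⊓
        Subgroup.centralizer (Q : Set G)) (incl _ f') := by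
  have := charP_kM hM
  have h' := abBlk_loc hM h hQ
  obtain ⟨H, hH⟩ : ∃ H, H = Subgroup.centralizer (Q : Set G) := ⟨_, rfl⟩
  have hP : P ≤ Subgroup.centralizer (Q : Set G) := le_centralizer_of_comm h.ab hQ.le
  have hCP : Subgroup.centralizer (P : Set G) ≤ Subgroup.centralizer (Q : Set G) :=
    centralizer_le_of_le hQ.le
  have hmP : (P.subgroupOf (Subgroup.centralizer (Q : Set G))).map
      (Subgroup.centralizer (Q : Set G)).subtype = P := map_subgroupOf' hP
  have hre : incl (Subgroup.centralizer (Q : Set G)) (res (Subgroup.centralizer (Q : Set G)) e) = e :=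
    incl_res (h.mmax.1.blk.supp.mono hCP)
  have hmap : (Subgroup.centralizer (Subgroup.zpowers v :
      Set (Subgroup.centralizer (Q : Set G)))).map (Subgroup.centralizer (Q : Set G)).subtype =
      Subgroup.centralizer (Subgroup.zpowers (v : G) : Set G) ⊓
        Subgroup.centralizer (Q : Set G) := by
    rw [map_subtype_centralizer, MonoidHom.map_zpowers]
    rfl
  have hblk := (hf'.left_pair h'.mmax.1).blk
  refine ⟨?_, ?_, ?_⟩
  · rw [← hmap, isBlk_incl_map_iff]
    exact hblk
  · have hvP' : Subgroup.zpowers v ≤ P.subgroupOf (Subgroup.centralizer (Q : Set G)) := hf'.le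
    have h1 := (MLe.mnorm hf' h'.mmax.1 ((le_centralizer_of_comm h'.ab hvP').trans
      (centralizer_le_normalizer _))).brmul
    have h2 := congrArg (incl (Subgroup.centralizer (Q : Set G))) h1
    rw [incl_mul, incl_br, hmP, hre] at h2
    exact h2
  · exact (rk_incl hmap hblk).symm

/-- the inductive step -/
theorem loc_rk (hM : IsPModular p M) {P : Subgroup G} {e : MonoidAlgebra (kM M) G}
    (h : AbBlk p M B P e) {y u : G} (hy : y ∈ P) (hu : u ∈ P)
    (hfix : ∀ t ∈ TT P e, t * y = y * t → t * u * t⁻¹ = u)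
    (IH : ∀ [Fintype (Subgroup.centralizer (Subgroup.zpowers y : Set G))]
      (B' : Set (IrrCharacter (Subgroup.centralizer (Subgroup.zpowers y : Set G))))
      (P' : Subgroup (Subgroup.centralizer (Subgroup.zpowers y : Set G)))
      (e' : MonoidAlgebra (kM M) (Subgroup.centralizer (Subgroup.zpowers y : Set G))),
      AbBlk p M B' P' e' → ∀ u' ∈ P', (∀ t ∈ TT P' e', t * u' * t⁻¹ = u') → ∀ f',
      MLe p (Subgroup.zpowers u') f' P' e' →
      rk p M (Subgroup.centralizer (Subgroup.zpowers u' : Set _)) f' = blockRank p B')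
    {f : MonoidAlgebra (kM M) G} (hf : MLe p (Subgroup.zpowers y) f P e) :
    ∃ g, IsBlk (Subgroup.centralizer (Subgroup.zpowers u : Set G) ⊓
      Subgroup.centralizer (Subgroup.zpowers y : Set G)) g ∧ br P g * e = e ∧
      rk p M (Subgroup.centralizer (Subgroup.zpowers u : Set G) ⊓
        Subgroup.centralizer (Subgroup.zpowers y : Set G)) g =
      rk p M (Subgroup.centralizer (Subgroup.zpowers y : Set G)) f := by
  have := charP_kM hM
  have := Fintype.ofFinite (Subgroup.centralizer (Subgroup.zpowers y : Set G))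
  have h' := abBlk_loc hM h hf
  have hP : P ≤ Subgroup.centralizer (Subgroup.zpowers y : Set G) :=
    le_centralizer_of_comm h.ab hf.le
  have hCP : Subgroup.centralizer (P : Set G) ≤ Subgroup.centralizer (Subgroup.zpowers y : Set G) :=
    centralizer_le_of_le hf.le
  obtain ⟨u', hu'⟩ : ∃ u' : Subgroup.centralizer (Subgroup.zpowers y : Set G), (u' : G) = u :=
    ⟨⟨u, hP hu⟩, rfl⟩
  have hu'P : u' ∈ P.subgroupOf (Subgroup.centralizer (Subgroup.zpowers y : Set G)) := by
    rw [Subgroup.mem_subgroupOf, hu']; exact hu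
  obtain ⟨f', hf', -⟩ := existsUnique_mle h'.mmax.1 (Subgroup.zpowers_le.mpr hu'P)
  have h1 := IH _ _ _ h' u' hu'P (fun t ht => by
    rw [mem_stab_res_iff hP (h.mmax.1.blk.supp.mono hCP)] at ht
    apply Subtype.ext
    have h2 := hfix t ht (by
      have := t.2
      rw [mem_cent_zpowers] at this
      exact this.symm)
    rw [Subgroup.coe_mul, Subgroup.coe_mul, Subgroup.coe_inv, hu']
    exact h2) f' hf'
  obtain ⟨h2, h3, h4⟩ := loc_blk hM h hf (v := u') (by rw [hu']; exact hu) hf'
  rw [hu'] at h2 h4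
  refine ⟨_, h2, h3, ?_⟩
  rw [← h4, h1]
  rfl

end loc

section count

variable {p : ℕ} [hp : Fact p.Prime] {M : Ideal AlgInt} [hMp : M.IsPrime]
  {G : Type u} [Group G] [Fintype G] {B : Set (IrrCharacter G)}

theorem card_mul_eq (hM : IsPModular p M) {P : Subgroup G} [Fintype P]
    {e : MonoidAlgebra (kM M) G}
    (h : AbBlk p M B P e) (E : P → MonoidAlgebra (kM M) G)
    (hE : ∀ u : P, MLe p (Subgroup.zpowers (u : G)) (E u) P e) :
    (Nat.card B : ℂ) = (Nat.card (TT P e) : ℂ)⁻¹ *
      ∑ u : P, (Nat.card (cT (TT P e) (u : G)) : ℂ) *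
        (rk p M (Subgroup.centralizer (Subgroup.zpowers (u : G) : Set G)) (E u) : ℂ) := by
  classical
  have := charP_kM hM
  have hst : StableF p P e (fun _ => (1 : ℂ)) := fun _ _ _ _ _ => rfl
  have h1 := trace_eq hM h E hE hst
  have h2 : ∀ χ ∈ Bfin B, classInner (wstar p (wt p P e (fun _ => (1 : ℂ))) (χ : G → ℂ))
      (χ : G → ℂ) = 1 := by
    intro χ hχ
    have h3 : wstar p (wt p P e (fun _ => (1 : ℂ))) (χ : G → ℂ) = (χ : G → ℂ) := by
      rw [wstar_congr hM h.hB (mem_Bfin.1 hχ) (w' := fun _ _ => 1) (fun v f hvf => by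
        obtain ⟨g, -, hg⟩ := wt_of_pair hM h.mmax h.pair hst hvf
        rw [hg])]
      exact wstar_one (irr_isClassFunction χ)
    rw [h3]
    exact classInner_irr_self χ
  rw [Finset.sum_congr rfl h2, Finset.sum_const, nsmul_eq_mul, mul_one] at h1
  rw [natCard_eq_Bfin, h1]
  simp only [one_mul]

end count

end Cfsg.Agent.H79
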