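import Cfsg.Agent.Blk.MMax
import Cfsg.Agent.Blk.Dict
import Cfsg.Agent.BG.Core

/-!
# Averaging idempotents of `p'`-subgroups and Brauer pairs
-/

set_option autoImplicit false
set_option linter.unusedSectionVars false
set_option linter.style.haveILetI false
set_option linter.unusedVariables false

namespace Cfsg.Agent.H79

open Cfsg Cfsg.Agent.Blk MonoidAlgebra

section modular

variable {k : Type*} [Field k] {G : Type*} [Group G] [Finite G] {p : ℕ}

open Classical in
/-- the averaging idempotent of a subgroup -/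
noncomputable def eW (k : Type*) [Field k] {G : Type*} [Group G] [Finite G] (W : Subgroup G) :
    MonoidAlgebra k G :=
  ofFun fun g => if g ∈ W then (Nat.card W : k)⁻¹ else 0

theorem eW_coeff_of_mem {W : Subgroup G} {g : G} (h : g ∈ W) :
    (eW k W).coeff g = (Nat.card W : k)⁻¹ := by
  rw [eW, ofFun_coeff, if_pos h]

theorem eW_coeff_of_notMem {W : Subgroup G} {g : G} (h : g ∉ W) :
    (eW k W).coeff g = 0 := by
  rw [eW, ofFun_coeff, if_neg h]

theorem supp_eW (W : Subgroup G) : Supp W (eW k W) := fun _ hg => eW_coeff_of_notMem hg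

theorem cj_eW (u : G) (W : Subgroup G) :
    cj u (eW k W) = eW k (W.map (MulAut.conj u).toMonoidHom) := by
  apply ga_ext; intro g
  rw [cj_coeff]
  have hc : Nat.card (W.map (MulAut.conj u).toMonoidHom : Subgroup G) = Nat.card W :=
    Subgroup.card_map_of_injective (MulAut.conj u).injective
  by_cases hg : g ∈ W.map (MulAut.conj u).toMonoidHom
  · rw [eW_coeff_of_mem hg, eW_coeff_of_mem ((mem_map_conj_iff W u g).1 hg), hc]
  · rw [eW_coeff_of_notMem hg, eW_coeff_of_notMem fun h => hg ((mem_map_conj_iff W u g).2 h)]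

theorem fixed_eW {H W : Subgroup G} (hN : H ≤ Subgroup.normalizer (W : Set G)) :
    Fixed H (eW k W) := fun u hu => by
  rw [cj_eW, map_conj_of_mem_normalizer (hN hu)]

theorem eW_mul_of_le {V W : Subgroup G} (hVW : V ≤ W) (hV : (Nat.card V : k) ≠ 0) :
    eW k V * eW k W = eW k W := by
  classical
  have := Fintype.ofFinite G
  have hVf := Fintype.ofFinite V
  apply ga_ext; intro g
  rw [mul_coeff]
  have h1 : ∀ h : G, (eW k V).coeff h * (eW k W).coeff (h⁻¹ * g) =
      if h ∈ V then (Nat.card V : k)⁻¹ * (eW k W).coeff g else 0 := by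
    intro h
    split_ifs with hh
    · rw [eW_coeff_of_mem hh]
      congr 1
      by_cases hg : g ∈ W
      · rw [eW_coeff_of_mem hg, eW_coeff_of_mem (W.mul_mem (W.inv_mem (hVW hh)) hg)]
      · rw [eW_coeff_of_notMem hg, eW_coeff_of_notMem]
        intro h2
        apply hg
        have := W.mul_mem (hVW hh) h2
        rwa [mul_inv_cancel_left] at this
    · rw [eW_coeff_of_notMem hh, zero_mul]
  rw [Finset.sum_congr rfl (fun h _ => h1 h), ← Finset.sum_filter, Finset.sum_const, nsmul_eq_mul]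
  have h2 : (Finset.univ.filter fun h : G => h ∈ V).card = Nat.card V := by
    rw [Nat.card_eq_fintype_card, Fintype.card_subtype]
  rw [h2, ← mul_assoc, mul_inv_cancel₀ hV, one_mul]

theorem eW_idem {W : Subgroup G} (hW : (Nat.card W : k) ≠ 0) : eW k W * eW k W = eW k W :=
  eW_mul_of_le le_rfl hW

theorem inZ_eW {H W : Subgroup G} (hWH : W ≤ H) (hN : H ≤ Subgroup.normalizer (W : Set G)) :
    InZ H (eW k W) := ⟨(supp_eW W).mono hWH, fixed_eW hN⟩

variable [Fact p.Prime] [CharP k p]

theorem natCard_inf_centralizer {P W : Subgroup G} (hP : IsPGroup p P)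
    (hN : P ≤ Subgroup.normalizer (W : Set G)) :
    (Nat.card (W ⊓ Subgroup.centralizer (P : Set G) : Subgroup G) : k) = (Nat.card W : k) := by
  classical
  let _ : MulAction P W :=
    { smul := fun u w => ⟨u * w * (u : G)⁻¹,
        (Subgroup.mem_normalizer_iff.1 (hN u.2) w).1 w.2⟩
      one_smul := fun w => Subtype.ext (by
        change ((1 : P) : G) * w * ((1 : P) : G)⁻¹ = w
        simp)
      mul_smul := fun u v w => Subtype.ext (by
        change ((u * v : P) : G) * w * ((u * v : P) : G)⁻¹ = u * (v * w * (v : G)⁻¹) * (u : G)⁻¹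
        push_cast
        group) }
  have hs : ∀ (u : P) (w : W), ((u • w : W) : G) = u * w * (u : G)⁻¹ := fun _ _ => rfl
  have h1 : Nat.card W ≡ Nat.card (MulAction.fixedPoints P W) [MOD p] :=
    hP.card_modEq_card_fixedPoints W
  have h2 : Nat.card (MulAction.fixedPoints P W) =
      Nat.card (W ⊓ Subgroup.centralizer (P : Set G) : Subgroup G) := by
    refine Nat.card_congr
      { toFun := fun w => ⟨w.1, w.1.2, ?_⟩
        invFun := fun w => ⟨⟨w.1, w.2.1⟩, ?_⟩
        left_inv := fun w => rfl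
        right_inv := fun w => rfl }
    · change ((w.1 : W) : G) ∈ Subgroup.centralizer (P : Set G)
      rw [Subgroup.mem_centralizer_iff]
      intro u hu
      have := congrArg Subtype.val (w.2 ⟨u, hu⟩)
      rw [hs] at this
      exact mul_inv_eq_iff_eq_mul.1 this
    · intro u
      apply Subtype.ext
      rw [hs]
      have h3 := w.2.2
      change (w : G) ∈ Subgroup.centralizer (P : Set G) at h3
      rw [Subgroup.mem_centralizer_iff] at h3
      exact mul_inv_eq_iff_eq_mul.2 (h3 u u.2)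
  rw [h2] at h1
  exact ((CharP.natCast_eq_natCast k p).2 h1).symm

/-- the Brauer map on averaging idempotents -/
theorem br_eW {P W : Subgroup G} (hP : IsPGroup p P)
    (hN : P ≤ Subgroup.normalizer (W : Set G)) :
    br P (eW k W) = eW k (W ⊓ Subgroup.centralizer (P : Set G)) := by
  apply ga_ext; intro g
  by_cases hg : g ∈ Subgroup.centralizer (P : Set G)
  · rw [br_coeff_of_mem _ hg]
    by_cases hgW : g ∈ W
    · have h1 : g ∈ W ⊓ Subgroup.centralizer (P : Set G) := Subgroup.mem_inf.2 ⟨hgW, hg⟩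
      rw [eW_coeff_of_mem hgW, eW_coeff_of_mem h1, natCard_inf_centralizer hP hN]
    · have h1 : g ∉ W ⊓ Subgroup.centralizer (P : Set G) := fun h => hgW (Subgroup.mem_inf.1 h).1
      rw [eW_coeff_of_notMem hgW, eW_coeff_of_notMem h1]
  · have h1 : g ∉ W ⊓ Subgroup.centralizer (P : Set G) := fun h => hg (Subgroup.mem_inf.1 h).2
    rw [br_coeff_of_notMem _ hg, eW_coeff_of_notMem h1]

theorem natCard_inf_ne {P W : Subgroup G} (hP : IsPGroup p P)
    (hN : P ≤ Subgroup.normalizer (W : Set G)) (hW : (Nat.card W : k) ≠ 0) :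
    (Nat.card (W ⊓ Subgroup.centralizer (P : Set G) : Subgroup G) : k) ≠ 0 := by
  rw [natCard_inf_centralizer hP hN]; exact hW

/-- **Down.** -/
theorem eW_down {P H W V : Subgroup G} {e f : MonoidAlgebra k G} (he : IsBlk H e)
    (hP : IsPGroup p P) (hPe : Fixed P e) (hWH : W ≤ H)
    (hHN : H ≤ Subgroup.normalizer (W : Set G)) (hPN : P ≤ Subgroup.normalizer (W : Set G))
    (hW : (Nat.card W : k) ≠ 0) (hbr : br P e * f = f) (hf : f ≠ 0) (hVf : eW k V * f = f)
    (hWV : W ⊓ Subgroup.centralizer (P : Set G) ≤ V)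
    (hcomm : br P e * f = f * br P e) :
    eW k W * e = e := by
  have hcm : eW k W * e = e * eW k W :=
    mul_comm_of_fixed (fixed_eW hHN) he.supp
  rcases he.prim (eW k W) ((supp_eW W).mono hWH) (fixed_eW hHN) (eW_idem hW) with h | h
  · rw [hcm, h]
  · exfalso
    have h1 : br P (eW k W * e) = 0 := by rw [hcm, h, br_zero]
    rw [br_mul hP (fixed_eW hPN) hPe, br_eW hP hPN] at h1
    have h2 : eW k (W ⊓ Subgroup.centralizer (P : Set G)) * f = f := by
      nth_rewrite 1 [← hVf]
      rw [← mul_assoc, eW_mul_of_le hWV (natCard_inf_ne hP hPN hW), hVf]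
    have h3 := congrArg (fun z => z * f) h1
    simp only [zero_mul] at h3
    rw [mul_assoc, hbr, h2] at h3
    exact hf h3

/-- **Up.** -/
theorem eW_up {P W U : Subgroup G} {e f : MonoidAlgebra k G}
    (hP : IsPGroup p P) (hPe : Fixed P e) (hPN : P ≤ Subgroup.normalizer (W : Set G))
    (hbr : br P e * f = f) (hWe : eW k W * e = e) (hU : (Nat.card U : k) ≠ 0)
    (hUW : U ≤ W ⊓ Subgroup.centralizer (P : Set G)) :
    eW k U * f = f := by
  have h1 := congrArg (br P) hWe
  rw [br_mul hP (fixed_eW hPN) hPe, br_eW hP hPN] at h1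
  rw [← hbr, ← mul_assoc]
  congr 1
  rw [← h1, ← mul_assoc, eW_mul_of_le hUW hU]

/-! ### The kernel condition for pairs -/

/-- the averaging idempotent of `O_{π'}(C_G(Q))` fixes `f` -/
def Kap (π : Set ℕ) (Q : Subgroup G) (f : MonoidAlgebra k G) : Prop :=
  eW k (piCoreOf {q | q ∉ π} (Subgroup.centralizer (Q : Set G))) * f = f

variable {π : Set ℕ}

theorem natCard_piCoreOf_ne (hp : p ∈ π) (X : Subgroup G) :
    (Nat.card (piCoreOf {q | q ∉ π} X) : k) ≠ 0 := by
  rw [Ne, CharP.cast_eq_zero_iff k p]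
  intro h
  exact BG.mem_of_dvd_card_piCoreOf {q | q ∉ π} X p Fact.out h hp

theorem Kap.cj {Q : Subgroup G} {f : MonoidAlgebra k G} (h : Kap π Q f) (u : G) :
    Kap π (Q.map (MulAut.conj u).toMonoidHom) (Blk.cj u f) := by
  unfold Kap at h ⊢
  rw [← map_conj_centralizer, ← BG.piCoreOf_conj, ← cj_eW, ← cj_mul, h]

theorem Kap.of_cj {Q : Subgroup G} {f : MonoidAlgebra k G} {u : G}
    (h : Kap π (Q.map (MulAut.conj u).toMonoidHom) (Blk.cj u f)) : Kap π Q f := by
  have := h.cj u⁻¹
  rwa [map_conj_map_conj, inv_mul_cancel, map_conj_one, cj_cj, inv_mul_cancel, cj_one_left] at this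

theorem MNorm_kap_down (hp : p ∈ π) {Q R : Subgroup G} {f g : MonoidAlgebra k G}
    (h : MNorm p Q f R g) (hg : Kap π R g) : Kap π Q f := by
  have hRC : R ≤ Subgroup.normalizer ((Subgroup.centralizer (Q : Set G) : Subgroup G) : Set G) :=
    h.norm.trans (normalizer_le_normalizer_centralizer Q)
  refine eW_down (V := piCoreOf {q | q ∉ π} (Subgroup.centralizer (R : Set G)))
    (P := R) h.left.blk h.right.isPGroup h.fixed (BG.piCoreOf_le _ _)
    (BG.le_normalizer_piCoreOf _ _) (hRC.trans (BG.normalizer_le_normalizer_piCoreOf _ _))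
    (natCard_piCoreOf_ne hp _) h.brmul h.right.blk.ne_zero hg ?_ ?_
  · exact BG.piCoreOf_inf_le_of_le _ (centralizer_le_of_le h.le)
  · exact (mul_comm_of_fixed h.right.blk.fixed (supp_br R f)).symm

theorem MLe_kap_down (hp : p ∈ π) {Q R : Subgroup G} {f g : MonoidAlgebra k G}
    (h : MLe p Q f R g) (hg : Kap π R g) : Kap π Q f := by
  have key : ∀ b : MIdx k G, Relation.ReflTransGen
      (fun a b : MIdx k G => MNorm p a.1 a.2 b.1 b.2) (Q, f) b → Kap π b.1 b.2 → Kap π Q f := by
    intro b hb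
    induction hb with
    | refl => exact fun h => h
    | tail _ h1 ih => exact fun h2 => ih (MNorm_kap_down hp h1 h2)
  exact key _ h hg

/-- `O_{π'}(C_G(Q))` contains all `π'`-elements of `C_G(Q)` -/
def HallC (π : Set ℕ) (Q : Subgroup G) : Prop :=
  ∀ x ∈ Subgroup.centralizer (Q : Set G), (∀ q : ℕ, q.Prime → q ∣ orderOf x → q ∉ π) →
    x ∈ piCoreOf {q | q ∉ π} (Subgroup.centralizer (Q : Set G))

theorem HallC.mono {Q R : Subgroup G} (hQR : Q ≤ R) (h : HallC π Q) : HallC π R := by
  intro x hx hπ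
  exact BG.piCoreOf_inf_le_of_le _ (centralizer_le_of_le hQR)
    ⟨h x (centralizer_le_of_le hQR hx) hπ, hx⟩

theorem orderOf_of_mem_piCoreOf {X : Subgroup G} {x : G} (h : x ∈ piCoreOf {q | q ∉ π} X) :
    ∀ q : ℕ, q.Prime → q ∣ orderOf x → q ∉ π := by
  intro q hq hqd
  refine BG.mem_of_dvd_card_piCoreOf {q | q ∉ π} X q hq (hqd.trans ?_)
  have := orderOf_dvd_natCard (⟨x, h⟩ : piCoreOf {q | q ∉ π} X)
  rwa [Subgroup.orderOf_mk] at this

theorem MNorm_kap_up (hp : p ∈ π) {Q R : Subgroup G} {f g : MonoidAlgebra k G}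
    (h : MNorm p Q f R g) (hH : HallC π Q) (hf : Kap π Q f) : Kap π R g := by
  have hRC : R ≤ Subgroup.normalizer ((Subgroup.centralizer (Q : Set G) : Subgroup G) : Set G) :=
    h.norm.trans (normalizer_le_normalizer_centralizer Q)
  refine eW_up (W := piCoreOf {q | q ∉ π} (Subgroup.centralizer (Q : Set G)))
    (P := R) h.right.isPGroup h.fixed
    (hRC.trans (BG.normalizer_le_normalizer_piCoreOf _ _)) h.brmul hf
    (natCard_piCoreOf_ne hp _) ?_
  refine le_inf ?_ (BG.piCoreOf_le _ _)
  intro x hx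
  exact hH x (centralizer_le_of_le h.le (BG.piCoreOf_le _ _ hx)) (orderOf_of_mem_piCoreOf hx)

theorem MLe_kap_up (hp : p ∈ π) {Q R : Subgroup G} {f g : MonoidAlgebra k G}
    (h : MLe p Q f R g) (hH : HallC π Q) (hf : Kap π Q f) : Kap π R g := by
  have key : ∀ b : MIdx k G, Relation.ReflTransGen
      (fun a b : MIdx k G => MNorm p a.1 a.2 b.1 b.2) (Q, f) b → HallC π b.1 ∧ Kap π b.1 b.2 := by
    intro b hb
    induction hb with
    | refl => exact ⟨hH, hf⟩
    | tail _ h1 ih => exact ⟨ih.1.mono h1.le, MNorm_kap_up hp h1 ih.1 ih.2⟩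
  exact (key _ h).2

end modular

end Cfsg.Agent.H79
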