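import Cfsg.Agent.H79.KerPair2

/-!
# The kernel condition: from the Brauer correspondent to pairs and back
-/

set_option autoImplicit false
set_option linter.unusedSectionVars false
set_option linter.style.haveILetI false
set_option linter.unusedVariables false

namespace Cfsg.Agent.H79

open Cfsg Cfsg.Agent.CharBase Cfsg.Agent.Blk MonoidAlgebra

universe u

section pairs

variable {k : Type*} [Field k] {G : Type*} [Group G] [Finite G] {p : ℕ} [Fact p.Prime] [CharP k p]
  {π : Set ℕ}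

/-- the condition for one maximal pair gives it for all pairs -/
theorem kap_all (hp : p ∈ π) {b : MonoidAlgebra k G} {D : Subgroup G} {f₁ : MonoidAlgebra k G}
    (hD : IsDef p ⊤ b D) (hf₁ : MPairOf p b D f₁) (hk : Kap π D f₁) {Q : Subgroup G}
    {f : MonoidAlgebra k G} (h : MPairOf p b Q f) : Kap π Q f := by
  obtain ⟨R, g, hR, hle⟩ := exists_max_ge h.1
  have hg : MPairOf p b R g := (hle.pairOf_iff hR.1).2 h
  have hRd := hR.isDef hg
  obtain ⟨u, -, hu⟩ := hRd.conj hD
  have hg' := hg.cj u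
  rw [← hu] at hg'
  obtain ⟨v, hv, hv2⟩ := exists_conj_of_mpairOf hD hf₁ hg'
  have h1 : Kap π D (cj u g) := by
    have := hk.cj v
    rwa [map_conj_of_mem_normalizer hv, hv2] at this
  rw [hu] at h1
  exact MLe_kap_down hp hle h1.of_cj

/-- the condition for one pair with the Hall property gives it for all maximal pairs -/
theorem kap_max (hp : p ∈ π) {b : MonoidAlgebra k G} {D : Subgroup G} {f₁ : MonoidAlgebra k G}
    (hD : IsDef p ⊤ b D) (hf₁ : MPairOf p b D f₁) {Q : Subgroup G}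
    {f : MonoidAlgebra k G} (h : MPairOf p b Q f) (hH : HallC π Q) (hk : Kap π Q f) :
    Kap π D f₁ := by
  obtain ⟨R, g, hR, hle⟩ := exists_max_ge h.1
  have hg : MPairOf p b R g := (hle.pairOf_iff hR.1).2 h
  have hRd := hR.isDef hg
  obtain ⟨u, -, hu⟩ := hRd.conj hD
  have hg' := hg.cj u
  rw [← hu] at hg'
  obtain ⟨v, hv, hv2⟩ := exists_conj_of_mpairOf hD hg' hf₁
  have h1 : Kap π R g := MLe_kap_up hp hle hH hk
  have h2 := h1.cj u
  rw [← hu] at h2
  have h3 := h2.cj v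
  rwa [map_conj_of_mem_normalizer hv, hv2] at h3

theorem piCoreOf_normalizer_le (hp : p ∈ π) {D : Subgroup G} (hD : IsPGroup p D) :
    piCoreOf {q | q ∉ π} (Subgroup.normalizer (D : Set G)) ≤ Subgroup.centralizer (D : Set G) := by
  intro w hw
  rw [Subgroup.mem_centralizer_iff]
  intro d hd
  have hdN : d ∈ Subgroup.normalizer (D : Set G) := Subgroup.le_normalizer hd
  have hwN : w ∈ Subgroup.normalizer (D : Set G) := BG.piCoreOf_le _ _ hw
  set W := piCoreOf {q | q ∉ π} (Subgroup.normalizer (D : Set G)) with hW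
  have h1 : d * w * d⁻¹ * w⁻¹ ∈ W := W.mul_mem
    ((Subgroup.mem_normalizer_iff.1 (BG.le_normalizer_piCoreOf _ _ hdN) w).1 hw) (W.inv_mem hw)
  have h2 : d * w * d⁻¹ * w⁻¹ ∈ D := by
    have h3 := (Subgroup.mem_normalizer_iff.1 hwN d⁻¹).1 (D.inv_mem hd)
    have h4 := D.mul_mem hd h3
    have h5 : d * (w * d⁻¹ * w⁻¹) = d * w * d⁻¹ * w⁻¹ := by group
    rwa [h5] at h4
  -- the order is a power of `p` and prime to `p`
  obtain ⟨n, hn⟩ := (IsPGroup.iff_orderOf.1 hD) ⟨_, h2⟩
  rw [Subgroup.orderOf_mk] at hn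
  have hpr : p.Prime := Fact.out
  have h6 : orderOf (d * w * d⁻¹ * w⁻¹) = 1 := by
    rcases Nat.eq_zero_or_pos n with rfl | hn0
    · rw [hn, pow_zero]
    · exfalso
      exact orderOf_of_mem_piCoreOf h1 p hpr (by rw [hn]; exact dvd_pow_self p hn0.ne') hp
  rw [orderOf_eq_one_iff] at h6
  rw [mul_inv_eq_one, mul_inv_eq_iff_eq_mul] at h6
  exact h6

theorem piCoreOf_normalizer_eq (hp : p ∈ π) {D : Subgroup G} (hD : IsPGroup p D) :
    piCoreOf {q | q ∉ π} (Subgroup.normalizer (D : Set G)) =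
      piCoreOf {q | q ∉ π} (Subgroup.centralizer (D : Set G)) := by
  apply le_antisymm
  · exact BG.le_piCoreOf (piCoreOf_normalizer_le hp hD)
      ((centralizer_le_normalizer D).trans (BG.le_normalizer_piCoreOf _ _))
      (BG.mem_of_dvd_card_piCoreOf _ _)
  · exact BG.piCoreOf_le_of_normal _ (centralizer_le_normalizer D)
      (normalizer_le_normalizer_centralizer D)

end pairs

section dict

variable {G : Type u} [Group G] [Finite G] {M : Ideal AlgInt} {p : ℕ}
  {π : Set ℕ}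

theorem mem_piCoreOf_iff {X : Subgroup G} {x : X} :
    (x : G) ∈ piCoreOf {q | q ∉ π} X ↔ x ∈ piCore {q | q ∉ π} X := by
  unfold piCoreOf
  constructor
  · rintro ⟨y, hy, hyx⟩
    have : y = x := Subtype.ext hyx
    rwa [← this]
  · intro h
    exact ⟨x, h, rfl⟩

theorem not_dvd_card_piCoreOf [Fact p.Prime] (hp : p ∈ π) (X : Subgroup G) :
    ¬ p ∣ Nat.card (piCoreOf {q | q ∉ π} X) := fun h =>
  BG.mem_of_dvd_card_piCoreOf {q | q ∉ π} X p Fact.out h hp

/-- For a block `b` of `H ⊵ P` there is a block of `C_G(P)` under it. -/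
theorem exists_under [hMp : M.IsPrime] [Fintype G] [Fact p.Prime] (hM : IsPModular p M)
    {H P : Subgroup G} (hP : IsPGroup p P) (hPH : P ≤ H)
    (hCH : Subgroup.centralizer (P : Set G) ≤ H)
    {b : Set (IrrCharacter H)} (hb : IsPBlock M b) (hbr : br P (EB M H b) ≠ 0) :
    ∃ f, IsBlk (Subgroup.centralizer (P : Set G)) f ∧ br P (EB M H b) * f = f := by
  have := charP_kM hM
  have hE := isBlk_EB hb
  refine exists_blk_le _ _ ⟨supp_br _ _, (hE.fixed.mono hCH).br (centralizer_le_normalizer P)⟩ ?_ hbr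
  rw [← br_mul hP (hE.fixed.mono hPH) (hE.fixed.mono hPH), hE.idem]

section corr

variable [hMp : M.IsPrime] [Fintype G] [Fact p.Prime] {B : Set (IrrCharacter G)} {D : Subgroup G}
  {B₁ : Set (IrrCharacter ↥(Subgroup.normalizer (D : Set G)))}

theorem exists_corr (hM : IsPModular p M) (hDp : IsPGroup p D)
    (hB₁ : IsInducedBlock M (Subgroup.normalizer (D : Set G)) B₁ B) :
    ∃ f, MPairOf p (eB M B) D f ∧ EB M _ B₁ * f = f := by
  have := charP_kM hM
  have hE := isBlk_EB hB₁.1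
  have h1 : br D (EB M _ B₁) = EB M _ B₁ :=
    br_eq_self_of_normal Subgroup.le_normalizer le_rfl hDp hE.inZ hE.idem
  obtain ⟨f, hf, hf2⟩ := exists_under hM hDp Subgroup.le_normalizer (centralizer_le_normalizer D)
    hB₁.1 (by rw [h1]; exact hE.ne_zero)
  refine ⟨f, ⟨⟨hDp, hf⟩, isBlk_eB hB₁.2.1, ?_⟩, ?_⟩
  · exact br_mul_of_induced hM hB₁ hDp Subgroup.le_normalizer (centralizer_le_normalizer D) hf hf2
  · rwa [h1] at hf2

theorem kap_of_ker (hM : IsPModular p M) (hp : p ∈ π) (hDp : IsPGroup p D)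
    (hB₁ : IsPBlock M B₁)
    (hker : ∀ n : ↥(Subgroup.normalizer (D : Set G)),
      n ∈ piCore {q | q ∉ π} ↥(Subgroup.normalizer (D : Set G)) → n ∈ blockKer B₁)
    {f : MonoidAlgebra (kM M) G} (hf : EB M _ B₁ * f = f) : Kap π D f := by
  have := charP_kM hM
  unfold Kap
  rw [← piCoreOf_normalizer_eq (p := p) hp hDp]
  have h1 := (eW_mul_EB_iff hM (BG.piCoreOf_le {q | q ∉ π} (Subgroup.normalizer (D : Set G)))
    (BG.le_normalizer_piCoreOf _ _) (not_dvd_card_piCoreOf hp _) hB₁).2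
    (fun x hx => hker x (mem_piCoreOf_iff.1 hx))
  rw [← hf, ← mul_assoc, h1]

theorem ker_of_kap (hM : IsPModular p M) (hp : p ∈ π) (hDp : IsPGroup p D)
    (hB₁ : IsPBlock M B₁) {f : MonoidAlgebra (kM M) G} (hf : EB M _ B₁ * f = f) (hf0 : f ≠ 0)
    (hk : Kap π D f) :
    ∀ n : ↥(Subgroup.normalizer (D : Set G)),
      n ∈ piCore {q | q ∉ π} ↥(Subgroup.normalizer (D : Set G)) → n ∈ blockKer B₁ := by
  have := charP_kM hM
  unfold Kap at hk
  rw [← piCoreOf_normalizer_eq (p := p) hp hDp] at hk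
  set W := piCoreOf {q | q ∉ π} (Subgroup.normalizer (D : Set G)) with hW
  have hWN : W ≤ Subgroup.normalizer (D : Set G) := BG.piCoreOf_le _ _
  have hNW : Subgroup.normalizer (D : Set G) ≤ Subgroup.normalizer (W : Set G) :=
    BG.le_normalizer_piCoreOf _ _
  have hWp : ¬ p ∣ Nat.card W := not_dvd_card_piCoreOf hp _
  have hE := isBlk_EB hB₁
  have h1 : eW (kM M) W * EB M _ B₁ = EB M _ B₁ := by
    have hcm : eW (kM M) W * EB M _ B₁ = EB M _ B₁ * eW (kM M) W :=
      mul_comm_of_fixed (fixed_eW hNW) hE.supp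
    rcases hE.prim (eW (kM M) W) ((supp_eW W).mono hWN) (fixed_eW hNW)
      (eW_idem (natCard_ne_kM hM hWp)) with h | h
    · rw [hcm, h]
    · exfalso
      apply hf0
      rw [← hk, ← hf, ← mul_assoc, hcm, h, zero_mul]
  intro n hn
  exact (eW_mul_EB_iff hM hWN hNW hWp hB₁).1 h1 n (mem_piCoreOf_iff.2 hn)

/-- hypothesis `(K)` gives `Kap` for all pairs -/
theorem kap_of_hyp (hM : IsPModular p M) (hp : p ∈ π) (hB : IsPBlock M B)
    (hBD : IsDefectGroup p M B D)
    (hB₁ : IsInducedBlock M (Subgroup.normalizer (D : Set G)) B₁ B)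
    (hker : ∀ n : ↥(Subgroup.normalizer (D : Set G)),
      n ∈ piCore {q | q ∉ π} ↥(Subgroup.normalizer (D : Set G)) → n ∈ blockKer B₁)
    {Q : Subgroup G} {f : MonoidAlgebra (kM M) G} (h : MPairOf p (eB M B) Q f) : Kap π Q f := by
  have := charP_kM hM
  have hD := (isDefectGroup_iff hM hB D).1 hBD
  obtain ⟨f₁, hf₁, hf₂⟩ := exists_corr hM hD.isPGroup hB₁
  exact kap_all hp hD hf₁ (kap_of_ker hM hp hD.isPGroup hB₁.1 hker hf₂) h

end corr

end dict

end Cfsg.Agent.H79
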