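import Cfsg.Agent.H79.KerPair3
import Cfsg.Agent.BlkInd.SecondMain

/-!
# Consequences of the kernel condition
-/

set_option autoImplicit false
set_option linter.unusedSectionVars false
set_option linter.style.haveILetI false
set_option linter.unusedVariables false

namespace Cfsg.Agent.H79

open Cfsg Cfsg.Agent.CharBase Cfsg.Agent.Blk MonoidAlgebra

universe u

section parts

variable {H : Type u} [Group H] [Fintype H] {M : Ideal AlgInt} [hMp : M.IsPrime]

open Classical in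
theorem blockPart_eq_ite (b : Set (IrrCharacter H)) (ϑ : H → ℂ) (y : H)
    [Fintype (IrrCharacter H)] :
    blockPart b ϑ y = ∑ χ : IrrCharacter H,
      if χ ∈ b then classInner ϑ (χ : H → ℂ) * (χ : H → ℂ) y else 0 := by
  unfold blockPart
  have hinst : Fintype.ofFinite H = ‹Fintype H› := Subsingleton.elim _ _
  rw [hinst]
  rw [finsum_mem_eq_sum_ite]

open Classical in
theorem classFun_eq_sum_blockPart {ϑ : H → ℂ} (hϑ : IsClassFunction H ϑ) (y : H)
    [Fintype (IrrCharacter H)] :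
    ϑ y = ∑ b ∈ Finset.univ.image (fun χ : IrrCharacter H => blockOf M (χ : H → ℂ)),
      blockPart b ϑ y := by
  rw [classFun_apply_eq_sum hϑ y, ← Finset.sum_fiberwise_of_maps_to (s := Finset.univ)
    (t := Finset.univ.image (fun χ : IrrCharacter H => blockOf M (χ : H → ℂ)))
    (g := fun χ : IrrCharacter H => blockOf M (χ : H → ℂ))
    (fun x hx => Finset.mem_image_of_mem _ hx)]
  refine Finset.sum_congr rfl fun b hb => ?_
  obtain ⟨ψ, -, rfl⟩ := Finset.mem_image.1 hb
  rw [blockPart_eq_ite, Finset.sum_filter]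
  refine Finset.sum_congr rfl fun χ _ => ?_
  by_cases h : blockOf M (χ : H → ℂ) = blockOf M (ψ : H → ℂ)
  · rw [if_pos h, if_pos]
    rw [← h]; exact mem_blockOf_self χ
  · rw [if_neg h, if_neg]
    intro h2
    apply h
    exact isPBlock_eq_of_mem (isPBlock_blockOf χ) (isPBlock_blockOf ψ) (mem_blockOf_self χ) h2

end parts

variable {G : Type u} [Group G] [Finite G] {M : Ideal AlgInt} {p : ℕ} [Fact p.Prime]
  {π : Set ℕ} {B : Set (IrrCharacter G)} {D : Subgroup G}
  {B₁ : Set (IrrCharacter ↥(Subgroup.normalizer (D : Set G)))}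

theorem coset_const (hM : IsPModular p M) (hp : p ∈ π) (hB : IsPBlock M B)
    (hBD : IsDefectGroup p M B D)
    (hB₁ : IsInducedBlock M (Subgroup.normalizer (D : Set G)) B₁ B)
    (hker : ∀ n : ↥(Subgroup.normalizer (D : Set G)),
      n ∈ piCore {q | q ∉ π} ↥(Subgroup.normalizer (D : Set G)) → n ∈ blockKer B₁)
    (y : G) (hy : ∃ k : ℕ, orderOf y = p ^ k)
    (hC : ∀ x : ↥(Subgroup.centralizer ({y} : Set G)),
      (∀ q : ℕ, q.Prime → q ∣ orderOf x → q ∉ π) →
        x ∈ piCore {q | q ∉ π} ↥(Subgroup.centralizer ({y} : Set G))) :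
    ∀ χ ∈ B, ∀ x : G, x ∈ Subgroup.centralizer ({y} : Set G) →
      (∀ q : ℕ, q.Prime → q ∣ orderOf x → q ∉ π) → (χ : G → ℂ) (y * x) = (χ : G → ℂ) y := by
  classical
  intro χ hχ x hx hxπ
  have := Fintype.ofFinite G
  have hMp := isPrime_of_isPModular hM
  have := charP_kM hM
  set C := Subgroup.centralizer ({y} : Set G) with hCdef
  have := Fintype.ofFinite C
  have := Fintype.ofFinite (IrrCharacter C)
  have hPp : IsPGroup p (Subgroup.zpowers y) := by
    obtain ⟨k, hk⟩ := hy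
    exact IsPGroup.of_card (by rw [Nat.card_zpowers, hk])
  have hcen : Subgroup.centralizer ((Subgroup.zpowers y : Subgroup G) : Set G) = C := by
    rw [hCdef]
    ext g
    rw [Subgroup.mem_centralizer_singleton_iff, Subgroup.mem_centralizer_iff]
    constructor
    · intro h
      exact (h y (Subgroup.mem_zpowers y)).symm
    · intro h z hz
      obtain ⟨n, rfl⟩ := Subgroup.mem_zpowers_iff.mp hz
      exact ((Commute.zpow_right (show Commute g y from h) n).eq).symm
  have hPC : Subgroup.zpowers y ≤ C := by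
    rw [Subgroup.zpowers_le, hCdef, Subgroup.mem_centralizer_singleton_iff]
  -- the blocks under `B`
  have hkerb : ∀ b : Set (IrrCharacter C), IsInducedBlock M C b B →
      ∀ c : C, c ∈ piCore {q | q ∉ π} C → c ∈ blockKer b := by
    intro b hb c hc
    have hE : IsBlk C (EB M C b) := isBlk_EB hb.1
    have hE' : IsBlk (Subgroup.centralizer ((Subgroup.zpowers y : Subgroup G) : Set G))
        (EB M C b) := by rw [hcen]; exact hE
    have hbr : br (Subgroup.zpowers y) (EB M C b) = EB M C b := br_of_supp hE'.supp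
    have h1 := br_mul_of_induced hM hb hPp hPC hcen.le hE' (by rw [hbr, hE.idem])
    have h2 : MPairOf p (eB M B) (Subgroup.zpowers y) (EB M C b) :=
      ⟨⟨hPp, hE'⟩, isBlk_eB hB, h1⟩
    have h3 : Kap π (Subgroup.zpowers y) (EB M C b) := kap_of_hyp hM hp hB hBD hB₁ hker h2
    unfold Kap at h3
    rw [hcen] at h3
    exact (eW_mul_EB_iff hM (BG.piCoreOf_le _ _) (BG.le_normalizer_piCoreOf _ _)
      (not_dvd_card_piCoreOf hp _) hb.1).1 h3 c (mem_piCoreOf_iff.2 hc)
  set F : C → ℂ := fun c : C => (χ : G → ℂ) (y * (c : G)) with hF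
  have hFc : IsClassFunction C F := BlkInd.classFun_translate rfl (irr_isClassFunction χ)
  have hxr : ¬ p ∣ orderOf (⟨x, hx⟩ : C) := by
    intro h
    rw [Subgroup.orderOf_mk] at h
    exact hxπ p Fact.out h hp
  have h1r : ¬ p ∣ orderOf (1 : C) := by
    rw [orderOf_one]
    exact (Fact.out : p.Prime).one_lt.ne' ∘ Nat.dvd_one.1
  have key : F ⟨x, hx⟩ = F 1 := by
    rw [classFun_eq_sum_blockPart (M := M) hFc ⟨x, hx⟩, classFun_eq_sum_blockPart (M := M) hFc 1]
    refine Finset.sum_congr rfl fun b hb => ?_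
    obtain ⟨ψ, -, rfl⟩ := Finset.mem_image.1 hb
    set b := blockOf M (ψ : C → ℂ) with hbdef
    have hbb : IsPBlock M b := isPBlock_blockOf ψ
    by_cases hI : IsInducedBlock M C b B
    · rw [blockPart_eq_ite, blockPart_eq_ite]
      refine Finset.sum_congr rfl fun θ _ => ?_
      split_ifs with hθ
      · have := hkerb b hI ⟨x, hx⟩ (hC _ (by
          intro q hq hqd
          rw [Subgroup.orderOf_mk] at hqd
          exact hxπ q hq hqd)) θ hθ
        rw [this]
      · rfl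
    · rw [BlkInd.second_main_blockPart hM hy rfl hB hχ hbb hI _ hxr,
        BlkInd.second_main_blockPart hM hy rfl hB hχ hbb hI _ h1r]
  have h2 : F 1 = (χ : G → ℂ) y := by
    change (χ : G → ℂ) (y * ((1 : C) : G)) = _
    rw [Subgroup.coe_one, mul_one]
  rw [← h2, ← key]

/-- S4734 -/
theorem ker_descends (hM : IsPModular p M) (hp : p ∈ π) (hB : IsPBlock M B)
    (hBD : IsDefectGroup p M B D)
    (hB₁ : IsInducedBlock M (Subgroup.normalizer (D : Set G)) B₁ B)
    (hker : ∀ n : ↥(Subgroup.normalizer (D : Set G)),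
      n ∈ piCore {q | q ∉ π} ↥(Subgroup.normalizer (D : Set G)) → n ∈ blockKer B₁)
    {G₀ : Subgroup G} {B₀ : Set (IrrCharacter ↥G₀)} (hB₀ : IsInducedBlock M G₀ B₀ B)
    {D₀ : Subgroup ↥G₀} (hD₀ : IsDefectGroup p M B₀ D₀)
    (hC : Subgroup.centralizer ((D₀.map G₀.subtype : Subgroup G) : Set G) ≤ G₀) :
    ∀ x : ↥G₀, x ∈ piCore {q | q ∉ π} ↥G₀ → x ∈ blockKer B₀ := by
  classical
  have := Fintype.ofFinite G
  have hMp := isPrime_of_isPModular hM
  have := charP_kM hM
  have hD := (isDefectGroup_iff' hM hB₀.1 D₀).1 hD₀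
  set P := D₀.map G₀.subtype with hPdef
  have hE := isBlk_EB hB₀.1
  obtain ⟨f, hf, hf2⟩ := exists_under hM hD.isPGroup hD.le hC hB₀.1 hD.br_ne
  have h1 := br_mul_of_induced hM hB₀ hD.isPGroup hD.le hC hf hf2
  have h2 : MPairOf p (eB M B) P f := ⟨⟨hD.isPGroup, hf⟩, isBlk_eB hB, h1⟩
  have h3 : Kap π P f := kap_of_hyp hM hp hB hBD hB₁ hker h2
  have h4 : eW (kM M) (piCoreOf {q | q ∉ π} G₀) * EB M G₀ B₀ = EB M G₀ B₀ := by
    refine eW_down (V := piCoreOf {q | q ∉ π} (Subgroup.centralizer (P : Set G)))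
      hE hD.isPGroup (hE.fixed.mono hD.le) (BG.piCoreOf_le _ _)
      (BG.le_normalizer_piCoreOf _ _) (hD.le.trans (BG.le_normalizer_piCoreOf _ _))
      (natCard_piCoreOf_ne hp _) hf2 hf.ne_zero h3 (BG.piCoreOf_inf_le_of_le _ hC) ?_
    exact (mul_comm_of_fixed hf.fixed (supp_br P _)).symm
  intro x hx
  exact (eW_mul_EB_iff hM (BG.piCoreOf_le _ _) (BG.le_normalizer_piCoreOf _ _)
    (not_dvd_card_piCoreOf hp _) hB₀.1).1 h4 x (mem_piCoreOf_iff.2 hx)

/-- S4728 -/
theorem ker_of_local (hM : IsPModular p M) (hp : p ∈ π) (hB : IsPBlock M B)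
    (hBD : IsDefectGroup p M B D)
    (hB₁ : IsInducedBlock M (Subgroup.normalizer (D : Set G)) B₁ B)
    {D₀ : Subgroup G} (hD₀ : IsPGroup p D₀) {H₀ : Subgroup G}
    (hH₀ : H₀ = D₀ ⊔ Subgroup.centralizer (D₀ : Set G)) {b : Set (IrrCharacter ↥H₀)}
    (hb : IsInducedBlock M H₀ b B)
    (hcompl : ∀ x : ↥(Subgroup.centralizer (D₀ : Set G)),
      (∀ q : ℕ, q.Prime → q ∣ orderOf x → q ∉ π) →
        x ∈ piCore {q | q ∉ π} ↥(Subgroup.centralizer (D₀ : Set G)))
    (hkerb : ∀ x : ↥(Subgroup.centralizer (D₀ : Set G)),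
      x ∈ piCore {q | q ∉ π} ↥(Subgroup.centralizer (D₀ : Set G)) →
        ∀ θ ∈ b, ∀ h : ↥H₀, (h : G) = (x : G) → (θ : ↥H₀ → ℂ) h = (θ : ↥H₀ → ℂ) 1) :
    ∀ n : ↥(Subgroup.normalizer (D : Set G)),
      n ∈ piCore {q | q ∉ π} ↥(Subgroup.normalizer (D : Set G)) → n ∈ blockKer B₁ := by
  classical
  have := Fintype.ofFinite G
  have hMp := isPrime_of_isPModular hM
  have := charP_kM hM
  have hD := (isDefectGroup_iff hM hB D).1 hBD
  have hDH : D₀ ≤ H₀ := by rw [hH₀]; exact le_sup_left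
  have hCH : Subgroup.centralizer (D₀ : Set G) ≤ H₀ := by rw [hH₀]; exact le_sup_right
  have hHN : H₀ ≤ Subgroup.normalizer (D₀ : Set G) := by
    rw [hH₀]; exact sup_le Subgroup.le_normalizer (centralizer_le_normalizer D₀)
  have hE := isBlk_EB hb.1
  have hbr : br D₀ (EB M H₀ b) = EB M H₀ b :=
    br_eq_self_of_normal hDH hHN hD₀ hE.inZ hE.idem
  obtain ⟨f, hf, hf2⟩ := exists_under hM hD₀ hDH hCH hb.1 (by rw [hbr]; exact hE.ne_zero)
  have h1 := br_mul_of_induced hM hb hD₀ hDH hCH hf hf2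
  rw [hbr] at hf2
  have h2 : MPairOf p (eB M B) D₀ f := ⟨⟨hD₀, hf⟩, isBlk_eB hB, h1⟩
  have hHall : HallC π D₀ := by
    intro x hx hxπ
    have := hcompl ⟨x, hx⟩ (by
      intro q hq hqd
      rw [Subgroup.orderOf_mk] at hqd
      exact hxπ q hq hqd)
    exact mem_piCoreOf_iff.2 this
  have hHN' : H₀ ≤ Subgroup.normalizer
      ((piCoreOf {q | q ∉ π} (Subgroup.centralizer (D₀ : Set G)) : Subgroup G) : Set G) :=
    (hHN.trans (normalizer_le_normalizer_centralizer D₀)).trans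
      (BG.normalizer_le_normalizer_piCoreOf _ _)
  have h3 : Kap π D₀ f := by
    unfold Kap
    have h4 := (eW_mul_EB_iff hM ((BG.piCoreOf_le {q | q ∉ π} _).trans hCH) hHN'
      (not_dvd_card_piCoreOf hp _) hb.1).2 (fun x hx θ hθ => by
        obtain ⟨c, hc, hcx⟩ := hx
        exact hkerb c hc θ hθ x hcx.symm)
    rw [← hf2, ← mul_assoc, h4]
  obtain ⟨f₁, hf₁, hf₂⟩ := exists_corr hM hD.isPGroup hB₁
  have h5 : Kap π D f₁ := kap_max hp hD hf₁ h2 hHall h3
  exact ker_of_kap hM hp hD.isPGroup hB₁.1 hf₂ hf₁.1.blk.ne_zero h5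

end Cfsg.Agent.H79
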