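import Mathlib
import Cfsg.Agent.H79.ModV

/-! Faithful characters of degree `(p-1)/2`. -/

set_option autoImplicit false

namespace Cfsg.Agent.H79.MR

open Module Subgroup
open scoped MatrixGroups
open Cfsg.Agent

universe u v w

section eigb

variable {V : Type v} [AddCommGroup V] [Module ℂ V] {ι : Type w} [Finite ι]

theorem eig_mem (b : Basis ι ℂ V) {A : Module.End ℂ V} {μ : ι → ℂ} (hA : ∀ i, A (b i) = μ i • b i)
    {x : V} (hx : x ≠ 0) {c : ℂ} (hc : A x = c • x) : ∃ i, c = μ i ∧ b.repr x i ≠ 0 := by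
  classical
  have := Fintype.ofFinite ι
  have h1 : ∃ i, b.repr x i ≠ 0 := by
    by_contra hcon
    push Not at hcon
    apply hx
    apply b.repr.injective
    rw [map_zero]
    ext i
    exact hcon i
  obtain ⟨i, hi⟩ := h1
  refine ⟨i, ?_, hi⟩
  have h2 : ∀ y : V, b.repr (A y) i = μ i * b.repr y i := by
    intro y
    have h3 : y = ∑ j, b.repr y j • b j := (b.sum_repr y).symm
    conv_lhs => rw [h3]
    rw [map_sum, map_sum, Finsupp.finsetSum_apply]
    rw [Finset.sum_eq_single i]
    · rw [map_smul, hA, map_smul, map_smul]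
      simp [mul_comm]
    · intro j _ hj
      rw [map_smul, hA, map_smul, map_smul]
      simp [Finsupp.single_apply, hj]
    · intro h; exact absurd (Finset.mem_univ i) h
  have h3 := h2 x
  rw [hc, map_smul] at h3
  have h4 : c * b.repr x i = μ i * b.repr x i := h3
  exact mul_right_cancel₀ hi h4

theorem eig_line (b : Basis ι ℂ V) {A : Module.End ℂ V} {μ : ι → ℂ} (hμ : Function.Injective μ)
    (hA : ∀ i, A (b i) = μ i • b i) {C : Module.End ℂ V} (hC : C * A = A * C) (i : ι) :
    ∃ c : ℂ, C (b i) = c • b i := by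
  classical
  have := Fintype.ofFinite ι
  have h1 : A (C (b i)) = μ i • C (b i) := by
    have h2 : (A * C) (b i) = (C * A) (b i) := by rw [hC]
    have h3 : A (C (b i)) = C (A (b i)) := h2
    rw [h3, hA, map_smul]
  refine ⟨b.repr (C (b i)) i, ?_⟩
  have h2 : ∀ j, j ≠ i → b.repr (C (b i)) j = 0 := by
    intro j hj
    have h3 : ∀ y : V, b.repr (A y) j = μ j * b.repr y j := by
      intro y
      have h3 : y = ∑ l, b.repr y l • b l := (b.sum_repr y).symm
      conv_lhs => rw [h3]
      rw [map_sum, map_sum, Finsupp.finsetSum_apply]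
      rw [Finset.sum_eq_single j]
      · rw [map_smul, hA, map_smul, map_smul]
        simp [mul_comm]
      · intro l _ hl
        rw [map_smul, hA, map_smul, map_smul]
        simp [Finsupp.single_apply, hl]
      · intro h; exact absurd (Finset.mem_univ j) h
    have h4 := h3 (C (b i))
    rw [h1, map_smul] at h4
    have h5 : μ i * b.repr (C (b i)) j = μ j * b.repr (C (b i)) j := h4
    by_contra hne
    exact hj (hμ (mul_right_cancel₀ hne h5)).symm
  conv_lhs => rw [← b.sum_repr (C (b i))]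
  rw [Finset.sum_eq_single i]
  · intro j _ hj
    rw [h2 j hj, zero_smul]
  · intro h; exact absurd (Finset.mem_univ i) h

theorem comm_of_comm (b : Basis ι ℂ V) {A : Module.End ℂ V} {μ : ι → ℂ} (hμ : Function.Injective μ)
    (hA : ∀ i, A (b i) = μ i • b i) {C D : Module.End ℂ V} (hC : C * A = A * C)
    (hD : D * A = A * D) : C * D = D * C := by
  apply b.ext
  intro i
  obtain ⟨c, hc⟩ := eig_line b hμ hA hC i
  obtain ⟨d, hd⟩ := eig_line b hμ hA hD i
  show C (D (b i)) = D (C (b i))
  rw [hc, hd, map_smul, map_smul, hc, hd, smul_comm]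

end eigb

section main

variable {G : Type u} [Group G] [Finite G] {p : ℕ} [hp : Fact p.Prime]

omit [Finite G] hp in
theorem closure_pow_normal : (Subgroup.closure {g : G | g ^ p = 1}).Normal := by
  constructor
  intro x hx g
  induction hx using Subgroup.closure_induction with
  | mem x hx =>
    apply Subgroup.subset_closure
    have hx : x ^ p = 1 := hx
    show (g * x * g⁻¹) ^ p = 1
    rw [conj_pow, hx]; group
  | one => rw [mul_one, mul_inv_cancel]; exact one_mem _
  | mul x y _ _ hx hy =>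
    have : g * (x * y) * g⁻¹ = (g * x * g⁻¹) * (g * y * g⁻¹) := by group
    rw [this]; exact mul_mem hx hy
  | inv x _ hx =>
    have : g * x⁻¹ * g⁻¹ = (g * x * g⁻¹)⁻¹ := by group
    rw [this]; exact inv_mem hx

omit [Finite G] hp in
theorem closure_sub_top : Subgroup.closure {h : Subgroup.closure {g : G | g ^ p = 1} | h ^ p = 1} = ⊤ := by
  rw [eq_top_iff, ← Subgroup.closure_closure_coe_preimage (k := {g : G | g ^ p = 1})]
  apply Subgroup.closure_mono
  intro h hh
  have hh : (h : G) ^ p = 1 := hh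
  show h ^ p = 1
  exact Subtype.ext hh

/-- The kernel of the map to `PSL(2,p)` commutes with the element of order `p`. -/
theorem ker_comm_u (h5 : 5 ≤ p) {u : G} (hu : orderOf u = p) (hsq : ¬ p ^ 2 ∣ Nat.card G) {n : ℕ}
    (ρ : G →* Module.End ℂ (Fin n → ℂ)) (hρ : Function.Injective ρ) (hn : 2 * n + 1 ≤ p)
    {π : G →* PSL(2, ZMod p)} (hπ : Function.Surjective π) {d : G} (hd : d ∈ π.ker) :
    d * u = u * d := by
  obtain ⟨-, hv⟩ := orderOf_map hu hsq hπ
  let H : Subgroup G := (zpowers (π u)).comap π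
  have huH : u ∈ H := by
    show π u ∈ zpowers (π u)
    exact mem_zpowers _
  have hdH : d ∈ H := by
    show π d ∈ zpowers (π u)
    rw [MonoidHom.mem_ker.mp hd]
    exact one_mem _
  have huH' : orderOf (⟨u, huH⟩ : H) = p := (Subgroup.orderOf_coe _).symm.trans hu
  have hsqH : ¬ p ^ 2 ∣ Nat.card H := fun h => hsq (h.trans (Subgroup.card_subgroup_dvd_card H))
  rcases normal_or_sq huH' hsqH (ρ.comp H.subtype) (hρ.comp Subtype.val_injective) hn with h | ⟨h, -⟩
  · have h1 := h.conj_mem _ (mem_zpowers _) (⟨d, hdH⟩ : H)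
    rw [← mem_powers_iff_mem_zpowers] at h1
    obtain ⟨m, hm⟩ := h1
    have hm' : u ^ m = d * u * d⁻¹ := congrArg Subtype.val hm
    have h2 : π u ^ m = π u ^ 1 := by
      rw [← map_pow, hm', map_mul, map_mul, map_inv, MonoidHom.mem_ker.mp hd]
      group
    have h3 : u ^ m = u ^ 1 := by
      rw [pow_inj_mod, hv] at h2
      rw [pow_inj_mod, hu]
      exact h2
    rw [h3, pow_one] at hm'
    exact (mul_inv_eq_iff_eq_mul.mp hm'.symm)
  · exfalso
    have h2 : ¬ p ∣ 2 := by
      intro h2
      have := Nat.le_of_dvd (by norm_num) h2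
      omega
    obtain ⟨x, -, hx⟩ := h 2 h2
    have hx' : (x : G) * u * (x : G)⁻¹ = u ^ 4 := congrArg Subtype.val hx
    have hcomm : Commute (π x) (π u) := by
      have h1 : π x ∈ zpowers (π u) := x.2
      obtain ⟨j, hj⟩ := h1
      have hj : (π u) ^ j = π x := hj
      rw [← hj]
      exact (Commute.refl _).zpow_left j
    have h3 := congrArg π hx'
    rw [map_mul, map_mul, map_inv, map_pow, hcomm.eq, mul_inv_cancel_right] at h3
    have h4 : π u ^ 3 = 1 := by
      have h5 : π u * π u ^ 3 = π u * 1 := by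
        rw [← pow_succ', mul_one]; exact h3.symm
      exact mul_left_cancel h5
    have h6 : p ∣ 3 := by
      have := orderOf_dvd_of_pow_eq_one h4
      rwa [hv] at this
    have := Nat.le_of_dvd (by norm_num) h6
    omega

theorem ker_central (h5 : 5 ≤ p) {u : G} (hu : orderOf u = p) (hsq : ¬ p ^ 2 ∣ Nat.card G) {n : ℕ}
    (ρ : G →* Module.End ℂ (Fin n → ℂ)) (hρ : Function.Injective ρ) (hn : 2 * n + 1 ≤ p)
    (hgen : Subgroup.closure {g : G | g ^ p = 1} = ⊤)
    {π : G →* PSL(2, ZMod p)} (hπ : Function.Surjective π) {d : G} (hd : d ∈ π.ker) (g : G) :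
    d * g = g * d := by
  have h1 : (⊤ : Subgroup G) ≤ Subgroup.centralizer {d} := by
    rw [← hgen, Subgroup.closure_le]
    intro h hh
    have hh : h ^ p = 1 := hh
    obtain ⟨x, hx⟩ := exists_conj_mem hu hsq hh
    obtain ⟨j, hj⟩ := hx
    have hj : u ^ j = x⁻¹ * h * x := hj
    have hd' : x⁻¹ * d * x ∈ π.ker := by
      have := (inferInstance : π.ker.Normal).conj_mem d hd x⁻¹
      rwa [inv_inv] at this
    have h2 := ker_comm_u h5 hu hsq ρ hρ hn hπ hd'
    have h3 : Commute (x⁻¹ * d * x) (x⁻¹ * h * x) := by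
      rw [← hj]
      exact Commute.zpow_right h2 j
    show h ∈ Subgroup.centralizer {d}
    rw [Subgroup.mem_centralizer_singleton_iff]
    have h4 : d * h = x * ((x⁻¹ * d * x) * (x⁻¹ * h * x)) * x⁻¹ := by group
    have h5 : h * d = x * ((x⁻¹ * h * x) * (x⁻¹ * d * x)) * x⁻¹ := by group
    rw [h4, h5, h3.eq]
  have h2 := h1 (Subgroup.mem_top g)
  rw [Subgroup.mem_centralizer_singleton_iff] at h2
  exact h2.symm

omit [Finite G] in
theorem mem_ker_of_central (h5 : 5 ≤ p) {π : G →* PSL(2, ZMod p)} (hπ : Function.Surjective π)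
    {z : G} (hz : ∀ g, z * g = g * z) : z ∈ π.ker := by
  have h20 : (2 : ZMod p) ≠ 0 := by
    intro h
    have h3 : ((2 : ℕ) : ZMod p) = 0 := by exact_mod_cast h
    rw [ZMod.natCast_eq_zero_iff] at h3
    have := Nat.le_of_dvd (by norm_num) h3
    omega
  have h1 : ∀ q, π z * q = q * π z := by
    intro q
    obtain ⟨g, rfl⟩ := hπ q
    rw [← map_mul, ← map_mul, hz g]
  exact center_Q h20 (h1 _) (h1 _)

end main

end Cfsg.Agent.H79.MR
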