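import Mathlib
import Cfsg.Agent.H79.ModW

/-! Faithful characters of degree `(p-1)/2`: the group modulo its centre is `PSL(2,p)`. -/

set_option autoImplicit false

namespace Cfsg.Agent.H79.MR

open Module Subgroup
open scoped MatrixGroups
open Cfsg.Agent

universe u v w

section main

variable {G : Type u} [Group G] [Finite G] {p : ℕ} [hp : Fact p.Prime]

omit [Finite G] in
/-- An element acting trivially modulo central `p'`-elements on a group generated by elements
of order `p` acts trivially. -/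
theorem aut_trivial {π : G →* PSL(2, ZMod p)} (hker : ¬ p ∣ Nat.card π.ker)
    (hcen : ∀ d ∈ π.ker, ∀ g, d * g = g * d) (hgen : Subgroup.closure {g : G | g ^ p = 1} = ⊤)
    (φ : G →* G) (hφ : ∀ g, π (φ g) = π g) (g : G) : φ g = g := by
  have h1 : φ.eqLocus (MonoidHom.id G) = ⊤ := by
    rw [eq_top_iff, ← hgen, Subgroup.closure_le]
    intro h hh
    have hh : h ^ p = 1 := hh
    show φ h = h
    have h2 : φ h * h⁻¹ ∈ π.ker := by
      rw [MonoidHom.mem_ker, map_mul, hφ, map_inv, mul_inv_cancel]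
    have h3 : (φ h * h⁻¹) ^ p = 1 := by
      have h4 : Commute (φ h * h⁻¹) h := hcen _ h2 h
      have h5 := h4.mul_pow p
      rw [inv_mul_cancel_right, hh, mul_one, ← map_pow, hh, map_one] at h5
      exact h5.symm
    have h4 : φ h * h⁻¹ = 1 := by
      by_contra hne
      have h5 : orderOf (φ h * h⁻¹) = p := orderOf_eq_prime h3 hne
      apply hker
      have h6 : orderOf (⟨_, h2⟩ : π.ker) = p := (Subgroup.orderOf_coe _).symm.trans h5
      have h7 := orderOf_dvd_natCard (⟨_, h2⟩ : π.ker)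
      rwa [h6] at h7
    exact mul_inv_eq_one.mp h4
  have h2 : g ∈ φ.eqLocus (MonoidHom.id G) := by rw [h1]; exact Subgroup.mem_top g
  exact h2

/-- An injective endomorphism of `G` fixing `u` agrees with the conjugation by a power of `u`. -/
theorem exists_pow_conj (h5 : 5 ≤ p) {π : G →* PSL(2, ZMod p)} (hπ : Function.Surjective π)
    {u : G} (hv : orderOf (π u) = p) (hker : ¬ p ∣ Nat.card π.ker)
    (hcen : ∀ d ∈ π.ker, ∀ g, d * g = g * d) (hgen : Subgroup.closure {g : G | g ^ p = 1} = ⊤)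
    (φ : MulAut G) (hφu : φ u = u) : ∃ i : ℕ, ∀ g, φ g = u ^ i * g * (u ^ i)⁻¹ := by
  -- the induced endomorphism
  let π' : G →* PSL(2, ZMod p) := π.comp φ.toMonoidHom
  have hle : π.ker ≤ π'.ker := by
    intro d hd
    show π (φ d) = 1
    have h1 : φ d ∈ π.ker := by
      apply mem_ker_of_central h5 hπ
      intro g
      have h2 := congrArg φ (hcen d hd (φ.symm g))
      rw [map_mul, map_mul, MulEquiv.apply_symm_apply] at h2
      exact h2
    exact h1
  let α : PSL(2, ZMod p) →* PSL(2, ZMod p) :=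
    (QuotientGroup.lift π.ker π' hle).comp
      (QuotientGroup.quotientKerEquivOfSurjective π hπ).symm.toMonoidHom
  have hα : ∀ g, α (π g) = π (φ g) := by
    intro g
    show (QuotientGroup.lift π.ker π' hle)
      ((QuotientGroup.quotientKerEquivOfSurjective π hπ).symm (π g)) = _
    have h1 : (QuotientGroup.quotientKerEquivOfSurjective π hπ).symm (π g) =
        (QuotientGroup.mk g : G ⧸ π.ker) := by
      rw [MulEquiv.symm_apply_eq]
      rfl
    rw [h1]
    rfl
  have hinj : Function.Injective α := by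
    rw [injective_iff_map_eq_one]
    intro q hq
    obtain ⟨g, rfl⟩ := hπ q
    rw [hα] at hq
    have h1 : φ g ∈ π.ker := hq
    have h2 : g ∈ π.ker := by
      apply mem_ker_of_central h5 hπ
      intro h
      have h2 := congrArg φ.symm (hcen _ h1 (φ h))
      rw [map_mul, map_mul, MulEquiv.symm_apply_apply, MulEquiv.symm_apply_apply] at h2
      exact h2
    exact h2
  obtain ⟨i, hi⟩ := end_inner (k := ZMod p) (p := p) (fun a => ⟨a.val, ZMod.natCast_zmod_val a⟩)
    (Nat.card_zmod p) (by omega) α hinj hv (by rw [hα, hφu])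
  refine ⟨i, ?_⟩
  let ψ : G →* G := ((MulAut.conj (u ^ i))⁻¹ : MulAut G).toMonoidHom.comp φ.toMonoidHom
  have hψ : ∀ g, ψ g = (u ^ i)⁻¹ * φ g * u ^ i := by
    intro g
    show (MulAut.conj (u ^ i))⁻¹ (φ g) = _
    rw [MulAut.conj_inv_apply]
  have h1 := aut_trivial hker hcen hgen ψ (by
    intro g
    rw [hψ, map_mul, map_mul, map_inv, map_pow, ← hα, hi]
    group)
  intro g
  have h2 := h1 g
  rw [hψ] at h2
  conv_rhs => rw [← h2]
  group

/-- The main structural statement. -/
theorem psl_of_half (hdiv : p ∣ Nat.card G) (hsq : ¬ p ^ 2 ∣ Nat.card G)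
    (hnn : ∀ H : Subgroup G, H.Normal → Nat.card H ≠ p) {n : ℕ}
    (ρ : G →* Module.End ℂ (Fin n → ℂ)) (hρ : Function.Injective ρ) (hn : 2 * n + 1 = p) :
    Nonempty ((G ⧸ Subgroup.center G) ≃* PSL(2, ZMod p)) := by
  classical
  obtain ⟨u, hu⟩ := exists_prime_orderOf_dvd_card' (G := G) p hdiv
  have hu1 : u ≠ 1 := by
    rintro rfl
    rw [orderOf_one] at hu
    exact hp.out.one_lt.ne hu
  have hup : u ^ p = 1 := by rw [← hu]; exact pow_orderOf_eq_one u
  have hnu : ¬ (zpowers u).Normal := fun h => hnn _ h (by rw [Nat.card_zpowers, hu])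
  -- `p ≥ 5`
  have h5 : 5 ≤ p := by
    by_contra hcon
    have h2 := hp.out.two_le
    have hn1 : n = 1 := by
      have : p ≠ 4 := by rintro rfl; exact absurd hp.out (by norm_num)
      omega
    subst hn1
    apply hnu
    constructor
    intro y hy g
    have hcomm : g * y = y * g := by
      apply hρ
      rw [map_mul, map_mul]
      have hsc : ∀ a : Module.End ℂ (Fin 1 → ℂ), ∃ c : ℂ, a = c • 1 := by
        intro a
        refine ⟨a (fun _ => 1) 0, ?_⟩
        apply LinearMap.ext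
        intro x
        have hx : x = x 0 • (fun _ => (1 : ℂ)) := by
          ext i
          rw [Subsingleton.elim i 0]
          simp
        ext i
        rw [Subsingleton.elim i 0]
        conv_lhs => rw [hx, map_smul]
        show x 0 * a (fun _ => 1) 0 = a (fun _ => 1) 0 * x 0
        rw [mul_comm]
      obtain ⟨a, ha⟩ := hsc (ρ g)
      obtain ⟨b, hb⟩ := hsc (ρ y)
      rw [ha, hb, smul_mul_smul_comm, smul_mul_smul_comm, mul_comm a b]
    rw [hcomm, mul_inv_cancel_right]
    exact hy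
  let G1 : Subgroup G := Subgroup.closure {g : G | g ^ p = 1}
  obtain ⟨hsqs, π, hπ⟩ : (∀ a : ℕ, ¬ p ∣ a → ∃ x ∈ G1, x * u * x⁻¹ = u ^ (a ^ 2)) ∧
      ∃ π : G1 →* PSL(2, ZMod p), Function.Surjective π :=
    (normal_or_sq hu hsq ρ hρ hn.le).resolve_left hnu
  have hG1n : G1.Normal := closure_pow_normal
  have huG : u ∈ G1 := Subgroup.subset_closure hup
  let u1 : G1 := ⟨u, huG⟩
  have hu1' : orderOf u1 = p := (Subgroup.orderOf_coe _).symm.trans hu
  have hsq1 : ¬ p ^ 2 ∣ Nat.card G1 := fun h => hsq (h.trans (Subgroup.card_subgroup_dvd_card G1))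
  have hgen : Subgroup.closure {h : G1 | h ^ p = 1} = ⊤ := closure_sub_top
  obtain ⟨hker, hv⟩ := orderOf_map hu1' hsq1 hπ
  have hcen : ∀ d ∈ π.ker, ∀ g, d * g = g * d := fun d hd g =>
    ker_central h5 hu1' hsq1 (ρ.comp G1.subtype) (hρ.comp Subtype.val_injective) hn.le hgen hπ hd g
  -- the eigenbasis
  have hA : ρ u ^ p = 1 := by rw [← map_pow, hup, map_one]
  have hA1 : ρ u ≠ 1 := by
    intro h
    exact hu1 (hρ (by rw [h, map_one]))
  obtain ⟨ζ, v, hζ, hev⟩ := exists_eigvecs hA hA1 (conj_data ρ (fun a ha => by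
      obtain ⟨x, -, hx⟩ := hsqs a ha
      exact ⟨x, hx⟩))
  have hli := eigvecs_indep hζ hev
  have hhalf : (p - 1) / 2 = n := by omega
  have hne : Nonempty (Fin ((p - 1) / 2)) := ⟨⟨0, by omega⟩⟩
  let b : Basis (Fin ((p - 1) / 2)) ℂ (Fin n → ℂ) := basisOfLinearIndependentOfCardEqFinrank hli
    (by rw [Fintype.card_fin, Module.finrank_fin_fun, hhalf])
  have hb : ∀ i : Fin ((p - 1) / 2), b i = v i := by
    intro i
    simp [b]
  have hAb : ∀ i : Fin ((p - 1) / 2), ρ u (b i) = ζ ^ (((i : ℕ) + 1) ^ 2) • b i := by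
    intro i
    rw [hb]
    exact Module.End.mem_eigenspace_iff.mp (hev i (by omega)).1
  have hμ := pow_sq_inj hζ
  -- the centralizer of `u` is commutative
  have hCab : ∀ c d : G, c * u = u * c → d * u = u * d → c * d = d * c := by
    intro c d hc hd
    apply hρ
    rw [map_mul, map_mul]
    exact comm_of_comm b hμ hAb (by rw [← map_mul, hc, map_mul]) (by rw [← map_mul, hd, map_mul])
  -- decomposition
  have hdec : ∀ x : G, ∃ g ∈ G1, ∃ c : G, c * u = u * c ∧ x = g * c := by
    intro x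
    have hxp : (x * u * x⁻¹) ^ p = 1 := by rw [conj_pow, hup]; group
    have hxG : x * u * x⁻¹ ∈ G1 := Subgroup.subset_closure hxp
    obtain ⟨g, hg⟩ := exists_conj_mem hu1' hsq1 (y := (⟨_, hxG⟩ : G1)) (Subtype.ext hxp)
    rw [← mem_powers_iff_mem_zpowers] at hg
    obtain ⟨m, hm⟩ := hg
    have hm' : u ^ m = (g : G)⁻¹ * (x * u * x⁻¹) * g := congrArg Subtype.val hm
    set y : G := (g : G)⁻¹ * x with hy
    have hyu : y * u * y⁻¹ = u ^ m := by rw [hm', hy]; group
    -- the eigenvalue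
    let i0 : Fin ((p - 1) / 2) := ⟨0, by omega⟩
    have h1 : ρ u (ρ y⁻¹ (b i0)) = (ζ ^ m) • (ρ y⁻¹ (b i0)) := by
      have h2 : ∀ k : ℕ, (ρ u ^ k) (b i0) = ζ ^ k • b i0 := by
        intro k
        induction k with
        | zero => simp
        | succ k ih =>
          have h7 : ρ u (b i0) = ζ • b i0 := by
            have h8 := hAb i0
            have h9 : ζ ^ (((i0 : Fin ((p - 1) / 2)) : ℕ) + 1) ^ 2 = ζ := by
              show ζ ^ ((0 + 1) ^ 2) = ζ
              rw [zero_add, one_pow, pow_one]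
            rw [h9] at h8
            exact h8
          rw [pow_succ', Module.End.mul_apply, ih, map_smul, h7, smul_smul, pow_succ]
      have h3 : ρ u * ρ y⁻¹ = ρ y⁻¹ * ρ u ^ m := by
        rw [← map_mul, ← map_pow, ← map_mul, ← hyu]
        congr 1
        group
      have h4 := congrArg (fun Z : Module.End ℂ (Fin n → ℂ) => Z (b i0)) h3
      have h6 : ρ u (ρ y⁻¹ (b i0)) = ρ y⁻¹ ((ρ u ^ m) (b i0)) := h4
      rw [h6, h2, map_smul]
    have h0 : ρ y⁻¹ (b i0) ≠ 0 := by
      intro h
      have h2 : ρ y (ρ y⁻¹ (b i0)) = b i0 := by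
        have h3 := rho_inv ρ y
        exact congrArg (fun Z : Module.End ℂ (Fin n → ℂ) => Z (b i0)) h3
      rw [h, map_zero] at h2
      exact b.ne_zero i0 h2.symm
    obtain ⟨i, hi, -⟩ := eig_mem b hAb h0 h1
    have h2 : m ≡ ((i : ℕ) + 1) ^ 2 [MOD p] := modEq_of_pow hζ hi
    have hnd : ¬ p ∣ ((i : ℕ) + 1) := by
      intro h
      have := Nat.le_of_dvd (by omega) h
      omega
    obtain ⟨x1, hx1, hx1u⟩ := hsqs _ hnd
    have h3 : u ^ m = u ^ (((i : ℕ) + 1) ^ 2) := by
      rw [pow_inj_mod, hu]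
      exact h2
    refine ⟨(g : G) * x1, mul_mem g.2 hx1, x1⁻¹ * y, ?_, ?_⟩
    · have h4 : x1 * u * x1⁻¹ = y * u * y⁻¹ := by rw [hx1u, hyu, h3]
      have h6 : y * u = x1 * u * x1⁻¹ * y := by rw [h4]; group
      rw [mul_assoc, h6]
      group
    · rw [hy]; group
  -- elements commuting with `u` act as powers of `u`
  have hcen2 : ∀ c : G, c * u = u * c → ∃ i : ℕ, ∀ g ∈ G1, c * g * c⁻¹ = u ^ i * g * (u ^ i)⁻¹ := by
    intro c hc
    have h1 : (MulAut.conjNormal c : MulAut G1) u1 = u1 := by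
      apply Subtype.ext
      rw [MulAut.conjNormal_apply]
      show c * u * c⁻¹ = u
      rw [hc, mul_inv_cancel_right]
    obtain ⟨i, hi⟩ := exists_pow_conj h5 hπ hv hker hcen hgen (MulAut.conjNormal c : MulAut G1) h1
    refine ⟨i, ?_⟩
    intro g hg
    have h2 := congrArg Subtype.val (hi ⟨g, hg⟩)
    rw [MulAut.conjNormal_apply] at h2
    exact h2
  -- the centralizer of `G1` is the centre
  have hcent : ∀ z : G, (∀ g ∈ G1, z * g = g * z) → z ∈ Subgroup.center G := by
    intro z hz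
    rw [Subgroup.mem_center_iff]
    intro x
    obtain ⟨g, hg, c, hc, rfl⟩ := hdec x
    have h1 := hCab z c (hz u huG) hc
    rw [mul_assoc, ← h1, ← mul_assoc, ← hz g hg, mul_assoc]
  have hdec2 : ∀ x : G, ∃ g ∈ G1, x * g⁻¹ ∈ Subgroup.center G := by
    intro x
    obtain ⟨g, hg, c, hc, rfl⟩ := hdec x
    obtain ⟨i, hi⟩ := hcen2 c hc
    refine ⟨g * u ^ i, mul_mem hg (pow_mem huG i), ?_⟩
    have h1 : (u ^ i)⁻¹ * c ∈ Subgroup.center G := by
      apply hcent
      intro g hg
      have h2 := hi g hg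
      have h3 : c * g = u ^ i * g * (u ^ i)⁻¹ * c := by rw [← h2]; group
      rw [mul_assoc, h3]
      group
    have h2 : c * (u ^ i)⁻¹ = (u ^ i)⁻¹ * c := by
      have h3 : Commute c (u ^ i) := Commute.pow_right hc i
      exact h3.inv_right.eq
    have h3 : g * c * (g * u ^ i)⁻¹ = g * (c * (u ^ i)⁻¹) * g⁻¹ := by group
    rw [h3, h2, (Subgroup.mem_center_iff.mp h1 g), mul_inv_cancel_right]
    exact h1
  -- the isomorphism
  let f : G1 →* G ⧸ Subgroup.center G := (QuotientGroup.mk' _).comp G1.subtype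
  have hfs : Function.Surjective f := by
    intro q
    obtain ⟨x, rfl⟩ := QuotientGroup.mk'_surjective _ q
    obtain ⟨g, hg, h⟩ := hdec2 x
    refine ⟨⟨g, hg⟩, ?_⟩
    show (QuotientGroup.mk g : G ⧸ Subgroup.center G) = QuotientGroup.mk x
    rw [QuotientGroup.eq]
    have h1 : g⁻¹ * x = x * g⁻¹ := by
      have h2 := Subgroup.mem_center_iff.mp h g⁻¹
      have h3 : g⁻¹ * (x * g⁻¹) = x * g⁻¹ * g⁻¹ := h2
      have h4 : g⁻¹ * x = g⁻¹ * (x * g⁻¹) * g := by group
      rw [h4, h3]; group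
    rw [h1]; exact h
  have hfk : f.ker = π.ker := by
    ext g
    constructor
    · intro hg
      have h1 : (QuotientGroup.mk (g : G) : G ⧸ Subgroup.center G) = 1 := hg
      rw [QuotientGroup.eq_one_iff, Subgroup.mem_center_iff] at h1
      apply mem_ker_of_central h5 hπ
      intro h
      exact Subtype.ext (h1 h).symm
    · intro hg
      show (QuotientGroup.mk (g : G) : G ⧸ Subgroup.center G) = 1
      rw [QuotientGroup.eq_one_iff]
      apply hcent
      intro h hh
      exact congrArg Subtype.val (hcen g hg ⟨h, hh⟩)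
  exact ⟨(QuotientGroup.quotientKerEquivOfSurjective f hfs).symm.trans
    ((QuotientGroup.quotientMulEquivOfEq hfk).trans
      (QuotientGroup.quotientKerEquivOfSurjective π hπ))⟩

end main

end Cfsg.Agent.H79.MR
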